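import Cfsg.Agent.Lib.ElusT.NTwo

/-!
# Isometries `1 + A` with `A ^ 2 = 0`
-/

set_option autoImplicit false
set_option linter.unusedSectionVars false
set_option linter.style.haveILetI false
set_option linter.unusedVariables false
set_option linter.unusedSimpArgs false

open Polynomial Module QuadraticMap Matrix

universe u v w

namespace Cfsg.Agent.Lib.ElusT.NAlt

open Cfsg Cfsg.Agent.Lib.ElusL.Basic Cfsg.Agent.Lib.ElusF.Form Cfsg.Agent.Lib.ElusF.Step
  Cfsg.Agent.Lib.ElusQ.Syl Cfsg.Agent.Lib.ElusQ.Disc Cfsg.Agent.Lib.ElusQ.Bridge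
  Cfsg.Agent.Lib.ElusT.QType Cfsg.Agent.Lib.ElusT.QK1 Cfsg.Agent.Lib.ElusT.NBase Cfsg.Agent.Lib.ElusT.NTwo
  Cfsg.Agent.Lib.Elusive.OmegaMem

section general

variable {F : Type u} [Field F] {V : Type v} [AddCommGroup V] [Module F V]
  {Q : QuadraticForm F V}

/-- Isometries `1 + A` with `A ^ 2 = 0`. -/
structure IV (Q : QuadraticForm F V) (A : End F V) : Prop where
  iso : ∀ v, Q (v + A v) = Q v
  sq : ∀ v, A (A v) = 0

namespace IV

variable {A : End F V} (h : IV Q A)
include h

theorem polar_iso (u v : V) : polarBilin Q (u + A u) (v + A v) = polarBilin Q u v := by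
  change polar (⇑Q) (u + A u) (v + A v) = polar (⇑Q) u v
  unfold polar
  have h1 : u + A u + (v + A v) = (u + v) + A (u + v) := by
    rw [map_add]
    abel
  rw [h1, h.iso, h.iso, h.iso]

theorem skew (u v : V) : polarBilin Q (A u) v = - polarBilin Q u (A v) := by
  have h1 := h.polar_iso u (v - A v)
  have h2 : v - A v + A (v - A v) = v := by
    rw [map_sub, h.sq]
    abel
  rw [h2] at h1
  simp only [map_add, map_sub, LinearMap.add_apply, LinearMap.sub_apply] at h1
  linear_combination h1

theorem polar_AA (u v : V) : polarBilin Q (A u) (A v) = 0 := by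
  rw [h.skew, h.sq]
  simp

theorem Q_A (v : V) : Q (A v) = - polarBilin Q v (A v) := by
  have h1 := h.iso v
  have h2 : Q (v + A v) = Q v + Q (A v) + polar (⇑Q) v (A v) := QuadraticMap.map_add Q _ _
  rw [h1] at h2
  change Q (A v) = - polar (⇑Q) v (A v)
  linear_combination -h2

/-- The associated isometry. -/
theorem iso_T (u v : V) : polarBilin Q ((1 + A) u) ((1 + A) v) = polarBilin Q u v := by
  simpa using h.polar_iso u v

theorem ti_map (W : Submodule F V) : TI (fun u v => polarBilin Q u v) (W.map A) := by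
  rintro _ ⟨x, -, rfl⟩ _ ⟨y, -, rfl⟩
  exact h.polar_AA x y

end IV

/-- `A`-invariance is invariance under `1 + A`. -/
theorem inv_T_iff {A : End F V} {W : Submodule F V} : Inv (1 + A) W ↔ ∀ v ∈ W, A v ∈ W := by
  constructor
  · intro hI v hv
    have h1 := W.sub_mem (hI v hv) hv
    simpa using h1
  · intro hI v hv
    simpa using W.add_mem hv (hI v hv)

variable [Fintype F] [FiniteDimensional F V]

namespace IV

variable {A : End F V} (h : IV Q A)
include h

theorem rank_le (hN : (polarBilin Q).Nondegenerate) {W : Submodule F V} (hW : Nd (fun u v => polarBilin Q u v) W)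
    (hWi : ∀ v ∈ W, A v ∈ W) : 2 * finrank F (W.map A) ≤ finrank F W := by
  have hB := fm_of_symm (polar_symm Q) hN
  apply hB.two_mul_finrank_le hW _ (h.ti_map W)
  rintro _ ⟨x, hx, rfl⟩
  exact hWi x hx

theorem inv_orth (hN : (polarBilin Q).Nondegenerate) {W : Submodule F V} (hWi : ∀ v ∈ W, A v ∈ W) :
    ∀ c ∈ (fm_of_symm (polar_symm Q) hN).orth W, A c ∈ (fm_of_symm (polar_symm Q) hN).orth W := by
  intro c hc w hw
  change polarBilin Q w (A c) = 0
  have h1 := h.skew w c
  have h2 : polarBilin Q (A w) c = 0 := hc _ (hWi w hw)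
  rw [h2] at h1
  exact neg_eq_zero.mp h1.symm

/-- Free subspaces. -/
theorem free_sub (hN : (polarBilin Q).Nondegenerate) {U W : Submodule F V}
    (hU : Nd (fun u v => polarBilin Q u v) U) (hUi : ∀ v ∈ U, A v ∈ U)
    (hfree : 2 * finrank F (U.map A) = finrank F U) (hW : Nd (fun u v => polarBilin Q u v) W) (hWU : W ≤ U)
    (hWi : ∀ v ∈ W, A v ∈ W) :
    2 * finrank F (W.map A) = finrank F W ∧
      2 * finrank F ((U ⊓ (fm_of_symm (polar_symm Q) hN).orth W : Submodule F V).map A) =
        finrank F (U ⊓ (fm_of_symm (polar_symm Q) hN).orth W : Submodule F V) := by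
  have hB := fm_of_symm (polar_symm Q) hN
  have hC := hB.nd_inf_orth hU hW hWU
  have hCi : ∀ v ∈ (U ⊓ (fm_of_symm (polar_symm Q) hN).orth W : Submodule F V),
      A v ∈ (U ⊓ (fm_of_symm (polar_symm Q) hN).orth W : Submodule F V) :=
    fun v hv => ⟨hUi v hv.1, h.inv_orth hN hWi v hv.2⟩
  have h1 := h.rank_le hN hW hWi
  have h2 := h.rank_le hN hC hCi
  obtain ⟨hsup, hdis⟩ := hB.isCompl_inf_orth hW hWU
  have h3 : U.map A = W.map A ⊔ (U ⊓ (fm_of_symm (polar_symm Q) hN).orth W : Submodule F V).map A := by
    rw [← Submodule.map_sup, hsup]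
  have h4 := Submodule.finrank_add_le_finrank_add_finrank (W.map A)
    ((U ⊓ (fm_of_symm (polar_symm Q) hN).orth W : Submodule F V).map A)
  rw [← h3] at h4
  have h5 := hB.finrank_inf_orth hU hWU
  omega

end IV

/-- The type of a subspace with a large image. -/
theorem hyS_of_ts_map {A : End F V} (hts : ∀ v, Q (A v) = 0) {W : Submodule F V} (hWi : ∀ v ∈ W, A v ∈ W)
    (h2 : 2 * finrank F (W.map A) = finrank F W) : HyS Q W := by
  refine ⟨W.map A, ?_, ?_, h2⟩
  · rintro _ ⟨x, hx, rfl⟩
    exact hWi x hx
  · rintro _ ⟨x, -, rfl⟩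
    exact hts x

/-- The rank is even if the form is alternating. -/
theorem even_rank {A : End F V} (h : IV Q A) (hts : ∀ v, Q (A v) = 0) {W : Submodule F V}
    (hW : Nd (fun u v => polarBilin Q u v) W) (hWi : ∀ v ∈ W, A v ∈ W) : Even (finrank F (W.map A)) := by
  classical
  have hS := polar_symm Q
  have hself : ∀ v, polarBilin Q v (A v) = 0 := by
    intro v
    have := h.Q_A v
    rw [hts] at this
    exact neg_eq_zero.mp this.symm
  let L : W →ₗ[F] V := A.domRestrict W
  have hLr : LinearMap.range L = W.map A := LinearMap.range_domRestrict W A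
  obtain ⟨Y, hY⟩ := Submodule.exists_isCompl (LinearMap.ker L)
  have hdim : finrank F Y = finrank F (W.map A) := by
    have h1 := LinearMap.finrank_range_add_finrank_ker L
    have h2 := Submodule.finrank_add_eq_of_isCompl hY
    rw [hLr] at h1
    omega
  let B : Y → Y → F := fun y y' => polarBilin Q ((y : W) : V) (A ((y' : W) : V))
  have hB : Fm (RingHom.id F) (-1) B :=
    { add_l := fun u v w => by
        simp only [B, Submodule.coe_add, map_add, LinearMap.add_apply]
      smul_l := fun c u v => by
        simp only [B, Submodule.coe_smul, map_smul, LinearMap.smul_apply, smul_eq_mul]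
      herm := fun u v => by
        simp only [B, RingHom.id_apply]
        have h1 := h.skew (u : W) (v : W)
        rw [hS.eq] at h1
        change polarBilin Q ((v : W) : V) (A ((u : W) : V)) = _ at h1
        rw [h1]
        ring
      nd := fun u hu => by
        have hAu : A ((u : W) : V) = 0 := by
          apply hW _ (hWi _ (u : W).2)
          intro w hw
          change polarBilin Q _ _ = 0
          have hw' : (⟨w, hw⟩ : W) ∈ LinearMap.ker L ⊔ Y := by
            rw [hY.sup_eq_top]
            trivial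
          obtain ⟨k, hk, y, hy, hky⟩ := Submodule.mem_sup.mp hw'
          have hkA : A ((k : W) : V) = 0 := LinearMap.mem_ker.mp hk
          have hw2 : w = (k : V) + ((y : W) : V) := by
            have := congrArg Subtype.val hky
            simpa using this.symm
          rw [h.skew, hw2, map_add, hkA, zero_add]
          have h3 := hu ⟨y, hy⟩
          change polarBilin Q ((u : W) : V) (A (y : V)) = 0 at h3
          rw [h3, neg_zero]
        apply Subtype.ext
        exact Submodule.disjoint_def.mp hY.disjoint _ (LinearMap.mem_ker.mpr hAu) u.2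
      σσ := fun c => rfl
      ε0 := neg_ne_zero.mpr one_ne_zero }
  have := Cfsg.Agent.Lib.ElusF.SpPos.even_of_nd hB (fun u => hself _) _ ⊤ rfl hB.nd_top
  rwa [finrank_top, hdim] at this

/-- Construction of an element with prescribed image. -/
theorem exists_AT (hN : (polarBilin Q).Nondegenerate) {U : Submodule F V} (hU : ∀ u ∈ U, Q u = 0) {g : ℕ}
    (hd : finrank F U = 2 * g) :
    ∃ A : End F V, IV Q A ∧ (∀ v, Q (A v) = 0) ∧ LinearMap.range A = U := by
  classical
  have hTI := ti_of_ts hU
  have hcard : finrank F U = finrank F (Fin g ⊕ Fin g → F) := by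
    rw [Module.finrank_fintype_fun_eq_card, hd]
    simp [two_mul]
  let e : U ≃ₗ[F] (Fin g ⊕ Fin g → F) := LinearEquiv.ofFinrankEq _ _ hcard
  let b : Module.Basis (Fin g ⊕ Fin g) F U := Module.Basis.ofEquivFun e
  let bb : Fin g ⊕ Fin g → V := fun i => (b i : V)
  have hbb : ∀ i, bb i ∈ U := fun i => (b i).2
  let A : End F V := ∑ j : Fin g, (((polarBilin Q).flip (bb (.inl j))).smulRight (bb (.inr j)) -
      ((polarBilin Q).flip (bb (.inr j))).smulRight (bb (.inl j)))
  have hAa : ∀ v, A v = ∑ j : Fin g, (polarBilin Q v (bb (.inl j)) • bb (.inr j) -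
      polarBilin Q v (bb (.inr j)) • bb (.inl j)) := by
    intro v
    simp [A, LinearMap.sum_apply]
  have hAU : ∀ v, A v ∈ U := by
    intro v
    rw [hAa]
    exact U.sum_mem fun j _ => U.sub_mem (U.smul_mem _ (hbb _)) (U.smul_mem _ (hbb _))
  have hself : ∀ v, polarBilin Q v (A v) = 0 := by
    intro v
    rw [hAa, map_sum]
    apply Finset.sum_eq_zero
    intro j _
    simp only [map_sub, map_smul, smul_eq_mul]
    ring
  have hsq : ∀ v, A (A v) = 0 := by
    intro v
    rw [hAa (A v)]
    apply Finset.sum_eq_zero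
    intro j _
    have h1 : polarBilin Q (A v) (bb (.inl j)) = 0 := hTI _ (hAU v) _ (hbb _)
    have h2 : polarBilin Q (A v) (bb (.inr j)) = 0 := hTI _ (hAU v) _ (hbb _)
    rw [h1, h2]
    simp
  have hts : ∀ v, Q (A v) = 0 := fun v => hU _ (hAU v)
  refine ⟨A, ⟨fun v => ?_, hsq⟩, hts, ?_⟩
  · have h2 : Q (v + A v) = Q v + Q (A v) + polar (⇑Q) v (A v) := QuadraticMap.map_add Q _ _
    rw [h2, hts]
    have h3 : polar (⇑Q) v (A v) = 0 := hself v
    rw [h3]
    simp
  · apply le_antisymm
    · rintro _ ⟨v, rfl⟩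
      exact hAU v
    · intro u hu
      let c := b.repr ⟨u, hu⟩
      let φ : U →ₗ[F] F := b.constr F (fun i => match i with
        | .inl j => c (.inr j)
        | .inr j => - c (.inl j))
      obtain ⟨φ', hφ'⟩ := LinearMap.exists_extend φ
      let v := (LinearMap.BilinForm.toDual (polarBilin Q) hN).symm φ'
      have hv : ∀ i, polarBilin Q v (bb i) = φ (b i) := by
        intro i
        rw [LinearMap.BilinForm.apply_toDual_symm_apply, ← hφ']
        rfl
      refine ⟨v, ?_⟩
      rw [hAa]
      have hφl : ∀ j, φ (b (.inl j)) = c (.inr j) := fun j => by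
        simp only [φ]
        rw [Module.Basis.constr_basis]
      have hφr : ∀ j, φ (b (.inr j)) = - c (.inl j) := fun j => by
        simp only [φ]
        rw [Module.Basis.constr_basis]
      have hu2 : u = ∑ i, c i • bb i := by
        have := b.sum_repr ⟨u, hu⟩
        have h3 := congrArg Subtype.val this
        simp only [AddSubmonoidClass.coe_finsetSum, Submodule.coe_smul] at h3
        exact h3.symm
      conv_rhs => rw [hu2]
      rw [Fintype.sum_sum_type, ← Finset.sum_add_distrib]
      apply Finset.sum_congr rfl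
      intro j _
      rw [hv, hv, hφl, hφr]
      simp only [neg_smul, sub_neg_eq_add]
      abel

end general

end Cfsg.Agent.Lib.ElusT.NAlt
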