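import Mathlib

/-!
# The arithmetic of fixed nondegenerate subspaces of isometries of odd prime order
-/

set_option autoImplicit false

namespace Cfsg.Agent.Lib.ElusT.NArith

/-- Admissible pairs. -/
def Adm (s : ℕ → Prop) (ε τ : Prop) (e κ d y : ℕ) : Prop :=
  ∃ t y', y' ≤ y ∧ t + e * y' = κ ∧ t ≤ d - e * y ∧ (t = 0 → (τ ↔ s y')) ∧
    (t = d - e * y → (τ ↔ ((ε ↔ s y) ↔ s y')))

/-- The arithmetic condition. -/
def RHSg (s : ℕ → Prop) (ε τ : Prop) (e κ d : ℕ) : Prop :=
  (d % e = 0 ∧ ((ε ↔ s (d / e)) → (κ % e = 0 ∧ (τ ↔ s (κ / e))))) ∨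
  (0 < d % e ∧ κ % e ≤ d % e ∧ (κ % e = 0 → (τ ↔ s (κ / e))) ∧
    (κ % e = d % e → (τ ↔ ((ε ↔ s (d / e)) ↔ s (κ / e)))))

theorem logic_a {σ τ ε p p' u u' : Prop} (h1 : p' ↔ (σ ↔ p)) (h2 : u' ↔ (σ ↔ u)) (hv : ¬ (ε ↔ p'))
    (hτ : ¬ (τ ↔ u')) : τ ↔ ((ε ↔ p) ↔ u) := by
  tauto

theorem logic_b {τ ε p u : Prop} (hv : ε ↔ p) (hτ : τ ↔ u) : τ ↔ ((ε ↔ p) ↔ u) := by
  tauto

theorem adm_iff {s : ℕ → Prop} {σ : Prop} (hs : ∀ y, s (y + 1) ↔ (σ ↔ s y)) {ε τ : Prop} {e d κ : ℕ}
    (he : 0 < e) (hκ : 0 < κ) (hκd : κ < d) :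
    (∀ y, 0 < y → e * y ≤ d → (e * y = d → (ε ↔ s y)) → Adm s ε τ e κ d y) ↔ RHSg s ε τ e κ d := by
  unfold RHSg
  have hd := Nat.div_add_mod d e
  have hm := Nat.div_add_mod κ e
  have hb := Nat.mod_lt d he
  have hg := Nat.mod_lt κ he
  set n' := d / e with hn'
  set b := d % e with hbdef
  set m' := κ / e with hm'
  set g := κ % e with hgdef
  constructor
  · intro H
    rcases Nat.eq_zero_or_pos b with hb0 | hb0
    · left
      refine ⟨hb0, fun hv => ?_⟩
      have hnpos : 0 < n' := by
        rcases Nat.eq_zero_or_pos n' with h0 | h0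
        · rw [h0] at hd
          omega
        · exact h0
      have hen : e * n' = d := by omega
      obtain ⟨t, y', -, h1, h2, h3, -⟩ := H n' hnpos hen.le (fun _ => hv)
      have ht : t = 0 := by omega
      subst ht
      have h4 := (Nat.div_mod_unique (a := κ) (b := e) (c := 0) (d := y') he).mpr ⟨by omega, he⟩
      rw [← hm', ← hgdef] at h4
      rw [h4.1]
      exact ⟨h4.2, h3 rfl⟩
    · right
      refine ⟨hb0, ?_⟩
      rcases Nat.eq_zero_or_pos n' with h0 | h0
      · rw [h0, Nat.mul_zero, Nat.zero_add] at hd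
        have hκe : κ < e := by omega
        have hg' : g = κ := Nat.mod_eq_of_lt hκe
        refine ⟨by omega, fun h => by omega, fun h => by omega⟩
      · have hle : e * n' ≤ d := by omega
        obtain ⟨t, y', -, h1, h2, h3, h5⟩ := H n' h0 hle (fun h => by omega)
        have ha : d - e * n' = b := by omega
        rw [ha] at h2 h5
        have h4 := (Nat.div_mod_unique (a := κ) (b := e) (c := t) (d := y') he).mpr ⟨h1, by omega⟩
        rw [← hm', ← hgdef] at h4
        obtain ⟨rfl, rfl⟩ := h4
        exact ⟨h2, h3, h5⟩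
  · intro hR y hy hle hval
    have hyn : y ≤ n' := by
      by_contra hc
      have h1 : n' + 1 ≤ y := by omega
      have h2 : e * (n' + 1) ≤ e * y := Nat.mul_le_mul_left e h1
      rw [Nat.mul_add, Nat.mul_one] at h2
      omega
    obtain ⟨w, hw⟩ : ∃ w, n' = y + w := ⟨n' - y, by omega⟩
    have hew : e * n' = e * y + e * w := by rw [hw, Nat.mul_add]
    have ha : d - e * y = e * w + b := by omega
    rcases Nat.lt_or_ge m' y with hlt | hge
    · -- `m' < y`
      have hmy : m' ≤ y := hlt.le
      by_cases hw0 : w = 0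
      · subst hw0
        have hny : n' = y := by omega
        have hew0 : e * 0 = 0 := Nat.mul_zero e
        rcases hR with ⟨hb0, hR⟩ | ⟨hb0, h1, h2, h3⟩
        · have hv : ε ↔ s n' := by
            rw [hny]
            exact hval (by omega)
          obtain ⟨hg0, hτ⟩ := hR hv
          refine ⟨0, m', hmy, by omega, by omega, fun _ => hτ, fun _ => ?_⟩
          rw [hny] at hv
          exact logic_b hv hτ
        · refine ⟨g, m', hmy, by omega, by omega, h2, fun h => ?_⟩
          have h4 := h3 (by omega)
          rw [hny] at h4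
          exact h4
      · obtain ⟨w₁, rfl⟩ : ∃ w₁, w = w₁ + 1 := ⟨w - 1, by omega⟩
        have hew1 : e * (w₁ + 1) = e * w₁ + e := by rw [Nat.mul_add, Nat.mul_one]
        by_cases hg0 : g = 0
        · by_cases hτ : τ ↔ s m'
          · exact ⟨0, m', hmy, by omega, by omega, fun _ => hτ, fun h => by omega⟩
          · have hv : ¬ (ε ↔ s n') := by
              intro hv
              rcases hR with ⟨_, hR⟩ | ⟨_, _, h2, _⟩
              · exact hτ (hR hv).2
              · exact hτ (h2 hg0)
            have hb0 : b = 0 := by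
              rcases hR with ⟨h0, _⟩ | ⟨_, _, h2, _⟩
              · exact h0
              · exact absurd (h2 hg0) hτ
            obtain ⟨m₁, hm₁⟩ : ∃ m₁, m' = m₁ + 1 := by
              refine ⟨m' - 1, ?_⟩
              rcases Nat.eq_zero_or_pos m' with h0 | h0
              · rw [h0] at hm
                omega
              · omega
            rw [hm₁] at hτ hm
            rw [Nat.mul_add, Nat.mul_one] at hm
            refine ⟨e, m₁, by omega, by omega, by omega, fun h => by omega, fun h => ?_⟩
            have hw1 : w₁ = 0 := by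
              rcases Nat.eq_zero_or_pos w₁ with h0 | h0
              · exact h0
              · have : e * 1 ≤ e * w₁ := Nat.mul_le_mul_left e h0
                omega
            subst hw1
            have hny : n' = y + 1 := hw
            rw [hny] at hv
            exact logic_a (hs y) (hs m₁) hv hτ
        · exact ⟨g, m', hmy, by omega, by omega, fun h => absurd h hg0, fun h => by omega⟩
    · -- `y ≤ m'`
      obtain ⟨z, hz⟩ : ∃ z, m' = y + z := ⟨m' - y, by omega⟩
      have hez : e * m' = e * y + e * z := by rw [hz, Nat.mul_add]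
      by_cases ht : e * z + g = 0
      · have hz0 : z = 0 := by
          rcases Nat.eq_zero_or_pos z with h0 | h0
          · exact h0
          · have : e * 1 ≤ e * z := Nat.mul_le_mul_left e h0
            omega
        have hg0 : g = 0 := by omega
        have hmy : m' = y := by omega
        by_cases hτ : τ ↔ s y
        · exact ⟨0, y, le_rfl, by omega, by omega, fun _ => hτ, fun h => by omega⟩
        · rw [hmy] at hR
          have hv : ¬ (ε ↔ s n') := by
            intro hv
            rcases hR with ⟨_, hR⟩ | ⟨_, _, h2, _⟩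
            · exact hτ (hR hv).2
            · exact hτ (h2 hg0)
          have hb0 : b = 0 := by
            rcases hR with ⟨h0, _⟩ | ⟨_, _, h2, _⟩
            · exact h0
            · exact absurd (h2 hg0) hτ
          have hw0 : w ≠ 0 := by
            rintro rfl
            apply hv
            have hny : n' = y := by omega
            rw [hny]
            exact hval (by omega)
          obtain ⟨w₁, rfl⟩ : ∃ w₁, w = w₁ + 1 := ⟨w - 1, by omega⟩
          have hew1 : e * (w₁ + 1) = e * w₁ + e := by rw [Nat.mul_add, Nat.mul_one]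
          obtain ⟨y₁, rfl⟩ : ∃ y₁, y = y₁ + 1 := ⟨y - 1, by omega⟩
          have hey1 : e * (y₁ + 1) = e * y₁ + e := by rw [Nat.mul_add, Nat.mul_one]
          refine ⟨e, y₁, by omega, by omega, by omega, fun h => by omega, fun h => ?_⟩
          have hw1 : w₁ = 0 := by
            rcases Nat.eq_zero_or_pos w₁ with h0 | h0
            · exact h0
            · have : e * 1 ≤ e * w₁ := Nat.mul_le_mul_left e h0
              omega
          subst hw1
          have hny : n' = y₁ + 1 + 1 := hw
          rw [hny] at hv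
          exact logic_a (hs (y₁ + 1)) (hs y₁) hv hτ
      · exact ⟨e * z + g, y, le_rfl, by omega, by omega, fun h => absurd h ht, fun h => by omega⟩

/-- The parity function. -/
theorem even_succ (y : ℕ) : Even (y + 1) ↔ (False ↔ Even y) := by
  rw [Nat.even_add_one]
  tauto

theorem true_succ (y : ℕ) : (fun _ : ℕ => True) (y + 1) ↔ (True ↔ (fun _ : ℕ => True) y) := by
  simp

end Cfsg.Agent.Lib.ElusT.NArith
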