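import Cfsg.Agent.Lib.ElusT.QMain
import Cfsg.Agent.Lib.Witt.Quadratic

/-!
# Nondegenerate subspaces of a prescribed type in quadratic spaces, in all characteristics
-/

set_option autoImplicit false
set_option linter.unusedSectionVars false
set_option linter.style.haveILetI false
set_option linter.unusedVariables false
set_option linter.unusedSimpArgs false

open Polynomial Module QuadraticMap

universe u v w

namespace Cfsg.Agent.Lib.ElusT.NBase

open Cfsg Cfsg.Agent.Lib.ElusL.Basic Cfsg.Agent.Lib.ElusF.Form Cfsg.Agent.Lib.ElusT.QType Cfsg.Agent.Lib.ElusT.QK1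
  Cfsg.Agent.Lib.ElusT.QModel

variable {F : Type u} [Field F] [Fintype F] {q r : ℕ} {V : Type v} [AddCommGroup V] [Module F V]
  [FiniteDimensional F V] {Q : QuadraticForm F V}

/-- Nondegenerate subspaces of a given dimension and type. -/
def PQ (Q : QuadraticForm F V) (m : ℕ) (τ : Prop) (W : Submodule F V) : Prop :=
  finrank F W = m ∧ Nd (fun u v => polarBilin Q u v) W ∧ (HyS Q W ↔ τ)

theorem hyS_of_zero (U : Submodule F V) (hU : finrank F U = 0) : HyS Q U :=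
  ⟨⊥, bot_le, fun w hw => by rw [(Submodule.mem_bot F).mp hw, map_zero], by rw [finrank_bot, hU]⟩

theorem nd_bot : Nd (fun u v => polarBilin Q u v) (⊥ : Submodule F V) :=
  fun u hu _ => (Submodule.mem_bot F).mp hu

/-- Nondegenerate subspaces of a prescribed type inside a nondegenerate subspace. -/
theorem exists_sub_q (hq : Fintype.card F = q) {U : Submodule F V} (hU : Nd (fun u v => polarBilin Q u v) U)
    {a t : ℕ} (hd : finrank F U = 2 * a) (ht : t ≤ a) {τ : Prop} (h0 : t = 0 → τ) (ha : t = a → (τ ↔ HyS Q U)) :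
    ∃ W : Submodule F V, W ≤ U ∧ Nd (fun u v => polarBilin Q u v) W ∧ finrank F W = 2 * t ∧ (HyS Q W ↔ τ) := by
  classical
  obtain ⟨V₁, i1, i2, i3, Q₁, hN₁, hf₁, hty₁⟩ := exists_base hq t τ h0
  obtain ⟨V₂, j1, j2, j3, Q₂, hN₂, hf₂, hty₂⟩ := exists_base hq (a - t) (τ ↔ HyS Q U) (fun h => ha (by omega))
  have hprod := hyQ_prod hq hN₁ hN₂ hf₁ hf₂
  have hdim : finrank F (V₁ × V₂) = 2 * a := by
    rw [Module.finrank_prod, hf₁, hf₂]
    omega
  obtain ⟨e, he⟩ := exists_iso_of_hyQ (prod_nondeg hN₁ hN₂) (nd_comp hU) hdim hd (by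
    rw [hprod, hty₁, hty₂, ← hyS_iff]
    tauto)
  let j : V₁ →ₗ[F] V := U.subtype ∘ₗ (e : (V₁ × V₂) →ₗ[F] U) ∘ₗ LinearMap.inl F V₁ V₂
  have hj : ∀ x, Q (j x) = Q₁ x := by
    intro x
    have h1 := he (x, 0)
    have h2 : (Q₁.prod Q₂) (x, (0 : V₂)) = Q₁ x := by
      rw [QuadraticMap.prod_apply]
      simp
    rw [h2] at h1
    exact h1
  have hjp : ∀ x y, polarBilin Q (j x) (j y) = polarBilin Q₁ x y := by
    intro x y
    change polar (⇑Q) (j x) (j y) = polar (⇑Q₁) x y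
    unfold polar
    rw [← map_add, hj, hj, hj]
  have hjinj : Function.Injective j := by
    intro x y hxy
    apply Prod.ext_iff.mp (e.injective (Subtype.ext hxy)) |>.1
  let W := LinearMap.range j
  let e₁ : V₁ ≃ₗ[F] W := LinearEquiv.ofInjective j hjinj
  have he₁ : ∀ x, (Q.comp W.subtype) (e₁ x) = Q₁ x := fun x => hj x
  refine ⟨W, ?_, ?_, ?_, ?_⟩
  · rintro _ ⟨x, rfl⟩
    exact (e (x, 0)).2
  · rintro _ ⟨x, rfl⟩ h
    have hx0 : x = 0 := by
      apply hN₁.1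
      intro y
      rw [← hjp]
      exact h (j y) ⟨y, rfl⟩
    rw [hx0, map_zero]
  · rw [← LinearEquiv.finrank_eq e₁, hf₁]
  · rw [hyS_iff, ← hyQ_of_iso e₁ he₁, hty₁]

/-- The isometry group acts transitively on the subspaces of a given dimension and type. -/
theorem pq_trans (hN : (polarBilin Q).Nondegenerate) {κ : ℕ} {τ : Prop} {W W' : Submodule F V}
    (h : PQ Q (2 * κ) τ W) (h' : PQ Q (2 * κ) τ W') :
    ∃ g : V ≃ₗ[F] V, g ∈ Cfsg.Agent.Lib.Witt.Quadratic.isoGroup Q ∧ W.map (g : V →ₗ[F] V) = W' := by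
  obtain ⟨φ, hφ⟩ := exists_iso_of_hyQ (nd_comp h.2.1) (nd_comp h'.2.1) h.1 h'.1 (by
    rw [← hyS_iff, ← hyS_iff, h.2.2, h'.2.2])
  obtain ⟨g, hg, hgφ⟩ := Cfsg.Agent.Lib.Witt.Quadratic.witt_extension hN W W' φ hφ
  refine ⟨g, hg, ?_⟩
  apply le_antisymm
  · rintro _ ⟨x, hx, rfl⟩
    change g x ∈ W'
    rw [show g x = g ((⟨x, hx⟩ : W) : V) from rfl, hgφ]
    exact (φ ⟨x, hx⟩).2
  · intro y hy
    obtain ⟨x, hx⟩ := φ.surjective ⟨y, hy⟩
    refine ⟨x, x.2, ?_⟩
    change g (x : V) = y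
    rw [hgφ x, hx]

theorem polar_g {g : V ≃ₗ[F] V} (hg : ∀ v, Q (g v) = Q v) (x y : V) :
    polarBilin Q (g x) (g y) = polarBilin Q x y := by
  change polar (⇑Q) (g x) (g y) = polar (⇑Q) x y
  unfold polar
  rw [← map_add, hg, hg, hg]

/-- The family is stable under isometries. -/
theorem pq_map {g : V ≃ₗ[F] V} (hg : ∀ v, Q (g v) = Q v) {m : ℕ} {τ : Prop} {W : Submodule F V} (h : PQ Q m τ W) :
    PQ Q m τ (W.map (g : V →ₗ[F] V)) := by
  refine ⟨by rw [LinearEquiv.finrank_map_eq, h.1], ?_, ?_⟩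
  · rintro _ ⟨u, hu, rfl⟩ hh
    have h1 : u = 0 := by
      apply h.2.1 u hu
      intro v hv
      change polarBilin Q u v = 0
      rw [← polar_g hg]
      exact hh (g v) ⟨v, hv, rfl⟩
    rw [h1]
    simp
  · rw [← h.2.2, hyS_iff, hyS_iff]
    refine (hyQ_of_iso (g.submoduleMap W) (fun x => ?_)).symm
    change Q (g (x : V)) = Q (x : V)
    exact hg _

end Cfsg.Agent.Lib.ElusT.NBase
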