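import Cfsg.Agent.Lib.ElusT.NAlt

/-!
# Involutions in characteristic two and invariant nondegenerate subspaces
-/

set_option autoImplicit false
set_option linter.unusedSectionVars false
set_option linter.style.haveILetI false
set_option linter.unusedVariables false
set_option linter.unusedSimpArgs false

open Polynomial Module QuadraticMap Matrix

universe u v w

namespace Cfsg.Agent.Lib.ElusT.NC2

open Cfsg Cfsg.Agent.Lib.ElusL.Basic Cfsg.Agent.Lib.ElusF.Form Cfsg.Agent.Lib.ElusF.Step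
  Cfsg.Agent.Lib.ElusQ.Syl Cfsg.Agent.Lib.ElusQ.Disc Cfsg.Agent.Lib.ElusQ.Bridge
  Cfsg.Agent.Lib.ElusT.QType Cfsg.Agent.Lib.ElusT.QK1 Cfsg.Agent.Lib.ElusT.NBase Cfsg.Agent.Lib.ElusT.NAlt
  Cfsg.Agent.Lib.ElusT.Count

variable {F : Type u} [Field F] [Fintype F] {q : ℕ} {V : Type v} [AddCommGroup V] [Module F V]
  [FiniteDimensional F V] {Q : QuadraticForm F V} {A : End F V}

theorem neg_eq_c2 (h2 : (2 : F) = 0) (x : F) : -x = x := by
  linear_combination (-x) * h2

theorem sub_eq_c2 (h2 : (2 : F) = 0) (x y : F) : x - y = x + y := by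
  linear_combination (-y) * h2

theorem add_self_c2 (h2 : (2 : F) = 0) (x : F) : x + x = 0 := by
  linear_combination x * h2

/-- Self-adjointness. -/
theorem sa (h : IV Q A) (h2 : (2 : F) = 0) (u v : V) : polarBilin Q (A u) v = polarBilin Q u (A v) := by
  rw [h.skew, neg_eq_c2 h2]

theorem QA (h : IV Q A) (h2 : (2 : F) = 0) (v : V) : Q (A v) = polarBilin Q v (A v) := by
  rw [h.Q_A, neg_eq_c2 h2]

theorem alt (h2 : (2 : F) = 0) (v : V) : polarBilin Q v v = 0 := polar_alt h2 v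

theorem symm_p (u v : V) : polarBilin Q u v = polarBilin Q v u := (polar_symm Q).eq u v

/-- The function `v ↦ f(v, A v)` is additive. -/
theorem g_add (h : IV Q A) (h2 : (2 : F) = 0) (u v : V) :
    polarBilin Q (u + v) (A (u + v)) = polarBilin Q u (A u) + polarBilin Q v (A v) := by
  simp only [map_add, LinearMap.add_apply]
  rw [symm_p v (A u), ← sa h h2 u v]
  have := add_self_c2 h2 (polarBilin Q (A u) v)
  linear_combination this

theorem g_smul (c : F) (v : V) : polarBilin Q (c • v) (A (c • v)) = c * c * polarBilin Q v (A v) := by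
  simp only [map_smul, LinearMap.smul_apply, smul_eq_mul]
  ring

/-- A plane spanned by two vectors which are not orthogonal. -/
theorem plane (h2 : (2 : F) = 0) {u u' : V} (hc : polarBilin Q u u' ≠ 0) :
    Nd (fun x y => polarBilin Q x y) (Submodule.span F {u, u'}) ∧ finrank F (Submodule.span F {u, u'} : Submodule F V) = 2 := by
  have hu'u : polarBilin Q u' u = polarBilin Q u u' := symm_p _ _
  have hkey : ∀ a b : F, polarBilin Q (a • u + b • u') u = 0 → polarBilin Q (a • u + b • u') u' = 0 → a = 0 ∧ b = 0 := by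
    intro a b h3 h4
    simp only [map_add, map_smul, LinearMap.add_apply, LinearMap.smul_apply, smul_eq_mul, alt h2, hu'u] at h3 h4
    constructor
    · have : a * polarBilin Q u u' = 0 := by linear_combination h4
      exact (mul_eq_zero.mp this).resolve_right hc
    · have : b * polarBilin Q u u' = 0 := by linear_combination h3
      exact (mul_eq_zero.mp this).resolve_right hc
  constructor
  · intro x hx hh
    obtain ⟨a, b, rfl⟩ := Submodule.mem_span_pair.mp hx
    obtain ⟨rfl, rfl⟩ := hkey a b (hh u (Submodule.subset_span (by simp))) (hh u' (Submodule.subset_span (by simp)))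
    simp
  · have hind : LinearIndependent F ![u, u'] := by
      rw [LinearIndependent.pair_iff]
      intro a b hab
      apply hkey a b
      · rw [hab]
        simp
      · rw [hab]
        simp
    have := finrank_span_eq_card hind
    simp only [Fintype.card_fin] at this
    have h3 : Set.range ![u, u'] = {u, u'} := by
      ext x
      simp only [Matrix.range_cons, Matrix.range_empty, Set.union_empty, Set.mem_union,
        Set.mem_singleton_iff, Set.mem_insert_iff]
    rwa [h3] at this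

/-- Two elements `a, b` with `f(a, A a) ≠ 0`, `f(b, A b) ≠ 0` and `f(a, A b) = 0`. -/
theorem exists_ab (h : IV Q A) (h2 : (2 : F) = 0) {U : Submodule F V}
    (hU : Nd (fun u v => polarBilin Q u v) U) (hUi : ∀ v ∈ U, A v ∈ U)
    (hna : ∃ a ∈ U, polarBilin Q a (A a) ≠ 0) (hρ : 2 ≤ finrank F (U.map A)) :
    ∃ a ∈ U, ∃ b ∈ U, polarBilin Q a (A a) ≠ 0 ∧ polarBilin Q b (A b) ≠ 0 ∧ polarBilin Q a (A b) = 0 := by
  obtain ⟨a₀, ha₀, hc₀⟩ := hna
  by_cases hex : ∃ b ∈ U, polarBilin Q a₀ (A b) = 0 ∧ polarBilin Q b (A b) ≠ 0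
  · obtain ⟨b, hb, h1, h3⟩ := hex
    exact ⟨a₀, ha₀, b, hb, hc₀, h3, h1⟩
  push Not at hex
  set c₀ := polarBilin Q a₀ (A a₀) with hc₀d
  obtain ⟨x, hx, hxs⟩ : ∃ x ∈ U, A x ∉ Submodule.span F {A a₀} := by
    by_contra hc
    push Not at hc
    have hle : U.map A ≤ Submodule.span F {A a₀} := by
      rintro _ ⟨y, hy, rfl⟩
      exact hc y hy
    have h3 := Submodule.finrank_mono hle
    have h4 := finrank_span_le_card (R := F) ({A a₀} : Set V)
    simp only [Set.toFinset_singleton, Finset.card_singleton] at h4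
    omega
  set t := polarBilin Q a₀ (A x) * c₀⁻¹ with ht
  set k := x - t • a₀ with hk
  have hkU : k ∈ U := U.sub_mem hx (U.smul_mem _ ha₀)
  have hAk : A k = A x - t • A a₀ := by
    rw [hk, map_sub, map_smul]
  have hk1 : polarBilin Q a₀ (A k) = 0 := by
    rw [hAk, map_sub, map_smul, ht, smul_eq_mul, mul_assoc, inv_mul_cancel₀ hc₀, mul_one, sub_self]
  have hk0 : A k ≠ 0 := by
    intro h0
    apply hxs
    have : A x = t • A a₀ := by
      rw [hAk] at h0
      exact sub_eq_zero.mp h0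
    rw [this]
    exact Submodule.smul_mem _ _ (Submodule.mem_span_singleton_self _)
  obtain ⟨w, hw, hkw⟩ : ∃ w ∈ U, polarBilin Q (A k) w ≠ 0 := by
    by_contra hc
    push Not at hc
    exact hk0 (hU _ (hUi _ hkU) hc)
  set s := polarBilin Q a₀ (A w) * c₀⁻¹ with hs
  set y := w - s • a₀ with hy
  have hyU : y ∈ U := U.sub_mem hw (U.smul_mem _ ha₀)
  have hAy : A y = A w - s • A a₀ := by
    rw [hy, map_sub, map_smul]
  have hy1 : polarBilin Q a₀ (A y) = 0 := by
    rw [hAy, map_sub, map_smul, hs, smul_eq_mul, mul_assoc, inv_mul_cancel₀ hc₀, mul_one, sub_self]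
  have hka : polarBilin Q k (A a₀) = 0 := by
    rw [← sa h h2, symm_p]
    exact hk1
  have hky : polarBilin Q k (A y) = polarBilin Q (A k) w := by
    rw [hAy, map_sub, map_smul, hka, smul_zero, sub_zero, sa h h2]
  have he₁ : polarBilin Q k (A y) ≠ 0 := by
    rw [hky]
    exact hkw
  set e₁ := polarBilin Q k (A y) with he₁d
  set y' := (c₀ * e₁⁻¹) • y with hy'
  have hy'U : y' ∈ U := U.smul_mem _ hyU
  have hAy' : A y' = (c₀ * e₁⁻¹) • A y := by
    rw [hy', map_smul]
  have hy'1 : polarBilin Q a₀ (A y') = 0 := by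
    rw [hAy', map_smul, hy1, smul_zero]
  have hy'2 : polarBilin Q k (A y') = c₀ := by
    rw [hAy', map_smul, smul_eq_mul, mul_assoc, inv_mul_cancel₀ he₁, mul_one]
  have hgk : polarBilin Q k (A k) = 0 := hex k hkU hk1
  have hgy : polarBilin Q y' (A y') = 0 := hex y' hy'U hy'1
  refine ⟨a₀ + k, U.add_mem ha₀ hkU, a₀ + y', U.add_mem ha₀ hy'U, ?_, ?_, ?_⟩
  · rw [g_add h h2, hgk, add_zero]
    exact hc₀
  · rw [g_add h h2, hgy, add_zero]
    exact hc₀
  · simp only [map_add, LinearMap.add_apply]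
    rw [hy'1, hka, hy'2, ← hc₀d]
    have := add_self_c2 h2 c₀
    linear_combination this

/-- Squares exist. -/
theorem exists_sqrt_c2 (h2 : (2 : F) = 0) (x : F) : ∃ t : F, t * t = x := by
  have hch : ringChar F = 2 := CharP.ringChar_of_prime_eq_zero Nat.prime_two (by exact_mod_cast h2)
  obtain ⟨c, hc⟩ := FiniteField.isSquare_of_char_two hch x
  exact ⟨c, hc.symm⟩

theorem exists_beta (h2 : (2 : F) = 0) : ∃ β : F, ∀ l m : F, β * l * l + l * m + m * m = 0 → l = 0 ∧ m = 0 := by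
  have hni : ¬ Function.Injective (fun t : F => t * t + t) := by
    intro h
    have h1 := @h 0 1 (by
      simp only
      have := add_self_c2 h2 (1 : F)
      linear_combination -this)
    exact zero_ne_one h1
  have hns : ¬ Function.Surjective (fun t : F => t * t + t) := fun hc => hni (Finite.injective_iff_surjective.mpr hc)
  simp only [Function.Surjective, not_forall, not_exists] at hns
  obtain ⟨β, hβ⟩ := hns
  refine ⟨β, fun l m hlm => ?_⟩
  by_cases hl : l = 0
  · subst hl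
    refine ⟨rfl, ?_⟩
    have : m * m = 0 := by linear_combination hlm
    exact mul_self_eq_zero.mp this
  · exfalso
    apply hβ (m * l⁻¹)
    have h3 : (m * l⁻¹) * (m * l⁻¹) + m * l⁻¹ = (m * m + l * m) * (l⁻¹ * l⁻¹) := by
      field_simp
    rw [h3]
    have h4 : m * m + l * m = β * (l * l) := by
      have h5 := add_self_c2 h2 (β * (l * l))
      linear_combination hlm - h5
    rw [h4]
    field_simp

/-- An invariant plane of a prescribed type. -/
theorem b_step (h : IV Q A) (h2 : (2 : F) = 0) {U : Submodule F V}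
    (hU : Nd (fun u v => polarBilin Q u v) U) (hUi : ∀ v ∈ U, A v ∈ U)
    (hna : ∃ a ∈ U, polarBilin Q a (A a) ≠ 0) (hρ : 2 ≤ finrank F (U.map A)) (σ : Prop) :
    ∃ P : Submodule F V, P ≤ U ∧ Nd (fun u v => polarBilin Q u v) P ∧ (∀ v ∈ P, A v ∈ P) ∧ finrank F P = 2 ∧
      (HyS Q P ↔ σ) ∧ ∃ b ∈ U, (∀ p ∈ P, polarBilin Q p b = 0) ∧ polarBilin Q b (A b) ≠ 0 := by
  classical
  obtain ⟨a, ha, b, hb, hga, hgb, hab⟩ := exists_ab h h2 hU hUi hna hρ
  obtain ⟨β₀, hβ₀⟩ := exists_beta (F := F) h2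
  set c := polarBilin Q a (A a) with hc
  set β : F := if σ then 0 else β₀ with hβ
  obtain ⟨t, ht⟩ := exists_sqrt_c2 h2 ((β * c + Q a) * (polarBilin Q b (A b))⁻¹)
  set a' := a + t • A b with ha'
  have ha'U : a' ∈ U := U.add_mem ha (U.smul_mem _ (hUi _ hb))
  have hAa' : A a' = A a := by
    rw [ha', map_add, map_smul, h.sq, smul_zero, add_zero]
  have hAba : polarBilin Q (A b) (A a) = 0 := h.polar_AA b a
  have hg' : polarBilin Q a' (A a) = c := by
    rw [ha']
    simp only [map_add, map_smul, LinearMap.add_apply, LinearMap.smul_apply, smul_eq_mul]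
    rw [hAba, mul_zero, add_zero]
  have hQa' : Q a' = β * c := by
    have h3 : Q a' = Q a + Q (t • A b) + polar (⇑Q) a (t • A b) := QuadraticMap.map_add Q _ _
    have h4 : polar (⇑Q) a (t • A b) = t * polarBilin Q a (A b) := by
      change polarBilin Q a (t • A b) = _
      rw [map_smul, smul_eq_mul]
    rw [h3, h4, hab, mul_zero, add_zero, QuadraticMap.map_smul, QA h h2, smul_eq_mul, ht]
    have h5 : (β * c + Q a) * (polarBilin Q b (A b))⁻¹ * polarBilin Q b (A b) = β * c + Q a := by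
      rw [mul_assoc, inv_mul_cancel₀ hgb, mul_one]
    rw [h5]
    have := add_self_c2 h2 (Q a)
    linear_combination this
  have hQAa : Q (A a) = c := QA h h2 a
  obtain ⟨hPn, hPd⟩ := plane (Q := Q) h2 (u := a') (u' := A a) (by rw [hg']; exact hga)
  have hQP : ∀ l m : F, Q (l • a' + m • A a) = c * (β * l * l + l * m + m * m) := by
    intro l m
    have h3 : Q (l • a' + m • A a) = Q (l • a') + Q (m • A a) + polar (⇑Q) (l • a') (m • A a) := QuadraticMap.map_add Q _ _
    have h4 : polar (⇑Q) (l • a') (m • A a) = l * m * c := by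
      change polarBilin Q (l • a') (m • A a) = _
      simp only [map_smul, LinearMap.smul_apply, smul_eq_mul, hg']
      ring
    rw [h3, h4, QuadraticMap.map_smul, QuadraticMap.map_smul, hQa', hQAa]
    simp only [smul_eq_mul]
    ring
  set s := polarBilin Q b a' * c⁻¹ with hs
  set b' := b + s • A a with hb'
  have hAb' : A b' = A b := by
    rw [hb', map_add, map_smul, h.sq, smul_zero, add_zero]
  refine ⟨Submodule.span F {a', A a}, ?_, hPn, ?_, hPd, ?_, b', U.add_mem hb (U.smul_mem _ (hUi _ ha)), ?_, ?_⟩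
  · rw [Submodule.span_le]
    rintro x (rfl | rfl)
    · exact ha'U
    · exact hUi _ ha
  · intro x hx
    obtain ⟨l, m, rfl⟩ := Submodule.mem_span_pair.mp hx
    rw [map_add, map_smul, map_smul, hAa', h.sq, smul_zero, add_zero]
    exact Submodule.smul_mem _ _ (Submodule.subset_span (by simp))
  · by_cases hσ : σ
    · have hβ0 : β = 0 := by
        rw [hβ, if_pos hσ]
      refine iff_of_true ⟨Submodule.span F {a'}, ?_, ?_, ?_⟩ hσ
      · rw [Submodule.span_le]
        rintro x rfl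
        exact Submodule.subset_span (by simp)
      · intro x hx
        obtain ⟨l, rfl⟩ := Submodule.mem_span_singleton.mp hx
        rw [QuadraticMap.map_smul, hQa', hβ0]
        simp
      · have ha'0 : a' ≠ 0 := by
          rintro h0
          rw [h0] at hg'
          simp only [map_zero, LinearMap.zero_apply] at hg'
          exact hga hg'.symm
        rw [finrank_span_singleton ha'0, hPd]
    · refine iff_of_false ?_ hσ
      have hβ1 : β = β₀ := by
        rw [hβ, if_neg hσ]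
      rintro ⟨X, hXP, hX, hXd⟩
      have hXpos : 0 < finrank F X := by omega
      haveI := Module.nontrivial_of_finrank_pos (R := F) hXpos
      obtain ⟨⟨y, hy⟩, hy0⟩ := exists_ne (0 : X)
      apply hy0
      apply Subtype.ext
      change y = 0
      obtain ⟨l, m, rfl⟩ := Submodule.mem_span_pair.mp (hXP hy)
      have h6 := hX _ hy
      rw [hQP] at h6
      have h7 := (mul_eq_zero.mp h6).resolve_left hga
      rw [hβ1] at h7
      obtain ⟨rfl, rfl⟩ := hβ₀ l m h7
      simp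
  · intro p hp
    obtain ⟨l, m, rfl⟩ := Submodule.mem_span_pair.mp hp
    have h3 : polarBilin Q a' b' = 0 := by
      rw [hb']
      simp only [map_add, map_smul, smul_eq_mul]
      rw [hg', hs, mul_assoc, inv_mul_cancel₀ hga, mul_one, symm_p a' b]
      exact add_self_c2 h2 _
    have h4 : polarBilin Q (A a) b' = 0 := by
      rw [hb']
      simp only [map_add, map_smul, smul_eq_mul]
      rw [h.polar_AA a a, mul_zero, add_zero, sa h h2]
      exact hab
    simp only [map_add, map_smul, LinearMap.add_apply, LinearMap.smul_apply, smul_eq_mul, h3, h4]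
    ring
  · rw [hAb', hb']
    simp only [map_add, map_smul, LinearMap.add_apply, LinearMap.smul_apply, smul_eq_mul]
    rw [h.polar_AA, mul_zero, add_zero]
    exact hgb

/-- Blocks of dimension four in the alternating case. -/
theorem a_step (h : IV Q A) (h2 : (2 : F) = 0) (hN : (polarBilin Q).Nondegenerate)
    (hal : ∀ v, polarBilin Q v (A v) = 0) {U : Submodule F V}
    (hU : Nd (fun u v => polarBilin Q u v) U) (hUi : ∀ v ∈ U, A v ∈ U)
    (hfree : 2 * finrank F (U.map A) = finrank F U) (hpos : 0 < finrank F U) :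
    ∃ W : Submodule F V, W ≤ U ∧ Nd (fun u v => polarBilin Q u v) W ∧ (∀ v ∈ W, A v ∈ W) ∧ finrank F W = 4 := by
  classical
  have hB := fm_of_symm (polar_symm Q) hN
  obtain ⟨v, hv, hAv⟩ : ∃ v ∈ U, A v ≠ 0 := by
    by_contra hc
    push Not at hc
    have : U.map A = ⊥ := by
      rw [eq_bot_iff]
      rintro _ ⟨x, hx, rfl⟩
      exact (Submodule.mem_bot F).mpr (hc x hx)
    rw [this, finrank_bot] at hfree
    omega
  obtain ⟨w, hw, hc⟩ : ∃ w ∈ U, polarBilin Q (A v) w ≠ 0 := by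
    by_contra hc
    push Not at hc
    exact hAv (hU _ (hUi _ hv) hc)
  set c := polarBilin Q (A v) w with hcd
  have hvAw : polarBilin Q v (A w) = c := (sa h h2 v w).symm
  set s := polarBilin Q v w with hs
  set w' := w + (s * c⁻¹) • A w with hw'
  have hw'U : w' ∈ U := U.add_mem hw (U.smul_mem _ (hUi _ hw))
  have hAw' : A w' = A w := by
    rw [hw', map_add, map_smul, h.sq, smul_zero, add_zero]
  have hvw' : polarBilin Q v w' = 0 := by
    rw [hw', map_add, map_smul, hvAw, smul_eq_mul, mul_assoc, inv_mul_cancel₀ hc, mul_one, ← hs]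
    exact add_self_c2 h2 s
  have hAww' : polarBilin Q (A w) w' = 0 := by
    rw [hw', map_add, map_smul, h.polar_AA w w, smul_zero, add_zero, symm_p]
    exact hal w
  have hw'Av : polarBilin Q w' (A v) = c := by
    rw [hw']
    simp only [map_add, map_smul, LinearMap.add_apply, LinearMap.smul_apply, smul_eq_mul]
    rw [h.polar_AA w v, mul_zero, add_zero, symm_p]
  obtain ⟨hP₁, hP₁d⟩ := plane (Q := Q) h2 (u := v) (u' := A w) (by rw [hvAw]; exact hc)
  obtain ⟨hP₂, hP₂d⟩ := plane (Q := Q) h2 (u := w') (u' := A v) (by rw [hw'Av]; exact hc)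
  have hP₂O : Submodule.span F {w', A v} ≤ hB.orth (Submodule.span F {v, A w}) := by
    rw [Submodule.span_le]
    have hfun : ∀ y : V, polarBilin Q v y = 0 → polarBilin Q (A w) y = 0 → y ∈ hB.orth (Submodule.span F {v, A w}) := by
      intro y h3 h4 z hz
      obtain ⟨l, m, rfl⟩ := Submodule.mem_span_pair.mp hz
      change polarBilin Q (l • v + m • A w) y = 0
      simp only [map_add, map_smul, LinearMap.add_apply, LinearMap.smul_apply, smul_eq_mul, h3, h4]
      ring
    rintro y (rfl | rfl)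
    · exact hfun _ hvw' hAww'
    · exact hfun _ (hal v) (h.polar_AA w v)
  refine ⟨Submodule.span F {v, A w} ⊔ Submodule.span F {w', A v}, ?_, Cfsg.Agent.Lib.ElusF.Step.nd_sup hB hP₁ hP₂ hP₂O, ?_, ?_⟩
  · apply sup_le
    · rw [Submodule.span_le]
      rintro x (rfl | rfl)
      · exact hv
      · exact hUi _ hw
    · rw [Submodule.span_le]
      rintro x (rfl | rfl)
      · exact hw'U
      · exact hUi _ hv
  · intro x hx
    obtain ⟨y, hy, z, hz, rfl⟩ := Submodule.mem_sup.mp hx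
    rw [map_add]
    apply Submodule.add_mem
    · obtain ⟨l, m, rfl⟩ := Submodule.mem_span_pair.mp hy
      rw [map_add, map_smul, map_smul, h.sq, smul_zero, add_zero]
      exact Submodule.mem_sup_right (Submodule.smul_mem _ _ (Submodule.subset_span (by simp)))
    · obtain ⟨l, m, rfl⟩ := Submodule.mem_span_pair.mp hz
      rw [map_add, map_smul, map_smul, h.sq, smul_zero, add_zero, hAw']
      exact Submodule.mem_sup_left (Submodule.smul_mem _ _ (Submodule.subset_span (by simp)))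
  · rw [finrank_sup_of_disjoint (Cfsg.Agent.Lib.ElusF.Step.disjoint_of_orth hB hP₁ hP₂O), hP₁d, hP₂d]

theorem T_iso (h : IV Q A) : Iso (fun u v => polarBilin Q u v) (1 + A) := fun u v => h.iso_T u v

theorem T_inj (h : IV Q A) (h2 : (2 : F) = 0) : Function.Injective (1 + A : End F V) := by
  rw [← LinearMap.ker_eq_bot, LinearMap.ker_eq_bot']
  intro v hv
  have h3 : v + A v = 0 := hv
  have h4 : A v + A (A v) = 0 := by
    rw [← map_add, h3, map_zero]
  rw [h.sq, add_zero] at h4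
  rw [h4, add_zero] at h3
  exact h3

/-- Hyperbolic blocks in the alternating case. -/
theorem a_blocks (h : IV Q A) (h2 : (2 : F) = 0) (hN : (polarBilin Q).Nondegenerate)
    (hal : ∀ v, polarBilin Q v (A v) = 0) {Fr : Submodule F V}
    (hFn : Nd (fun u v => polarBilin Q u v) Fr) (hFi : ∀ v ∈ Fr, A v ∈ Fr)
    (hFf : 2 * finrank F (Fr.map A) = finrank F Fr) {s : ℕ} (hs : 4 * s ≤ finrank F Fr) :
    ∃ W : Submodule F V, W ≤ Fr ∧ Nd (fun u v => polarBilin Q u v) W ∧ (∀ v ∈ W, A v ∈ W) ∧ finrank F W = 4 * s ∧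
      HyS Q W := by
  have hB := fm_of_symm (polar_symm Q) hN
  obtain ⟨W, h3, h4, h5, h6⟩ := Cfsg.Agent.Lib.ElusF.Step.ndcap hB (T_iso h) (T_inj h h2) (d := 4) (by norm_num) (U₀ := Fr)
    (fun U hUF hU hUi hpos => by
      have hUi' := inv_T_iff.mp hUi
      obtain ⟨W, h7, h8, h9, h10⟩ := a_step h h2 hN hal hU hUi'
        (h.free_sub hN hFn hFi hFf hU hUF hUi').1 hpos
      exact ⟨W, h7, h8, inv_T_iff.mpr h9, h10⟩) s Fr le_rfl hFn (inv_T_iff.mpr hFi) hs
  have h5' := inv_T_iff.mp h5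
  refine ⟨W, h3, h4, h5', h6, ?_⟩
  have hfr := (h.free_sub hN hFn hFi hFf h4 h3 h5').1
  exact hyS_of_ts_map (fun v => by rw [QA h h2, hal]) h5' hfr

/-- Blocks of a prescribed type in the non-alternating case. -/
theorem b_blocks (h : IV Q A) (h2 : (2 : F) = 0) (hN : (polarBilin Q).Nondegenerate) (hq : Fintype.card F = q) :
    ∀ (s : ℕ) (U : Submodule F V), Nd (fun u v => polarBilin Q u v) U → (∀ v ∈ U, A v ∈ U) →
      2 * finrank F (U.map A) = finrank F U → (∃ a ∈ U, polarBilin Q a (A a) ≠ 0) → s + 2 ≤ finrank F (U.map A) →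
      ∀ σ : Prop, ∃ W : Submodule F V, W ≤ U ∧ Nd (fun u v => polarBilin Q u v) W ∧ (∀ v ∈ W, A v ∈ W) ∧
        finrank F W = 2 * (s + 1) ∧ (HyS Q W ↔ σ) := by
  have hB := fm_of_symm (polar_symm Q) hN
  intro s
  induction s with
  | zero =>
    intro U hU hUi hfree hna hρ σ
    obtain ⟨P, h3, h4, h5, h6, h7, -⟩ := b_step h h2 hU hUi hna (by omega) σ
    exact ⟨P, h3, h4, h5, by omega, h7⟩
  | succ s ih =>
    intro U hU hUi hfree hna hρ σ
    obtain ⟨P, hPU, hP, hPi, hPd, hPt, b, hb, hbP, hgb⟩ := b_step h h2 hU hUi hna (by omega) True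
    have hfr := h.free_sub hN hU hUi hfree hP hPU hPi
    have hdim := hB.finrank_inf_orth hU hPU
    obtain ⟨W', hW'U, hW', hW'i, hW'd, hW't⟩ := ih (U ⊓ hB.orth P) (hB.nd_inf_orth hU hP hPU)
      (fun v hv => ⟨hUi v hv.1, h.inv_orth hN hPi v hv.2⟩) hfr.2 ⟨b, ⟨hb, hbP⟩, hgb⟩ (by omega) σ
    have hW'O : W' ≤ hB.orth P := hW'U.trans inf_le_right
    refine ⟨P ⊔ W', sup_le hPU (hW'U.trans inf_le_left), Cfsg.Agent.Lib.ElusF.Step.nd_sup hB hP hW' hW'O, ?_, ?_, ?_⟩
    · intro x hx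
      obtain ⟨y, hy, z, hz, rfl⟩ := Submodule.mem_sup.mp hx
      rw [map_add]
      exact Submodule.add_mem_sup (hPi y hy) (hW'i z hz)
    · rw [finrank_sup_of_disjoint (Cfsg.Agent.Lib.ElusF.Step.disjoint_of_orth hB hP hW'O), hPd, hW'd]
      ring
    · rw [hyS_sup hq hP hW' (fun x hx y hy => hW'O hy x hx) (a := 1) (b := s + 1) (by omega) hW'd, hPt, hW't]
      exact iff_of_eq (true_iff σ)

/-- The structure of the pair `(V, A)`. -/
theorem struct (h : IV Q A) (h2 : (2 : F) = 0) (hN : (polarBilin Q).Nondegenerate) (hq : Fintype.card F = q) {d : ℕ}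
    (hV : finrank F V = 2 * d) :
    ∃ C Fr : Submodule F V, Nd (fun u v => polarBilin Q u v) C ∧ Nd (fun u v => polarBilin Q u v) Fr ∧
      (∀ c ∈ C, A c = 0) ∧ (∀ x ∈ C, ∀ y ∈ Fr, polarBilin Q x y = 0) ∧ (∀ v ∈ Fr, A v ∈ Fr) ∧
      finrank F (Fr.map A) = finrank F (LinearMap.range A) ∧ finrank F Fr = 2 * finrank F (LinearMap.range A) ∧
      finrank F C = 2 * (d - finrank F (LinearMap.range A)) ∧ finrank F (LinearMap.range A) ≤ d ∧
      (HyQ Q ↔ (HyS Q C ↔ HyS Q Fr)) ∧ ((∃ a, polarBilin Q a (A a) ≠ 0) → ∃ a ∈ Fr, polarBilin Q a (A a) ≠ 0) := by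
  classical
  have hSy := polar_symm Q
  have hB := fm_of_symm hSy hN
  have hS : ∀ x ∈ LinearMap.range A, ∀ y ∈ LinearMap.range A, polarBilin Q x y = 0 := by
    rintro _ ⟨x, rfl⟩ _ ⟨y, rfl⟩
    exact h.polar_AA x y
  obtain ⟨C, hsup, hdisj⟩ := exists_compl hSy hN hS
  have hC := nd_compl hSy hN hS hsup hdisj
  have hdC := finrank_compl hSy hN hsup hdisj
  have hcO : ∀ c ∈ C, c ∈ (fm_of_symm hSy hN).orth (LinearMap.range A) := by
    intro c hc
    rw [← hsup]
    exact Submodule.mem_sup_right hc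
  have hCA : ∀ c ∈ C, A c = 0 := by
    intro c hc
    apply hN.1
    intro v
    have h3 : polarBilin Q (A v) c = 0 := hcO c hc _ ⟨v, rfl⟩
    rw [symm_p, ← sa h h2]
    rw [symm_p] at h3
    rw [symm_p]
    exact h3
  have hcompl := (fm_of_symm hSy hN).isCompl_orth hC
  have hFn := (fm_of_symm hSy hN).nd_orth hC
  have hCF : ∀ x ∈ C, ∀ y ∈ (fm_of_symm hSy hN).orth C, polarBilin Q x y = 0 := fun x hx y hy => hy x hx
  have hFi : ∀ v ∈ (fm_of_symm hSy hN).orth C, A v ∈ (fm_of_symm hSy hN).orth C :=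
    h.inv_orth hN (fun c hc => by rw [hCA c hc]; exact C.zero_mem)
  have hdec : ∀ v : V, ∃ c ∈ C, ∃ y ∈ (fm_of_symm hSy hN).orth C, v = c + y := by
    intro v
    have hv : v ∈ C ⊔ (fm_of_symm hSy hN).orth C := by
      rw [hcompl.sup_eq_top]
      trivial
    obtain ⟨c, hc, y, hy, rfl⟩ := Submodule.mem_sup.mp hv
    exact ⟨c, hc, y, hy, rfl⟩
  have hmap : ((fm_of_symm hSy hN).orth C).map A = LinearMap.range A := by
    apply le_antisymm
    · rintro _ ⟨x, -, rfl⟩
      exact ⟨x, rfl⟩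
    · rintro _ ⟨v, rfl⟩
      obtain ⟨c, hc, y, hy, rfl⟩ := hdec v
      refine ⟨y, hy, ?_⟩
      rw [map_add, hCA c hc, zero_add]
  have hdF := (fm_of_symm hSy hN).finrank_orth C
  have hFd : finrank F ((fm_of_symm hSy hN).orth C : Submodule F V) = 2 * finrank F (LinearMap.range A) := by
    omega
  have hρ : finrank F (LinearMap.range A) ≤ d := by
    omega
  have hCd : finrank F C = 2 * (d - finrank F (LinearMap.range A)) := by
    omega
  refine ⟨C, (fm_of_symm hSy hN).orth C, hC, hFn, hCA, hCF, hFi, by rw [hmap], hFd, hCd, hρ, ?_, ?_⟩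
  · rw [← hyS_top, ← hyS_sup hq hC hFn hCF hCd hFd, hcompl.sup_eq_top]
  · rintro ⟨a, ha⟩
    obtain ⟨c, hc, y, hy, rfl⟩ := hdec a
    refine ⟨y, hy, ?_⟩
    have h3 : A (c + y) = A y := by
      rw [map_add, hCA c hc, zero_add]
    rw [h3, map_add, LinearMap.add_apply, hCF c hc _ (hFi y hy), zero_add] at ha
    exact ha

theorem logic_bb (τ η : Prop) : ((η ↔ (τ ↔ η)) ↔ τ) := by
  tauto

/-- Subspaces in the non-alternating case. -/
theorem pos_b (h : IV Q A) (h2 : (2 : F) = 0) (hN : (polarBilin Q).Nondegenerate) (hq : Fintype.card F = q) {d κ : ℕ}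
    (hV : finrank F V = 2 * d) (hna : ∃ a, polarBilin Q a (A a) ≠ 0) (hρ : 2 ≤ finrank F (LinearMap.range A))
    (hκ : 0 < κ) (hκd : κ < d) (τ : Prop) :
    ∃ W : Submodule F V, PQ Q (2 * κ) τ W ∧ ∀ v ∈ W, A v ∈ W := by
  classical
  have hB := fm_of_symm (polar_symm Q) hN
  obtain ⟨C, Fr, hC, hFn, hCA, hCF, hFi, hFm, hFd, hCd, hρd, hty, hna'⟩ := struct h h2 hN hq hV
  have hfree : 2 * finrank F (Fr.map A) = finrank F Fr := by
    rw [hFm, hFd]
  by_cases hk : κ + 1 ≤ finrank F (LinearMap.range A)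
  · obtain ⟨W, -, h3, h4, h5, h6⟩ := b_blocks h h2 hN hq (κ - 1) Fr hFn hFi hfree (hna' hna) (by omega) τ
    refine ⟨W, ⟨?_, h3, h6⟩, h4⟩
    rw [h5]
    congr 1
    omega
  · set ρ := finrank F (LinearMap.range A) with hρdef
    obtain ⟨W₁, hW₁F, hW₁, hW₁i, hW₁d, hW₁t⟩ := b_blocks h h2 hN hq (ρ - 2) Fr hFn hFi hfree (hna' hna) (by omega) (τ ↔ HyS Q C)
    obtain ⟨W₀, hW₀C, hW₀, hW₀d, hW₀t⟩ := exists_sub_q (τ := HyS Q C) hq hC hCd (t := κ + 1 - ρ) (by omega)
      (fun h0 => by omega) (fun _ => Iff.rfl)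
    have hO : ∀ x ∈ W₀, ∀ y ∈ W₁, polarBilin Q x y = 0 := fun x hx y hy => hCF x (hW₀C hx) y (hW₁F hy)
    have hO' : W₁ ≤ hB.orth W₀ := fun y hy x hx => hO x hx y hy
    refine ⟨W₀ ⊔ W₁, ⟨?_, Cfsg.Agent.Lib.ElusF.Step.nd_sup hB hW₀ hW₁ hO', ?_⟩, ?_⟩
    · rw [finrank_sup_of_disjoint (Cfsg.Agent.Lib.ElusF.Step.disjoint_of_orth hB hW₀ hO'), hW₀d, hW₁d]
      omega
    · rw [hyS_sup hq hW₀ hW₁ hO hW₀d hW₁d, hW₀t, hW₁t]
      exact logic_bb τ _
    · intro x hx
      obtain ⟨y, hy, z, hz, rfl⟩ := Submodule.mem_sup.mp hx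
      rw [map_add, hCA y (hW₀C hy), zero_add]
      exact Submodule.mem_sup_right (hW₁i z hz)

theorem logic_aa (τ η ε ζ : Prop) (h1 : ε ↔ (η ↔ ζ)) (h2 : ζ) (h3 : τ ↔ ε) : τ ↔ η := by
  tauto

/-- Subspaces in the alternating case. -/
theorem pos_a (h : IV Q A) (h2 : (2 : F) = 0) (hN : (polarBilin Q).Nondegenerate) (hq : Fintype.card F = q) {d κ s t : ℕ}
    (hV : finrank F V = 2 * d) (hal : ∀ v, polarBilin Q v (A v) = 0) (hs : 2 * s ≤ finrank F (LinearMap.range A))
    (hst : t + 2 * s = κ) (ht : t + finrank F (LinearMap.range A) ≤ d) {τ : Prop} (h0 : t = 0 → τ)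
    (h1 : t + finrank F (LinearMap.range A) = d → (τ ↔ HyQ Q)) :
    ∃ W : Submodule F V, PQ Q (2 * κ) τ W ∧ ∀ v ∈ W, A v ∈ W := by
  classical
  have hB := fm_of_symm (polar_symm Q) hN
  obtain ⟨C, Fr, hC, hFn, hCA, hCF, hFi, hFm, hFd, hCd, hρd, hty, -⟩ := struct h h2 hN hq hV
  have hfree : 2 * finrank F (Fr.map A) = finrank F Fr := by
    rw [hFm, hFd]
  have hts : ∀ v, Q (A v) = 0 := fun v => by rw [QA h h2, hal]
  have hFh : HyS Q Fr := hyS_of_ts_map hts hFi hfree
  obtain ⟨W₁, hW₁F, hW₁, hW₁i, hW₁d, hW₁t⟩ := a_blocks h h2 hN hal hFn hFi hfree (s := s) (by omega)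
  obtain ⟨W₀, hW₀C, hW₀, hW₀d, hW₀t⟩ := exists_sub_q (τ := τ) hq hC hCd (t := t) (by omega)
    h0 (fun ht' => by
      have h5 := h1 (by omega)
      rw [h5, hty]
      tauto)
  have hO : ∀ x ∈ W₀, ∀ y ∈ W₁, polarBilin Q x y = 0 := fun x hx y hy => hCF x (hW₀C hx) y (hW₁F hy)
  have hO' : W₁ ≤ hB.orth W₀ := fun y hy x hx => hO x hx y hy
  refine ⟨W₀ ⊔ W₁, ⟨?_, Cfsg.Agent.Lib.ElusF.Step.nd_sup hB hW₀ hW₁ hO', ?_⟩, ?_⟩
  · rw [finrank_sup_of_disjoint (Cfsg.Agent.Lib.ElusF.Step.disjoint_of_orth hB hW₀ hO'), hW₀d, hW₁d]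
    omega
  · rw [hyS_sup hq hW₀ hW₁ hO hW₀d (b := 2 * s) (by rw [hW₁d]; ring), hW₀t]
    exact iff_of_eq (by simp [hW₁t])
  · intro x hx
    obtain ⟨y, hy, z, hz, rfl⟩ := Submodule.mem_sup.mp hx
    rw [map_add, hCA y (hW₀C hy), zero_add]
    exact Submodule.mem_sup_right (hW₁i z hz)

end Cfsg.Agent.Lib.ElusT.NC2
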