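import Cfsg.Agent.Lib.ElusT.NC2

/-!
# Nondegenerate subspaces and unipotent elements of order the characteristic
-/

set_option autoImplicit false
set_option linter.unusedSectionVars false
set_option linter.style.haveILetI false
set_option linter.unusedVariables false
set_option linter.unusedSimpArgs false

open Polynomial Module QuadraticMap Matrix

universe u v w

namespace Cfsg.Agent.Lib.ElusT.NC2G

open Cfsg Cfsg.Agent.Lib.ElusL.Basic Cfsg.Agent.Lib.ElusF.Form Cfsg.Agent.Lib.ElusF.Step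
  Cfsg.Agent.Lib.ElusQ.Syl Cfsg.Agent.Lib.ElusQ.Disc Cfsg.Agent.Lib.ElusQ.Bridge
  Cfsg.Agent.Lib.ElusT.QType Cfsg.Agent.Lib.ElusT.QK1 Cfsg.Agent.Lib.ElusT.QMain
  Cfsg.Agent.Lib.ElusT.NBase Cfsg.Agent.Lib.ElusT.NTwo Cfsg.Agent.Lib.ElusT.NAlt Cfsg.Agent.Lib.ElusT.NC2
  Cfsg.Agent.Lib.Elusive.OmegaMem Cfsg.Agent.Lib.Orth.Bridge Cfsg.Agent.Lib.Orth.Refl Cfsg.Agent.Lib.Orth.Words

section general

variable {F : Type u} [Field F] [Fintype F] {q : ℕ} {V : Type v} [AddCommGroup V] [Module F V]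
  [FiniteDimensional F V] {Q : QuadraticForm F V} {A : End F V}

/-- The numerical constraints on an invariant subspace when `Q ∘ A = 0`. -/
theorem neg_core (h : IV Q A) (hts : ∀ v, Q (A v) = 0) (hN : (polarBilin Q).Nondegenerate) (hq : Fintype.card F = q)
    {d κ : ℕ} (hV : finrank F V = 2 * d) {W : Submodule F V} (hW : Nd (fun u v => polarBilin Q u v) W)
    (hWi : ∀ v ∈ W, A v ∈ W) (hWd : finrank F W = 2 * κ) :
    ∃ a a' : ℕ, finrank F (LinearMap.range A) ≤ a + a' ∧ a ≤ κ ∧ a' ≤ d - κ ∧ Even a ∧ (a = κ → HyS Q W) ∧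
      (a' = d - κ → (HyQ Q → HyS Q W)) := by
  have hB := fm_of_symm (polar_symm Q) hN
  have hC := (fm_of_symm (polar_symm Q) hN).nd_orth hW
  have hCi := h.inv_orth hN hWi
  have hCd := (fm_of_symm (polar_symm Q) hN).finrank_orth W
  have hcompl := (fm_of_symm (polar_symm Q) hN).isCompl_orth hW
  have h1 := h.rank_le hN hW hWi
  have h3 := h.rank_le hN hC hCi
  refine ⟨finrank F (W.map A), finrank F (((fm_of_symm (polar_symm Q) hN).orth W : Submodule F V).map A), ?_, ?_, ?_,
    even_rank h hts hW hWi, ?_, ?_⟩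
  · have h4 : LinearMap.range A = W.map A ⊔ ((fm_of_symm (polar_symm Q) hN).orth W : Submodule F V).map A := by
      rw [← Submodule.map_sup, hcompl.sup_eq_top, Submodule.map_top]
    rw [h4]
    exact Submodule.finrank_add_le_finrank_add_finrank _ _
  · omega
  · omega
  · intro ha
    exact hyS_of_ts_map hts hWi (by omega)
  · intro ha hy
    have h5 : HyS Q ((fm_of_symm (polar_symm Q) hN).orth W) := hyS_of_ts_map hts hCi (by omega)
    have h6 := hyS_sup (Q := Q) hq hW hC (fun x hx y hy => hy x hx) hWd (b := d - κ) (by omega)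
    rw [hcompl.sup_eq_top, hyS_top] at h6
    exact (h6.mp hy).mpr h5

end general

section gl

variable {F : Type u} [Field F] [Fintype F] {q : ℕ} {ι : Type} [Fintype ι] [DecidableEq ι] {Q : QuadraticForm F (ι → F)}
  {A : End F (ι → F)}

theorem rank_eq_of_toLin {x : GL ι F} (hx : Matrix.toLin' (x : Matrix ι ι F) = 1 + A) :
    ((x : Matrix ι ι F) - 1).rank = finrank F (LinearMap.range A) := by
  have h1 : Matrix.toLin' ((x : Matrix ι ι F) - 1) = A := by
    rw [map_sub, hx, Matrix.toLin'_one]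
    change (1 + A) - 1 = A
    exact add_sub_cancel_left 1 A
  rw [Matrix.rank, ← h1]
  rfl

/-- The element of `Ω` attached to `A`. -/
theorem exists_gl_of_AT {p : ℕ} [hp : Fact p.Prime] [CharP F p] (hN : (polarBilin Q).Nondegenerate)
    (hc : Fintype.card F ≠ 2 ∨ Fintype.card ι ≠ 4) (h : IV Q A) (hA0 : A ≠ 0)
    (hρ : Even (finrank F (LinearMap.range A))) :
    ∃ x : GL ι F, x ∈ Cfsg.Geo.omegaGL ⇑Q ∧ x ^ p = 1 ∧ (∀ z : F, (x : Matrix ι ι F) ≠ z • (1 : Matrix ι ι F)) ∧
      Matrix.toLin' (x : Matrix ι ι F) = 1 + A := by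
  classical
  set T : End F (ι → F) := 1 + A with hT
  have hTk : ∀ (k : ℕ) (v : ι → F), (T ^ k) v = v + (k : F) • A v := by
    intro k
    induction k with
    | zero => intro v; simp
    | succ k ih =>
      intro v
      rw [pow_succ, Module.End.mul_apply, ih]
      simp only [hT, LinearMap.add_apply, Module.End.one_apply, map_add, map_smul, h.sq, smul_zero, add_zero,
        Nat.cast_add, Nat.cast_one, add_smul, one_smul]
      abel
  have hTp : T ^ p = 1 := by
    apply LinearMap.ext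
    intro v
    rw [hTk, CharP.cast_eq_zero F p, zero_smul, add_zero]
    rfl
  have hXr : (LinearMap.toMatrix' T) ^ p = 1 := by
    rw [toMatrix_pow, hTp]
    exact LinearMap.toMatrix'_one
  let x : GL ι F := glOfPow (LinearMap.toMatrix' T) p hp.out.pos hXr
  have hxT : Matrix.toLin' (x : Matrix ι ι F) = T := Matrix.toLin'_toMatrix' T
  have hxr : x ^ p = 1 := glOfPow_pow _ _ _ _
  have hxi : x ∈ isometryGroup F ⇑Q := by
    rw [mem_isometryGroup_iff]
    intro v
    rw [← Matrix.toLin'_apply, hxT]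
    exact h.iso v
  refine ⟨x, ?_, hxr, ?_, hxT⟩
  · rcases hp.out.eq_two_or_odd' with h2 | hodd
    · subst h2
      apply mem_omega_of_even_rank Q hN hc x hxi
      rw [rank_eq_of_toLin hxT]
      exact hρ
    · exact mem_omega_of_odd Q hN hc x hxi hodd hxr
  · intro z hz
    apply hA0
    have hAz : ∀ v, A v = (z - 1) • v := by
      intro v
      have h1 : T v = z • v := by
        rw [← hxT, hz, Matrix.toLin'_apply, Matrix.smul_mulVec, Matrix.one_mulVec]
      have h3 : T v = v + A v := rfl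
      rw [h3] at h1
      rw [sub_smul, one_smul, ← h1]
      abel
    have hz1 : ∀ v, A v = 0 := by
      intro v
      by_contra hv
      have hv0 : v ≠ 0 := by
        rintro rfl
        exact hv (map_zero A)
      have h4 := h.sq v
      rw [hAz (A v), hAz v, smul_smul] at h4
      have h5 := (smul_eq_zero.mp h4).resolve_right hv0
      have h6 := mul_self_eq_zero.mp h5
      apply hv
      rw [hAz, h6, zero_smul]
    exact LinearMap.ext hz1

/-- The element of `Ω` attached to a totally singular subspace of even dimension. -/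
theorem exists_x_ts {p : ℕ} [hp : Fact p.Prime] [CharP F p] (hN : (polarBilin Q).Nondegenerate)
    (hc : Fintype.card F ≠ 2 ∨ Fintype.card ι ≠ 4) {U : Submodule F (ι → F)} (hU : ∀ u ∈ U, Q u = 0) {g : ℕ}
    (hd : finrank F U = 2 * g) (hg : 0 < g) :
    ∃ (x : GL ι F) (A : End F (ι → F)), x ∈ Cfsg.Geo.omegaGL ⇑Q ∧ x ^ p = 1 ∧
      (∀ z : F, (x : Matrix ι ι F) ≠ z • (1 : Matrix ι ι F)) ∧ Matrix.toLin' (x : Matrix ι ι F) = 1 + A ∧ IV Q A ∧
      (∀ v, Q (A v) = 0) ∧ finrank F (LinearMap.range A) = 2 * g := by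
  obtain ⟨A, h, hts, hr⟩ := exists_AT hN hU hd
  have hrd : finrank F (LinearMap.range A) = 2 * g := by rw [hr, hd]
  have hA0 : A ≠ 0 := by
    rintro rfl
    rw [LinearMap.range_zero, finrank_bot] at hrd
    omega
  obtain ⟨x, h1, h3, h4, h5⟩ := exists_gl_of_AT (p := p) hN hc h hA0 (by rw [hrd]; exact even_two_mul g)
  exact ⟨x, A, h1, h3, h4, h5, h, hts, hrd⟩

/-- An element of `Ω` with a scalar square in characteristic two. -/
theorem c2_setup (hN : (polarBilin Q).Nondegenerate) (h2 : (2 : F) = 0) (hpos : 0 < Fintype.card ι)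
    (hc : Fintype.card F ≠ 2 ∨ Fintype.card ι ≠ 4) {x : GL ι F} (hx : x ∈ Cfsg.Geo.omegaGL ⇑Q)
    (hsc : ∃ z : F, ((x ^ 2 : GL ι F) : Matrix ι ι F) = z • (1 : Matrix ι ι F))
    (hns : ∀ z : F, (x : Matrix ι ι F) ≠ z • (1 : Matrix ι ι F)) :
    ∃ A : End F (ι → F), Matrix.toLin' (x : Matrix ι ι F) = 1 + A ∧ IV Q A ∧ Even (finrank F (LinearMap.range A)) ∧
      0 < finrank F (LinearMap.range A) := by
  classical
  obtain ⟨z, hz⟩ := hsc
  obtain ⟨hxi, -⟩ := (mem_omegaGL_iff _ x).mp hx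
  set T : End F (ι → F) := Matrix.toLin' (x : Matrix ι ι F) with hT
  have hQT : ∀ v, Q (T v) = Q v := fun v => by
    rw [hT, Matrix.toLin'_apply]
    exact (mem_isometryGroup_iff _ _).mp hxi v
  have hT2' : T * T = z • 1 := by
    rw [← pow_two, hT, Cfsg.Agent.Lib.ElusQ.Bridge.toLin_pow, ← Units.val_pow_eq_pow_val, hz, map_smul, Matrix.toLin'_one]
    rfl
  have hzz : z * z = 1 := scalar_sq hN hpos (z := z) (fun v => by
    have h1 : (T * T) v = z • v := by
      rw [hT2']
      rfl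
    rw [← h1, Module.End.mul_apply, hQT, hQT])
  have hz1 : z = 1 := by
    have h3 : (z - 1) * (z - 1) = 0 := by linear_combination hzz + (1 - z) * h2
    have h4 := mul_self_eq_zero.mp h3
    linear_combination h4
  have hT2 : ∀ v, T (T v) = v := by
    intro v
    have h1 : (T * T) v = z • v := by
      rw [hT2']
      rfl
    rw [Module.End.mul_apply, hz1, one_smul] at h1
    exact h1
  have hA : T = 1 + (T - 1) := by
    simp
  have hIV : IV Q (T - 1) := by
    constructor
    · intro v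
      have : v + (T - 1) v = T v := by
        simp
      rw [this, hQT]
    · intro v
      simp only [LinearMap.sub_apply, Module.End.one_apply, map_sub, hT2]
      have h3 : (2 : F) • (v - T v) = 0 := by
        rw [h2, zero_smul]
      rw [two_smul] at h3
      have h5 : v - T v - (T v - v) = (v - T v) + (v - T v) := by abel
      rw [h5]
      exact h3
  have hrank := rank_eq_of_toLin (x := x) (A := T - 1) (hA)
  refine ⟨T - 1, hA, hIV, ?_, ?_⟩
  · rw [← hrank]
    exact even_rank_of_mem_omega Q hN hc x hx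
  · by_contra h0
    have h3 : LinearMap.range (T - 1) = ⊥ := by
      have : finrank F (LinearMap.range (T - 1)) = 0 := by omega
      exact Submodule.finrank_eq_zero.mp this
    have h4 : T - 1 = 0 := LinearMap.range_eq_bot.mp h3
    apply hns 1
    have h5 : T = 1 := sub_eq_zero.mp h4
    rw [one_smul]
    apply Matrix.toLin'.injective
    rw [Matrix.toLin'_one]
    exact h5

/-- A sufficient condition in characteristic two. -/
theorem c2_elus_of (hN : (polarBilin Q).Nondegenerate) (h2 : (2 : F) = 0) (hq : Fintype.card F = q) {d κ : ℕ}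
    (hcard : Fintype.card ι = 2 * d) (hd : 3 ≤ d) (hκ : 0 < κ) (hκd : κ < d) {τ : Prop}
    (harith : ∀ ρ : ℕ, Even ρ → 2 ≤ ρ → ρ ≤ d → (ρ = d → HyQ Q) → ∃ s t : ℕ, 2 * s ≤ ρ ∧ t + 2 * s = κ ∧ t + ρ ≤ d ∧
      (t = 0 → τ) ∧ (t + ρ = d → (τ ↔ HyQ Q))) :
    ElusP Q 2 (PQ Q (2 * κ) τ) := by
  classical
  have hdim : finrank F (ι → F) = 2 * d := by rw [Cfsg.Agent.Lib.ElusQ.SqNegMain.finrank_ι, hcard]
  intro x hx hsc hns
  obtain ⟨A, hxA, hIV, hev, hpos⟩ := c2_setup hN h2 (by omega) (Or.inr (by omega)) hx hsc hns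
  rw [hxA]
  have hge2 : 2 ≤ finrank F (LinearMap.range A) := by
    obtain ⟨k, hk⟩ := hev
    omega
  have hle : finrank F (LinearMap.range A) ≤ d := by
    have hS : TI (fun u v => polarBilin Q u v) (LinearMap.range A) := by
      rintro _ ⟨x, rfl⟩ _ ⟨y, rfl⟩
      exact hIV.polar_AA x y
    have hB := fm_of_symm (polar_symm Q) hN
    have h3 := hB.two_mul_finrank_le hB.nd_top (le_top) hS
    rw [finrank_top] at h3
    omega
  by_cases hal : ∀ v, polarBilin Q v (A v) = 0
  · have hts : ∀ v, Q (A v) = 0 := fun v => by rw [QA hIV h2, hal]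
    obtain ⟨s, t, h3, h4, h5, h6, h7⟩ := harith _ hev hge2 hle (fun he => ⟨LinearMap.range A, by
      rintro _ ⟨v, rfl⟩
      exact hts v, by omega⟩)
    obtain ⟨W, hW, hWi⟩ := pos_a hIV h2 hN hq hdim hal h3 h4 h5 h6 h7
    exact ⟨W, hW, inv_T_iff.mpr hWi⟩
  · push Not at hal
    obtain ⟨W, hW, hWi⟩ := pos_b hIV h2 hN hq hdim hal hge2 hκ hκd τ
    exact ⟨W, hW, inv_T_iff.mpr hWi⟩

/-- A necessary condition: the group contains an element of order `p` whose invariant subspaces are constrained. -/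
theorem not_elus_of {p : ℕ} [hp : Fact p.Prime] [CharP F p] (hN : (polarBilin Q).Nondegenerate) (hq : Fintype.card F = q)
    {d κ g : ℕ} (hcard : Fintype.card ι = 2 * d) (hd : 3 ≤ d) (hg : 0 < g) {U : Submodule F (ι → F)} (hU : ∀ u ∈ U, Q u = 0)
    (hUd : finrank F U = 2 * g) {τ : Prop}
    (hcon : ∀ a a' : ℕ, 2 * g ≤ a + a' → a ≤ κ → a' ≤ d - κ → Even a → (a = κ → τ) →
       (a' = d - κ → (HyQ Q → τ)) → False) :
    ¬ ElusP Q p (PQ Q (2 * κ) τ) := by
  have hdim : finrank F (ι → F) = 2 * d := by rw [Cfsg.Agent.Lib.ElusQ.SqNegMain.finrank_ι, hcard]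
  intro H
  obtain ⟨x, A, h1, h3, h4, h5, hIV, hts, hrk⟩ := exists_x_ts (p := p) hN (Or.inr (by omega)) hU hUd hg
  obtain ⟨W, hW, hWi⟩ := H x h1 ⟨1, by
    rw [h3]
    simp⟩ h4
  rw [h5] at hWi
  obtain ⟨a, a', h6, h7, h8, h9, h10, h11⟩ := neg_core hIV hts hN hq hdim hW.2.1 (inv_T_iff.mp hWi) hW.1
  exact hcon a a' (by omega) h7 h8 h9 (fun ha => hW.2.2.mp (h10 ha)) (fun ha hy => hW.2.2.mp (h11 ha hy))

end gl

end Cfsg.Agent.Lib.ElusT.NC2G
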