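import Cfsg.Agent.Lib.ElusT.NBase
import Cfsg.Agent.Lib.Classical.QuadOrders

/-!
# The number of nondegenerate subspaces of a prescribed type
-/

set_option autoImplicit false
set_option linter.unusedSectionVars false
set_option linter.style.haveILetI false
set_option linter.unusedVariables false
set_option linter.unusedSimpArgs false

open Polynomial Module QuadraticMap

universe u v w

namespace Cfsg.Agent.Lib.ElusT.NCount

open Cfsg Cfsg.Agent.Lib.ElusL.Basic Cfsg.Agent.Lib.ElusF.Form Cfsg.Agent.Lib.ElusT.QType Cfsg.Agent.Lib.ElusT.QK1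
  Cfsg.Agent.Lib.ElusT.QModel Cfsg.Agent.Lib.ElusT.NBase Cfsg.Agent.Lib.Classical.Quad
  Cfsg.Agent.Lib.Classical.QuadOrders Cfsg.Agent.Lib.Orth.Forms Cfsg.Agent.Lib.ElusQ.Disc Cfsg.Agent.Lib.ElusF.Step
  Cfsg.Agent.Lib.ElusQ.Count

variable {F : Type u} [Field F] [Fintype F] {q r : ℕ} {V : Type v} [AddCommGroup V] [Module F V]
  [FiniteDimensional F V] {Q : QuadraticForm F V}

open scoped _root_.Classical in
/-- The signed factor. -/
noncomputable def cf (q l : ℕ) (σ : Prop) : ℕ := if σ then q ^ l - 1 else q ^ l + 1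

theorem cf_true {q l : ℕ} {σ : Prop} (h : σ) : cf q l σ = q ^ l - 1 := if_pos h

theorem cf_false {q l : ℕ} {σ : Prop} (h : ¬ σ) : cf q l σ = q ^ l + 1 := if_neg h

theorem hyQ_sumHyp (m : ℕ) : HyQ (sumHyp (qZero.{u, 0} F) m) := by
  have h1 : HyQ (plusForm m F) := ⟨Cfsg.Agent.Lib.QuadFn.PlusForm.stdM F m, Cfsg.Agent.Lib.QuadFn.PlusForm.stdM_ts F m, by
    rw [Cfsg.Agent.Lib.QuadFn.PlusForm.stdM_finrank, Cfsg.Agent.Lib.QuadFn.PlusForm.finrank_total]⟩
  exact (hyQ_of_iso (plusEquiv.{u, 0} m F) (fun x => by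
    rw [plusEquiv_isom, coe_qPlus]
    rfl)).mp h1

theorem finrank_sumHyp (m : ℕ) : finrank F ((Fin m ⊕ Fin m → F) × PUnit.{1}) = 2 * m := by
  rw [Module.finrank_prod, Module.finrank_fintype_fun_eq_card, Module.finrank_zero_of_subsingleton]
  simp
  ring

/-- The minus model. -/
noncomputable def minusEquiv (k : ℕ) : ((Fin k ⊕ Fin k) ⊕ Fin 2 → F) ≃ₗ[F] (Fin k ⊕ Fin k → F) × (Fin 2 → F) :=
  LinearEquiv.sumArrowLequivProdArrow _ _ _ _

theorem not_hyQ_sumHyp (hq : Fintype.card F = q) {a b : F}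
    (hab : ∀ x y : F, x ^ 2 + a * x * y + b * y ^ 2 = 0 → x = 0 ∧ y = 0) (k : ℕ) : ¬ HyQ (sumHyp (qBin a b) k) := by
  intro h
  refine not_hyQ_minus hq hab k ((hyQ_of_iso (minusEquiv (F := F) k) (fun x => ?_)).mpr h)
  rw [sumHyp_apply, qBin_apply]
  rfl

theorem card_iso_plus (hq : Fintype.card F = q) (hN : (polarBilin Q).Nondegenerate) {k : ℕ}
    (hV : finrank F V = 2 * (k + 1)) (hy : HyQ Q) :
    Nat.card (oGroup Q) = 2 * q ^ ((k + 1) * k) * (q ^ (k + 1) - 1) * ∏ i ∈ Finset.range k, (q ^ (2 * (i + 1)) - 1) := by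
  have hq' : Nat.card F = q := by rw [Nat.card_eq_fintype_card, hq]
  obtain ⟨e, he⟩ := exists_iso_of_hyQ hN (sumHyp_nondeg (qZero_nondeg.{u, 0} (F := F)) (k + 1)) hV (finrank_sumHyp (F := F) (k + 1))
    (iff_of_true hy (hyQ_sumHyp (k + 1)))
  rw [Nat.card_congr (oGroupEquiv e he).toEquiv]
  exact card_oGroup_plus hq' k

theorem card_iso_minus (hq : Fintype.card F = q) (hN : (polarBilin Q).Nondegenerate) {k : ℕ}
    (hV : finrank F V = 2 * (k + 1)) (hy : ¬ HyQ Q) :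
    Nat.card (oGroup Q) = 2 * q ^ ((k + 1) * k) * (q ^ (k + 1) + 1) * ∏ i ∈ Finset.range k, (q ^ (2 * (i + 1)) - 1) := by
  have hq' : Nat.card F = q := by rw [Nat.card_eq_fintype_card, hq]
  obtain ⟨a, b, hab⟩ := exists_aniso (F := F)
  have hdim : finrank F ((Fin k ⊕ Fin k → F) × (Fin 2 → F)) = 2 * (k + 1) := by
    rw [Module.finrank_prod, Module.finrank_fintype_fun_eq_card, Module.finrank_fintype_fun_eq_card]
    simp
    ring
  obtain ⟨e, he⟩ := exists_iso_of_hyQ hN (sumHyp_nondeg (qBin_nondeg hab) k) hV hdim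
    (iff_of_false hy (not_hyQ_sumHyp hq hab k))
  rw [Nat.card_congr (oGroupEquiv e he).toEquiv]
  exact card_oGroup_minus hq' hab k

theorem iso_eq : Cfsg.Agent.Lib.Witt.Quadratic.isoGroup Q = oGroup Q := by
  ext g
  rfl

/-- Orbit-stabilizer for the family of subspaces of a given type. -/
theorem card_family (hN : (polarBilin Q).Nondegenerate) {κ : ℕ} {τ : Prop} {W₀ C : Submodule F V}
    (h₀ : PQ Q (2 * κ) τ W₀) (hC : C = (fm_of_symm (Cfsg.Agent.Lib.ElusQ.Syl.polar_symm Q) hN).orth W₀) :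
    Nat.card {W // PQ Q (2 * κ) τ W} * (Nat.card (oGroup (Q.comp W₀.subtype)) * Nat.card (oGroup (Q.comp C.subtype))) =
      Nat.card (oGroup Q) := by
  classical
  haveI : Finite V := Module.finite_of_finite F
  haveI : Finite (V ≃ₗ[F] V) := Finite.of_injective (fun e : V ≃ₗ[F] V => (e : V → V)) DFunLike.coe_injective
  have hS := Cfsg.Agent.Lib.ElusQ.Syl.polar_symm Q
  have hB := fm_of_symm hS hN
  have hcompl : IsCompl W₀ C := by
    rw [hC]
    exact hB.isCompl_orth h₀.2.1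
  have hWC : ∀ x ∈ W₀, ∀ y ∈ C, polarBilin Q x y = 0 := by
    intro x hx y hy
    rw [hC] at hy
    exact hy x hx
  let G := ↥(oGroup Q)
  have hG : ∀ g : G, ∀ v, Q ((g : V ≃ₗ[F] V) v) = Q v := fun g => g.2
  letI act : MulAction G {W // PQ Q (2 * κ) τ W} :=
    { smul := fun g W => ⟨W.1.map ((g : V ≃ₗ[F] V) : V →ₗ[F] V), pq_map (hG g) W.2⟩
      one_smul := fun W => Subtype.ext (by
        change W.1.map (((1 : V ≃ₗ[F] V)) : V →ₗ[F] V) = W.1
        exact Submodule.map_id _)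
      mul_smul := fun a b W => Subtype.ext (Cfsg.Agent.Lib.ElusQ.Syl.map_mul_equiv W.1 _ _) }
  have hsmul : ∀ (g : G) (W : {W // PQ Q (2 * κ) τ W}), ((g • W : {W // PQ Q (2 * κ) τ W}) : Submodule F V) =
      W.1.map ((g : V ≃ₗ[F] V) : V →ₗ[F] V) := fun _ _ => rfl
  set x₀ : {W // PQ Q (2 * κ) τ W} := ⟨W₀, h₀⟩ with hx₀
  have horb : MulAction.orbit G x₀ = Set.univ := by
    ext W
    simp only [Set.mem_univ, iff_true]
    obtain ⟨g, hg, hgW⟩ := pq_trans hN h₀ W.2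
    refine ⟨⟨g, hg⟩, ?_⟩
    apply Subtype.ext
    exact hgW
  have hidx := MulAction.index_stabilizer G x₀
  rw [horb, Set.ncard_univ] at hidx
  have hcard := Subgroup.card_mul_index (MulAction.stabilizer G x₀)
  rw [hidx] at hcard
  rw [mul_comm (Nat.card {W // PQ Q (2 * κ) τ W})] at *
  change _ = Nat.card G
  rw [← hcard]
  congr 1
  -- the stabilizer
  let e : (W₀ × C) ≃ₗ[F] V := Submodule.prodEquivOfIsCompl W₀ C hcompl
  have hea : ∀ p : W₀ × C, e p = (p.1 : V) + (p.2 : V) := fun p => by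
    simp [e, Submodule.coe_prodEquivOfIsCompl']
  have he : ∀ p : W₀ × C, Q (e p) = Q (p.1 : V) + Q (p.2 : V) := fun p => by
    rw [hea]
    exact Cfsg.Agent.Lib.ElusT.Count.Q_add_of_polar (hWC _ p.1.2 _ p.2.2)
  have heW : ∀ x : W₀, e.symm (x : V) = (x, 0) := by
    intro x
    apply e.injective
    rw [e.apply_symm_apply, hea]
    simp
  have heC : ∀ y : C, e.symm (y : V) = (0, y) := by
    intro y
    apply e.injective
    rw [e.apply_symm_apply, hea]
    simp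
  let mk : oGroup (Q.comp W₀.subtype) × oGroup (Q.comp C.subtype) → (V ≃ₗ[F] V) := fun ab =>
    e.symm.trans ((LinearEquiv.prodCongr ab.1.1 ab.2.1).trans e)
  have hmk : ∀ ab v, mk ab v = e (ab.1.1 (e.symm v).1, ab.2.1 (e.symm v).2) := fun ab v => rfl
  have hmkW : ∀ ab (x : W₀), mk ab (x : V) = ((ab.1.1 x : W₀) : V) := by
    intro ab x
    rw [hmk, heW, hea]
    simp
  have hmkC : ∀ ab (y : C), mk ab (y : V) = ((ab.2.1 y : C) : V) := by
    intro ab y
    rw [hmk, heC, hea]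
    simp
  have hmkQ : ∀ ab v, Q (mk ab v) = Q v := by
    intro ab v
    rw [hmk, he]
    have h1 : Q ((ab.1.1 (e.symm v).1 : W₀) : V) = Q (((e.symm v).1 : W₀) : V) := ab.1.2 _
    have h2 : Q ((ab.2.1 (e.symm v).2 : C) : V) = Q (((e.symm v).2 : C) : V) := ab.2.2 _
    simp only [h1, h2]
    rw [← he, e.apply_symm_apply]
  have hmkS : ∀ ab, W₀.map ((mk ab : V ≃ₗ[F] V) : V →ₗ[F] V) = W₀ := by
    intro ab
    apply Submodule.eq_of_le_of_finrank_eq
    · rintro _ ⟨x, hx, rfl⟩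
      change mk ab x ∈ W₀
      rw [show x = ((⟨x, hx⟩ : W₀) : V) from rfl, hmkW]
      exact (ab.1.1 ⟨x, hx⟩).2
    · exact LinearEquiv.finrank_map_eq _ _
  let Φ : oGroup (Q.comp W₀.subtype) × oGroup (Q.comp C.subtype) → MulAction.stabilizer G x₀ := fun ab =>
    ⟨⟨mk ab, hmkQ ab⟩, by
      rw [MulAction.mem_stabilizer_iff]
      apply Subtype.ext
      exact hmkS ab⟩
  have hΦi : Function.Injective Φ := by
    intro ab ab' h
    have h1 : mk ab = mk ab' := congrArg (fun z : MulAction.stabilizer G x₀ => ((z : G) : V ≃ₗ[F] V)) h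
    apply Prod.ext
    · apply Subtype.ext
      apply LinearEquiv.ext
      intro x
      apply Subtype.ext
      rw [← hmkW, ← hmkW, h1]
    · apply Subtype.ext
      apply LinearEquiv.ext
      intro y
      apply Subtype.ext
      rw [← hmkC, ← hmkC, h1]
  have hΦs : Function.Surjective Φ := by
    rintro ⟨g, hgS⟩
    have hgW : W₀.map (((g : G) : V ≃ₗ[F] V) : V →ₗ[F] V) = W₀ := by
      rw [MulAction.mem_stabilizer_iff] at hgS
      exact congrArg Subtype.val hgS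
    have hgC : C.map (((g : G) : V ≃ₗ[F] V) : V →ₗ[F] V) = C := by
      apply Submodule.eq_of_le_of_finrank_eq
      · rintro _ ⟨y, hy, rfl⟩
        rw [hC]
        intro w hw
        have hw' : w ∈ W₀.map (((g : G) : V ≃ₗ[F] V) : V →ₗ[F] V) := by
          rw [hgW]
          exact hw
        obtain ⟨w₀, hw₀, rfl⟩ := hw'
        change polarBilin Q (((g : G) : V ≃ₗ[F] V) w₀) (((g : G) : V ≃ₗ[F] V) y) = 0
        rw [polar_g (hG g)]
        exact hWC _ hw₀ _ hy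
      · exact LinearEquiv.finrank_map_eq _ _
    let a : oGroup (Q.comp W₀.subtype) := ⟨LinearEquiv.ofSubmodules ((g : G) : V ≃ₗ[F] V) W₀ W₀ hgW, fun x => hG g x⟩
    let b : oGroup (Q.comp C.subtype) := ⟨LinearEquiv.ofSubmodules ((g : G) : V ≃ₗ[F] V) C C hgC, fun x => hG g x⟩
    refine ⟨(a, b), ?_⟩
    apply Subtype.ext
    apply Subtype.ext
    apply LinearEquiv.ext
    intro v
    change mk (a, b) v = ((g : G) : V ≃ₗ[F] V) v
    rw [hmk, hea]
    have h1 : (((a, b) : oGroup (Q.comp W₀.subtype) × oGroup (Q.comp C.subtype)).1.1 (e.symm v).1 : W₀).1 =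
        ((g : G) : V ≃ₗ[F] V) ((e.symm v).1 : V) := rfl
    have h2 : (((a, b) : oGroup (Q.comp W₀.subtype) × oGroup (Q.comp C.subtype)).2.1 (e.symm v).2 : C).1 =
        ((g : G) : V ≃ₗ[F] V) ((e.symm v).2 : V) := rfl
    simp only [h1, h2]
    rw [← map_add, ← hea, e.apply_symm_apply]
  rw [← Nat.card_prod]
  exact Nat.card_eq_of_bijective Φ ⟨hΦi, hΦs⟩

theorem card_iso (hq : Fintype.card F = q) (hN : (polarBilin Q).Nondegenerate) {k : ℕ}
    (hV : finrank F V = 2 * (k + 1)) {σ : Prop} (hy : HyQ Q ↔ σ) :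
    Nat.card (oGroup Q) = 2 * q ^ ((k + 1) * k) * cf q (k + 1) σ * ∏ i ∈ Finset.range k, (q ^ (2 * (i + 1)) - 1) := by
  by_cases h : σ
  · rw [cf_true h]
    exact card_iso_plus hq hN hV (hy.mpr h)
  · rw [cf_false h]
    exact card_iso_minus hq hN hV (fun hc => h (hy.mp hc))

/-- A prime divisor of the number of nondegenerate subspaces of a given type. -/
theorem nd_dvd (hq : Fintype.card F = q) (hN : (polarBilin Q).Nondegenerate) {d κ : ℕ} (hV : finrank F V = 2 * d)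
    (hκ : 0 < κ) (hκd : κ < d) {τ : Prop} (hr : r.Prime) (hr2 : r ≠ 2) (hrq : ¬ r ∣ q)
    (h : r ∣ Nat.card {W // PQ Q (2 * κ) τ W}) :
    r ∣ cf q d (HyQ Q) ∨ r ∣ cf q (d - κ) (¬ (τ ↔ HyQ Q)) ∨ ∃ l, d - κ < l ∧ l < d ∧ r ∣ q ^ (2 * l) - 1 := by
  classical
  have hq2 := two_le_q hq
  have hS := Cfsg.Agent.Lib.ElusQ.Syl.polar_symm Q
  have hB := fm_of_symm hS hN
  obtain ⟨W₀, -, hW₀, hWd, hWτ⟩ := exists_sub_q hq (U := ⊤) (Q := Q) hB.nd_top (a := d) (t := κ) (by rw [finrank_top, hV])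
    hκd.le (τ := τ) (fun h => by omega) (fun h => by omega)
  have h₀ : PQ Q (2 * κ) τ W₀ := ⟨hWd, hW₀, hWτ⟩
  set C := hB.orth W₀ with hCdef
  have hCn : Nd (fun u v => polarBilin Q u v) C := hB.nd_orth hW₀
  have hCd : finrank F C = 2 * (d - κ) := by
    have : finrank F W₀ + finrank F C = finrank F V := hB.finrank_orth W₀
    omega
  have hsup : W₀ ⊔ C = ⊤ := (hB.isCompl_orth hW₀).sup_eq_top
  have ht := hyS_sup hq hW₀ hCn (a := κ) (b := d - κ) (fun x hx y hy => hy x hx) hWd hCd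
  rw [hsup, hyS_top, hWτ] at ht
  have hCτ : HyS Q C ↔ (τ ↔ HyQ Q) := by tauto
  have hfam := card_family hN h₀ (C := C) rfl
  obtain ⟨κ', rfl⟩ : ∃ κ', κ = κ' + 1 := ⟨κ - 1, by omega⟩
  obtain ⟨l', hl'⟩ : ∃ l', d - (κ' + 1) = l' + 1 := ⟨d - (κ' + 1) - 1, by omega⟩
  have hd' : d = (κ' + l' + 1) + 1 := by omega
  rw [card_iso hq (nd_comp hW₀) (k := κ') hWd ((hyS_iff Q W₀).symm.trans hWτ),
    card_iso hq (nd_comp hCn) (k := l') (by rw [hCd, hl']) ((hyS_iff Q C).symm.trans hCτ),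
    card_iso hq hN (k := κ' + l' + 1) (by rw [hV, hd']) Iff.rfl] at hfam
  rw [hl'] at ⊢
  have hprod : ∏ i ∈ Finset.range (κ' + l' + 1), (q ^ (2 * (i + 1)) - 1) =
      (∏ i ∈ Finset.range l', (q ^ (2 * (i + 1)) - 1)) *
        ((∏ j ∈ Finset.range κ', (q ^ (2 * (l' + (j + 1) + 1)) - 1)) * (q ^ (2 * (l' + 1)) - 1)) := by
    have h1 : κ' + l' + 1 = l' + (κ' + 1) := by ring
    rw [h1, Finset.prod_range_add, Finset.prod_range_succ']
  have hfac : q ^ (2 * (l' + 1)) - 1 = cf q (l' + 1) (τ ↔ HyQ Q) * cf q (l' + 1) (¬ (τ ↔ HyQ Q)) := by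
    have h1 : 1 ≤ q ^ (l' + 1) := Nat.one_le_pow _ _ (by omega)
    have h2 : 1 ≤ q ^ (2 * (l' + 1)) := Nat.one_le_pow _ _ (by omega)
    have h3 : q ^ (2 * (l' + 1)) = q ^ (l' + 1) * q ^ (l' + 1) := by
      rw [two_mul, pow_add]
    by_cases hσ : (τ ↔ HyQ Q)
    · rw [cf_true hσ, cf_false (not_not.mpr hσ)]
      zify [h1, h2]
      ring
    · rw [cf_false hσ, cf_true hσ]
      zify [h1, h2]
      ring
  rw [hprod, hfac] at hfam
  set P := ∏ i ∈ Finset.range l', (q ^ (2 * (i + 1)) - 1) with hP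
  set X := ∏ j ∈ Finset.range κ', (q ^ (2 * (l' + (j + 1) + 1)) - 1) with hX
  set A := 2 * q ^ ((κ' + 1) * κ') * cf q (κ' + 1) τ * ∏ i ∈ Finset.range κ', (q ^ (2 * (i + 1)) - 1) with hA
  set c₁ := cf q (l' + 1) (τ ↔ HyQ Q) with hc₁
  set c₂ := cf q (l' + 1) (¬ (τ ↔ HyQ Q)) with hc₂
  set c₀ := cf q (κ' + l' + 1 + 1) (HyQ Q) with hc₀
  have hPpos : 0 < P := Finset.prod_pos (fun i _ => by
    have : 4 ≤ q ^ (2 * (i + 1)) := by
      calc 4 = 2 ^ 2 := by norm_num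
        _ ≤ q ^ 2 := Nat.pow_le_pow_left hq2 2
        _ ≤ q ^ (2 * (i + 1)) := Nat.pow_le_pow_right (by omega) (by omega)
    omega)
  have hc₁pos : 0 < c₁ := by
    have : 2 ≤ q ^ (l' + 1) := by
      calc 2 ≤ q := hq2
        _ = q ^ 1 := (pow_one q).symm
        _ ≤ q ^ (l' + 1) := Nat.pow_le_pow_right (by omega) (by omega)
    by_cases hσ : (τ ↔ HyQ Q)
    · rw [hc₁, cf_true hσ]
      omega
    · rw [hc₁, cf_false hσ]
      omega
  have heq : Nat.card {W // PQ Q (2 * (κ' + 1)) τ W} * (A * (2 * q ^ ((l' + 1) * l'))) =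
      2 * q ^ ((κ' + l' + 1 + 1) * (κ' + l' + 1)) * c₀ * X * c₂ := by
    apply Nat.eq_of_mul_eq_mul_right (Nat.mul_pos hPpos hc₁pos)
    calc _ = Nat.card {W // PQ Q (2 * (κ' + 1)) τ W} * (A * (2 * q ^ ((l' + 1) * l') * c₁ * P)) := by ring
      _ = 2 * q ^ ((κ' + l' + 1 + 1) * (κ' + l' + 1)) * c₀ * (P * (X * (c₁ * c₂))) := hfam
      _ = _ := by ring
  have hdv : r ∣ 2 * q ^ ((κ' + l' + 1 + 1) * (κ' + l' + 1)) * c₀ * X * c₂ := by
    rw [← heq]
    exact h.mul_right _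
  rw [hd']
  have hp := hr.prime
  rcases hp.dvd_mul.mp hdv with h1 | h1
  · rcases hp.dvd_mul.mp h1 with h3 | h3
    · rcases hp.dvd_mul.mp h3 with h4 | h4
      · rcases hp.dvd_mul.mp h4 with h5 | h5
        · exact absurd ((Nat.prime_dvd_prime_iff_eq hr Nat.prime_two).mp h5) hr2
        · exact absurd (hr.dvd_of_dvd_pow h5) hrq
      · exact Or.inl h4
    · obtain ⟨j, hj, hj'⟩ := (hp.dvd_finsetProd_iff _).mp h3
      have hj2 := Finset.mem_range.mp hj
      exact Or.inr (Or.inr ⟨l' + (j + 1) + 1, by omega, by omega, hj'⟩)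
  · exact Or.inr (Or.inl h1)

end Cfsg.Agent.Lib.ElusT.NCount
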