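import Cfsg.Agent.Lib.ElusT.NCount
import Cfsg.Agent.Lib.ElusT.NArith

/-!
# Invariant nondegenerate subspaces of isometries of odd prime order, in all characteristics
-/

set_option autoImplicit false
set_option linter.unusedSectionVars false
set_option linter.style.haveILetI false
set_option linter.unusedVariables false
set_option linter.unusedSimpArgs false

open Polynomial Module QuadraticMap

universe u v w

namespace Cfsg.Agent.Lib.ElusT.NOdd

open Cfsg Cfsg.Agent.Lib.ElusL.Basic Cfsg.Agent.Lib.ElusL.Cyc Cfsg.Agent.Lib.ElusF.Form Cfsg.Agent.Lib.ElusF.Step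
  Cfsg.Agent.Lib.ElusF.Split Cfsg.Agent.Lib.ElusF.SpNeg Cfsg.Agent.Lib.ElusF.SpModel
  Cfsg.Agent.Lib.ElusQ.Oz Cfsg.Agent.Lib.ElusQ.Pos Cfsg.Agent.Lib.ElusQ.Disc
  Cfsg.Agent.Lib.ElusT.QType Cfsg.Agent.Lib.ElusT.QK1 Cfsg.Agent.Lib.ElusT.QModel Cfsg.Agent.Lib.ElusT.QFw
  Cfsg.Agent.Lib.ElusT.NBase Cfsg.Agent.Lib.ElusT.NCount Cfsg.Agent.Lib.ElusT.NArith

variable {F : Type u} [Field F] [Fintype F] {q r : ℕ} {V : Type v} [AddCommGroup V] [Module F V]
  [FiniteDimensional F V] {Q : QuadraticForm F V} {T : End F V}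

/-- Invariant nondegenerate subspaces of the moved part. -/
theorem exists_blocks_q (h : Oz (polarBilin Q) T r) (hq : Fintype.card F = q) (hr : r.Prime) (hr2 : r ≠ 2)
    (hrF : (r : F) ≠ 0) (hrq : ¬ r ∣ q) (s : ℕ) (hs : cOf (orderOf (q : ZMod r)) * s ≤ finrank F (K1 T r)) :
    ∃ U : Submodule F V, U ≤ K1 T r ∧ Nd (fun u v => polarBilin Q u v) U ∧ Inv T U ∧
      finrank F U = cOf (orderOf (q : ZMod r)) * s := by
  by_cases h2 : (2 : F) = 0
  · have hB := fm_neg h h2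
    have hA := polar_alt (Q := Q) h2
    have hinj := h.inj hr.ne_zero
    have hnd1 := nd_K1 h hrF
    have hR : Rz (polarBilin Q) T r := ⟨fun u => hA u, h.nondeg, h.iso, h.pow⟩
    have hc0 : 0 < cOf (orderOf (q : ZMod r)) := cOf_pos (ord_pos hr hrq)
    obtain ⟨U, h1, h3, h4, h5⟩ := ndcap hB h.isoF hinj hc0 (U₀ := K1 T r) (fun U hU hnd hUi hpos => by
      rcases Nat.even_or_odd (orderOf (q : ZMod r)) with he | ho
      · obtain ⟨e, he'⟩ := he
        have hi : orderOf (q : ZMod r) = 2 * e := by omega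
        have hipos := ord_pos (q := q) hr hrq
        have hc : cOf (orderOf (q : ZMod r)) = 2 * e := by
          unfold cOf
          rw [if_pos (by rw [hi]; exact even_two_mul e), hi]
        rw [hc]
        exact Cfsg.Agent.Lib.ElusF.SpNd.step_even hR hq hr hr2 hrF hrq hi (by omega) hU hnd hUi hpos
      · have hc : cOf (orderOf (q : ZMod r)) = 2 * orderOf (q : ZMod r) := by
          unfold cOf
          rw [if_neg (Nat.not_even_iff_odd.mpr ho)]
        rw [hc]
        exact Cfsg.Agent.Lib.ElusF.SpNd.step_odd hB hA h.isoF h.pow hq hr hrF hrq ho hU hnd hUi hpos)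
      s (K1 T r) le_rfl hnd1 (inv_ker T _) hs
    exact ⟨U, h1, h3, h4, h5⟩
  · exact exists_blocks h h2 hq hr hr2 hrF hrq s hs

/-- The data of the moved part. -/
structure Kdat (Q : QuadraticForm F V) (T : End F V) (r : ℕ) (s : ℕ → Prop) (e : ℕ) : Prop where
  dvd : ∀ U : Submodule F V, U ≤ K1 T r → Nd (fun u v => polarBilin Q u v) U → Inv T U → ∃ y, finrank F U = 2 * e * y
  hy : ∀ U : Submodule F V, U ≤ K1 T r → Nd (fun u v => polarBilin Q u v) U → Inv T U → ∀ y, finrank F U = 2 * e * y →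
    (HyS Q U ↔ s y)
  blocks : ∀ y, 2 * e * y ≤ finrank F (K1 T r) →
    ∃ U : Submodule F V, U ≤ K1 T r ∧ Nd (fun u v => polarBilin Q u v) U ∧ Inv T U ∧ finrank F U = 2 * e * y

theorem kdat_even (h : Mz Q T r) (hq : Fintype.card F = q) (hr : r.Prime) (hr2 : r ≠ 2)
    (hrF : (r : F) ≠ 0) (hrq : ¬ r ∣ q) {e : ℕ} (hi : orderOf (q : ZMod r) = 2 * e) (he : 0 < e) :
    Kdat Q T r Even e := by
  have hc : cOf (orderOf (q : ZMod r)) = 2 * e := by
    unfold cOf
    rw [if_pos (by rw [hi]; exact even_two_mul e), hi]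
  refine ⟨fun U hU₁ hU hUi => ?_, fun U hU₁ hU hUi y hy => hyS_even h hq hr hr2 hrF hrq hi he hU₁ hU hUi hy, fun y hy => ?_⟩
  · have := c_dvd_q h.oz hq hr (hr.odd_of_ne_two hr2) hrF hrq hU hUi hU₁
    rw [hc] at this
    exact this
  · have := exists_blocks_q h.oz hq hr hr2 hrF hrq y (by rw [hc]; exact hy)
    rw [hc] at this
    exact this

theorem kdat_odd (h : Mz Q T r) (hq : Fintype.card F = q) (hr : r.Prime) (hr2 : r ≠ 2)
    (hrF : (r : F) ≠ 0) (hrq : ¬ r ∣ q) (hi : Odd (orderOf (q : ZMod r))) :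
    Kdat Q T r (fun _ => True) (orderOf (q : ZMod r)) := by
  have hc : cOf (orderOf (q : ZMod r)) = 2 * orderOf (q : ZMod r) := by
    unfold cOf
    rw [if_neg (Nat.not_even_iff_odd.mpr hi)]
  refine ⟨fun U hU₁ hU hUi => ?_, fun U hU₁ hU hUi y hy =>
    iff_true_intro (hyS_odd h hq hr (hr.odd_of_ne_two hr2) hrF hrq hi hU₁ hU hUi), fun y hy => ?_⟩
  · have := c_dvd_q h.oz hq hr (hr.odd_of_ne_two hr2) hrF hrq hU hUi hU₁
    rw [hc] at this
    exact this
  · have := exists_blocks_q h.oz hq hr hr2 hrF hrq y (by rw [hc]; exact hy)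
    rw [hc] at this
    exact this

section generic

variable {s : ℕ → Prop} {e : ℕ}

theorem k0_type (hK : Kdat Q T r s e) (h : Mz Q T r) (hq : Fintype.card F = q) (hrF : (r : F) ≠ 0) {d y : ℕ}
    (hV : finrank F V = 2 * d) (hKd : finrank F (K1 T r) = 2 * e * y) :
    HyS Q (K0 T) ↔ (HyQ Q ↔ s y) := by
  have hsum := finrank_K h.oz hrF
  have h1 := hK.hy _ le_rfl (nd_K1 h.oz hrF) (inv_ker T _) y hKd
  have hb : finrank F (K1 T r) = 2 * (e * y) := by
    rw [hKd]
    ring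
  have h3 := hyQ_K h.oz hq hrF (a := d - e * y) (b := e * y) (by omega) hb
  rw [h3, h1]
  tauto

/-- The structure of an isometry. -/
theorem valid_of (hK : Kdat Q T r s e) (h : Mz Q T r) (hq : Fintype.card F = q) (hrF : (r : F) ≠ 0) {d : ℕ}
    (hV : finrank F V = 2 * d) (hT : T ≠ 1) :
    ∃ y, 0 < y ∧ e * y ≤ d ∧ (e * y = d → (HyQ Q ↔ s y)) ∧ finrank F (K1 T r) = 2 * e * y := by
  obtain ⟨y, hy⟩ := hK.dvd _ le_rfl (nd_K1 h.oz hrF) (inv_ker T _)
  have hsum := finrank_K h.oz hrF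
  have hb : 2 * e * y = 2 * (e * y) := by ring
  refine ⟨y, ?_, by omega, fun hed => ?_, hy⟩
  · rcases Nat.eq_zero_or_pos y with h0 | h0
    · exfalso
      apply hT
      subst h0
      have hK1 : K1 T r = ⊥ := by
        apply Submodule.finrank_eq_zero.mp
        rw [hy]
        simp
      have hK0 : K0 T = ⊤ := by
        have := K_sup h.oz hrF
        rwa [hK1, sup_bot_eq] at this
      apply LinearMap.ext
      intro v
      have : v ∈ K0 T := by
        rw [hK0]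
        trivial
      exact mem_fix.mp this
    · exact h0
  · have h3 := k0_type hK h hq hrF hV hy
    have h4 : HyS Q (K0 T) := hyS_of_zero _ (by omega)
    exact h3.mp h4

theorem logic_c {a b c : Prop} (h : a ↔ (b ↔ c)) : (a ↔ c) ↔ b := by
  tauto

theorem logic_d {a b : Prop} : ((a ↔ b) ↔ b) ↔ a := by
  tauto

theorem logic_e {a b c : Prop} (h3 : b) (h : a ↔ (b ↔ c)) : a ↔ c := by
  tauto

/-- Invariant subspaces give admissible pairs. -/
theorem pq_to_adm (hK : Kdat Q T r s e) (h : Mz Q T r) (hq : Fintype.card F = q) (hrF : (r : F) ≠ 0) (he : 0 < e) {d y : ℕ}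
    (hV : finrank F V = 2 * d) (hKd : finrank F (K1 T r) = 2 * e * y) {κ : ℕ} {τ : Prop} {W : Submodule F V}
    (hW : PQ Q (2 * κ) τ W) (hInv : Inv T W) : NArith.Adm s (HyQ Q) τ e κ d y := by
  obtain ⟨h0, h1, hi1, hsum, hsup⟩ := decomp h.oz hrF hW.2.1 hInv
  obtain ⟨y', hy'⟩ := hK.dvd _ inf_le_right h1 hi1
  have hs' := hK.hy _ inf_le_right h1 hi1 y' hy'
  have hsumK := finrank_K h.oz hrF
  have hm0 : finrank F (W ⊓ K0 T : Submodule F V) ≤ finrank F (K0 T) := Submodule.finrank_mono inf_le_right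
  have hm1 : finrank F (W ⊓ K1 T r : Submodule F V) ≤ finrank F (K1 T r) := Submodule.finrank_mono inf_le_right
  have hle : y' ≤ y := by
    rw [hy', hKd] at hm1
    exact Nat.le_of_mul_le_mul_left hm1 (by omega)
  have hb : 2 * e * y' = 2 * (e * y') := by ring
  have hb2 : 2 * e * y = 2 * (e * y) := by ring
  have hWd := hW.1
  have ht : finrank F (W ⊓ K0 T : Submodule F V) = 2 * (κ - e * y') := by omega
  have hty := hyS_sup hq h0 h1 (a := κ - e * y') (b := e * y') (fun a ha b hb => orth_K h.oz hrF a ha.2 b hb.2) ht (by omega)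
  rw [hsup, hW.2.2, hs'] at hty
  have hK0 := k0_type hK h hq hrF hV hKd
  refine ⟨κ - e * y', y', hle, by omega, by omega, fun hz => ?_, fun hz => ?_⟩
  · have h3 : HyS Q (W ⊓ K0 T) := hyS_of_zero _ (by omega)
    exact logic_e h3 hty
  · have h3 : W ⊓ K0 T = K0 T := Submodule.eq_of_le_of_finrank_eq inf_le_right (by omega)
    rw [h3, hK0] at hty
    exact hty

/-- Admissible pairs give invariant subspaces. -/
theorem adm_to_pq (hK : Kdat Q T r s e) (h : Mz Q T r) (hq : Fintype.card F = q) (hrF : (r : F) ≠ 0) (he : 0 < e) {d y : ℕ}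
    (hV : finrank F V = 2 * d) (hKd : finrank F (K1 T r) = 2 * e * y) {κ : ℕ} {τ : Prop}
    (hA : NArith.Adm s (HyQ Q) τ e κ d y) : ∃ W : Submodule F V, PQ Q (2 * κ) τ W ∧ Inv T W := by
  obtain ⟨t, y', hle, h1, h2, h3, h4⟩ := hA
  have hsumK := finrank_K h.oz hrF
  have hb2 : 2 * e * y = 2 * (e * y) := by ring
  have hb : 2 * e * y' = 2 * (e * y') := by ring
  have hmul : e * y' ≤ e * y := Nat.mul_le_mul_left e hle
  obtain ⟨U, hU₁, hU, hUi, hUd⟩ := hK.blocks y' (by rw [hKd, hb, hb2]; omega)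
  have hUs := hK.hy U hU₁ hU hUi y' hUd
  have hK0 := k0_type hK h hq hrF hV hKd
  obtain ⟨W₀, hW₀, hWn, hWd, hWτ⟩ := exists_sub_q hq (nd_K0 h.oz hrF) (a := d - e * y) (t := t) (τ := τ ↔ s y') (by omega) h2 h3
    (fun hz => by
      rw [hK0]
      exact logic_c (h4 hz))
  have horth : ∀ x ∈ W₀, ∀ y ∈ U, polarBilin Q x y = 0 := fun x hx y hy => orth_K h.oz hrF x (hW₀ hx) y (hU₁ hy)
  have hB := fm_of_symm (Cfsg.Agent.Lib.ElusQ.Syl.polar_symm Q) h.oz.nondeg
  refine ⟨W₀ ⊔ U, ⟨?_, nd_sup hB hWn hU (fun y hy x hx => horth x hx y hy), ?_⟩, inv_sup (inv_of_le_K0 (hW₀)) hUi⟩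
  · rw [finrank_sup_of_disjoint (disjoint_of_orth hWn horth), hWd, hUd]
    omega
  · rw [hyS_sup hq hWn hU (a := t) (b := e * y') horth hWd (by omega), hWτ, hUs]
    exact logic_d

/-- The dimensions of the parts after transport. -/
theorem K0_transport {V' : Type w} [AddCommGroup V'] [Module F V'] [FiniteDimensional F V'] {T' : End F V'}
    (g : V ≃ₗ[F] V') (hg : ∀ x, g (T x) = T' (g x)) : finrank F (K0 T) = finrank F (K0 T') := by
  have h3 : (K0 T).map (g : V →ₗ[F] V') = K0 T' := by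
    ext v
    constructor
    · rintro ⟨x, hx, rfl⟩
      rw [mem_fix]
      change T' (g x) = g x
      rw [← hg, mem_fix.mp hx]
    · intro hv
      refine ⟨g.symm v, ?_, by simp⟩
      change g.symm v ∈ K0 T
      rw [mem_fix]
      apply g.injective
      rw [hg]
      simp [mem_fix.mp hv]
  rw [← h3, LinearEquiv.finrank_map_eq]

end generic

/-- Elements of prescribed shape, even order. -/
theorem exists_T_even (hN : (polarBilin Q).Nondegenerate) (hq : Fintype.card F = q) (hr : r.Prime) (hr2 : r ≠ 2)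
    (hrF : (r : F) ≠ 0) (hrq : ¬ r ∣ q) {e : ℕ} (hi : orderOf (q : ZMod r) = 2 * e) (he : 0 < e) {d y : ℕ}
    (hV : finrank F V = 2 * d) (hy : 0 < y) (hle : e * y ≤ d) (hval : e * y = d → (HyQ Q ↔ Even y)) :
    ∃ T : End F V, Mz Q T r ∧ T ≠ 1 ∧ finrank F (K1 T r) = 2 * e * y := by
  classical
  obtain ⟨S, hS, hprod, hcard⟩ := exists_factors hq hr hrF hrq
  rw [hi] at hS hcard
  have hSpos : 0 < S.card := by
    rcases Nat.eq_zero_or_pos S.card with h0 | h0
    · rw [h0, zero_mul] at hcard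
      have := hr.two_le
      omega
    · exact h0
  obtain ⟨g₀, hg₀⟩ := Finset.card_pos.mp hSpos
  obtain ⟨V', _, _, _, Q', T', hMz, hf, hD, hDh, hNS, hty⟩ := qmodel_even hq hr hr2 hrF hrq hi he (d - e * y)
    (HyQ Q ↔ Even y) (fun h0 => hval (by omega)) (List.replicate y g₀) (fun g hg => by
      rw [List.eq_of_mem_replicate hg]
      exact hS g₀ hg₀)
  rw [List.length_replicate] at hf hty
  have hb2 : 2 * e * y = 2 * (e * y) := by ring
  have hf' : finrank F V' = 2 * d := by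
    rw [hf, hb2]
    omega
  obtain ⟨T, g, hT, hTa, hgQ, hT1⟩ := model_transport hN hMz hf' hV (by
    rw [hty]
    tauto)
  refine ⟨T, hT, hT1 (hNS (by
    intro h0
    have := congrArg List.length h0
    simp at this
    omega)), ?_⟩
  have h0 : finrank F (K0 T) = finrank F (K0 T') := K0_transport g hTa
  have hD' : finrank F (K0 T') = 2 * (d - e * y) := hD
  have hsum := finrank_K hT.oz hrF
  rw [hb2]
  omega

/-- Elements of prescribed shape, odd order. -/
theorem exists_T_odd (hN : (polarBilin Q).Nondegenerate) (hq : Fintype.card F = q) (hr : r.Prime) (hr2 : r ≠ 2)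
    (hrF : (r : F) ≠ 0) (hrq : ¬ r ∣ q) (hi : Odd (orderOf (q : ZMod r))) {d y : ℕ}
    (hV : finrank F V = 2 * d) (hy : 0 < y) (hle : orderOf (q : ZMod r) * y ≤ d)
    (hval : orderOf (q : ZMod r) * y = d → HyQ Q) :
    ∃ T : End F V, Mz Q T r ∧ T ≠ 1 ∧ finrank F (K1 T r) = 2 * orderOf (q : ZMod r) * y := by
  classical
  obtain ⟨S, hS, hprod, hcard⟩ := exists_factors hq hr hrF hrq
  have hSpos : 0 < S.card := by
    rcases Nat.eq_zero_or_pos S.card with h0 | h0
    · rw [h0, zero_mul] at hcard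
      have := hr.two_le
      omega
    · exact h0
  obtain ⟨g₀, hg₀⟩ := Finset.card_pos.mp hSpos
  obtain ⟨hirr, -, hgr, hg1, hgd⟩ := hS g₀ hg₀
  obtain ⟨V', _, _, _, Q', T', hMz, hf, hD, hNS, hty⟩ := qmodel_odd hq hirr hgr hg1 (hr.odd_of_ne_two hr2)
    (d - orderOf (q : ZMod r) * y) (HyQ Q) (fun h0 => hval (by omega)) y
  rw [hgd] at hf
  have hb2 : 2 * orderOf (q : ZMod r) * y = 2 * (orderOf (q : ZMod r) * y) := by ring
  have hf' : finrank F V' = 2 * d := by
    rw [hf, hb2]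
    omega
  obtain ⟨T, g, hT, hTa, hgQ, hT1⟩ := model_transport hN hMz hf' hV hty
  refine ⟨T, hT, hT1 (hNS hy), ?_⟩
  have h0 : finrank F (K0 T) = finrank F (K0 T') := K0_transport g hTa
  have hD' : finrank F (K0 T') = 2 * (d - orderOf (q : ZMod r) * y) := hD
  have hsum := finrank_K hT.oz hrF
  rw [hb2]
  omega

/-- The main equivalence, even order. -/
theorem main_even_nd (hN : (polarBilin Q).Nondegenerate) (hq : Fintype.card F = q) (hr : r.Prime) (hr2 : r ≠ 2)
    (hrF : (r : F) ≠ 0) (hrq : ¬ r ∣ q) {e : ℕ} (hi : orderOf (q : ZMod r) = 2 * e) (he : 0 < e) {d κ : ℕ}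
    (hV : finrank F V = 2 * d) (hκ : 0 < κ) (hκd : κ < d) {τ : Prop} :
    (∀ T : End F V, Mz Q T r → T ≠ 1 → ∃ W : Submodule F V, PQ Q (2 * κ) τ W ∧ Inv T W) ↔
      NArith.RHSg Even (HyQ Q) τ e κ d := by
  rw [← NArith.adm_iff NArith.even_succ he hκ hκd]
  constructor
  · intro H y hy hle hval
    obtain ⟨T, hT, hT1, hKd⟩ := exists_T_even hN hq hr hr2 hrF hrq hi he hV hy hle hval
    obtain ⟨W, hW, hWi⟩ := H T hT hT1
    exact pq_to_adm (kdat_even hT hq hr hr2 hrF hrq hi he) hT hq hrF he hV hKd hW hWi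
  · intro H T hT hT1
    have hK := kdat_even hT hq hr hr2 hrF hrq hi he
    obtain ⟨y, hy, hle, hval, hKd⟩ := valid_of hK hT hq hrF hV hT1
    exact adm_to_pq hK hT hq hrF he hV hKd (H y hy hle hval)

/-- The main equivalence, odd order. -/
theorem main_odd_nd (hN : (polarBilin Q).Nondegenerate) (hq : Fintype.card F = q) (hr : r.Prime) (hr2 : r ≠ 2)
    (hrF : (r : F) ≠ 0) (hrq : ¬ r ∣ q) (hi : Odd (orderOf (q : ZMod r))) {d κ : ℕ}
    (hV : finrank F V = 2 * d) (hκ : 0 < κ) (hκd : κ < d) {τ : Prop} :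
    (∀ T : End F V, Mz Q T r → T ≠ 1 → ∃ W : Submodule F V, PQ Q (2 * κ) τ W ∧ Inv T W) ↔
      NArith.RHSg (fun _ => True) (HyQ Q) τ (orderOf (q : ZMod r)) κ d := by
  rw [← NArith.adm_iff NArith.true_succ hi.pos hκ hκd]
  constructor
  · intro H y hy hle hval
    obtain ⟨T, hT, hT1, hKd⟩ := exists_T_odd hN hq hr hr2 hrF hrq hi hV hy hle (fun h => (hval h).mpr trivial)
    obtain ⟨W, hW, hWi⟩ := H T hT hT1
    exact pq_to_adm (kdat_odd hT hq hr hr2 hrF hrq hi) hT hq hrF hi.pos hV hKd hW hWi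
  · intro H T hT hT1
    have hK := kdat_odd hT hq hr hr2 hrF hrq hi
    obtain ⟨y, hy, hle, hval, hKd⟩ := valid_of hK hT hq hrF hV hT1
    exact adm_to_pq hK hT hq hrF hi.pos hV hKd (H y hy hle hval)

end Cfsg.Agent.Lib.ElusT.NOdd
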