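import Cfsg.Agent.Lib.ElusT.NArith

/-!
# The arithmetic conditions in the form of the statements
-/

set_option autoImplicit false
set_option linter.unusedVariables false

namespace Cfsg.Agent.Lib.ElusT.NStmt

open Cfsg.Agent.Lib.ElusT.NArith

theorem sum_div {e d κ : ℕ} (he : 0 < e) (h : κ % e = d % e) :
    (2 * d + 2 * κ - 2 * (2 * (d % e))) / (2 * e) = d / e + κ / e := by
  have h1 := Nat.div_add_mod d e
  have h2 := Nat.div_add_mod κ e
  rw [h] at h2
  have h3 : 2 * d + 2 * κ - 2 * (2 * (d % e)) = 2 * e * (d / e + κ / e) := by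
    apply Nat.sub_eq_of_eq_add
    have h4 : 2 * e * (d / e + κ / e) + 2 * (2 * (d % e)) = 2 * (e * (d / e) + d % e) + 2 * (e * (κ / e) + d % e) := by
      ring
    rw [h4, h1, h2]
  rw [h3, Nat.mul_div_cancel_left _ (by omega)]

theorem logic5990 {ε a b : Prop} (hε : ¬ ε) : (False ↔ ((ε ↔ a) ↔ b)) ↔ (a ↔ b) := by
  tauto

theorem even_add_iff {n k : ℕ} : Even (n + k) ↔ (Even n ↔ Even k) := Nat.even_add

theorem odd_add_iff {n k : ℕ} : Odd (n + k) ↔ ¬ (Even n ↔ Even k) := by
  rw [← Nat.not_even_iff_odd, Nat.even_add]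

/-- The hyperbolic case in plus type, even order. -/
theorem rhs5974_even {e d κ : ℕ} {ε : Prop} (hε : ε) (he : 0 < e)
    (hle : 0 < d % e → κ % e ≤ d % e → (κ % e = d % e → (True ↔ ((ε ↔ Even (d / e)) ↔ Even (κ / e)))) → e ≤ κ) :
    RHSg Even ε True e κ d ↔
      (((2 * d) % (2 * e) = 0 ∧ (Odd ((2 * d) / (2 * e)) ∨ ((2 * κ) % (2 * e) = 0 ∧ Even ((2 * κ) / (2 * e))))) ∨
        (2 * e ≤ 2 * κ ∧ (((2 * κ) % (2 * e) < (2 * d) % (2 * e) ∧ 0 < (2 * κ) % (2 * e)) ∨
                  ((2 * d) % (2 * e) = (2 * κ) % (2 * e) ∧ 0 < (2 * κ) % (2 * e) ∧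
                    Even ((2 * d + 2 * κ - 2 * ((2 * d) % (2 * e))) / (2 * e))) ∨
                  (0 < (2 * d) % (2 * e) ∧ (2 * κ) % (2 * e) = 0 ∧ Even ((2 * κ) / (2 * e)))))) := by
  unfold RHSg
  simp only [Nat.mul_mod_mul_left, Nat.mul_div_mul_left _ _ (Nat.two_pos)]
  constructor
  · rintro (⟨h0, h1⟩ | ⟨h0, h1, h2, h3⟩)
    · left
      refine ⟨by omega, ?_⟩
      by_cases hev : Even (d / e)
      · right
        obtain ⟨h4, h5⟩ := h1 (iff_of_true hε hev)
        exact ⟨by omega, h5.mp trivial⟩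
      · left
        exact Nat.not_even_iff_odd.mp hev
    · right
      have hele := hle h0 h1 h3
      refine ⟨by omega, ?_⟩
      rcases Nat.eq_zero_or_pos (κ % e) with hg | hg
      · right; right
        exact ⟨by omega, by omega, (h2 hg).mp trivial⟩
      · rcases Nat.lt_or_ge (κ % e) (d % e) with hlt | hge
        · left
          exact ⟨by omega, by omega⟩
        · right; left
          have hgb : κ % e = d % e := by omega
          refine ⟨by omega, by omega, ?_⟩
          rw [sum_div he hgb, even_add_iff]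
          have h4 := (h3 hgb).mp trivial
          simpa [hε] using h4
  · rintro (⟨h0, h1⟩ | ⟨h0, h1⟩)
    · left
      refine ⟨by omega, fun hv => ?_⟩
      rcases h1 with h1 | ⟨h1, h3⟩
      · exact absurd (hv.mp hε) (Nat.not_even_iff_odd.mpr h1)
      · exact ⟨by omega, iff_of_true trivial h3⟩
    · right
      rcases h1 with ⟨h1, h3⟩ | ⟨h1, h3, h4⟩ | ⟨h1, h3, h4⟩
      · exact ⟨by omega, by omega, fun h => by omega, fun h => by omega⟩
      · have hgb : κ % e = d % e := by omega
        rw [sum_div he hgb, even_add_iff] at h4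
        refine ⟨by omega, by omega, fun h => by omega, fun _ => ?_⟩
        simpa [hε] using h4
      · exact ⟨by omega, by omega, fun _ => iff_of_true trivial h4, fun h => by omega⟩

/-- The hyperbolic case in plus type, odd order. -/
theorem rhs5974_odd {i d κ : ℕ} {ε : Prop} (hε : ε) (hi : 0 < i) (hκ : 0 < κ)
    (hle : 0 < d % i → κ % i ≤ d % i → (κ % i = d % i → (True ↔ ε)) → i ≤ κ) :
    RHSg (fun _ => True) ε True i κ d ↔ (2 * i ≤ 2 * κ ∧ (2 * κ) % (2 * i) ≤ (2 * d) % (2 * i)) := by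
  unfold RHSg
  simp only [Nat.mul_mod_mul_left]
  constructor
  · rintro (⟨h0, h1⟩ | ⟨h0, h1, h2, h3⟩)
    · obtain ⟨h4, -⟩ := h1 (iff_of_true hε trivial)
      have : i ≤ κ := Nat.le_of_dvd hκ (Nat.dvd_of_mod_eq_zero h4)
      exact ⟨by omega, by omega⟩
    · have := hle h0 h1 (fun _ => iff_of_true trivial hε)
      exact ⟨by omega, by omega⟩
  · rintro ⟨h0, h1⟩
    rcases Nat.eq_zero_or_pos (d % i) with hb | hb
    · left
      exact ⟨hb, fun _ => ⟨by omega, trivial⟩⟩
    · right
      refine ⟨hb, by omega, fun _ => trivial, fun _ => iff_of_true trivial ?_⟩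
      simp [hε]

/-- The elliptic case in plus type, even order. -/
theorem rhs5988_even {e d κ : ℕ} {ε : Prop} (hε : ε) (he : 0 < e)
    (hle : 0 < d % e → κ % e ≤ d % e → (κ % e = d % e → (False ↔ ((ε ↔ Even (d / e)) ↔ Even (κ / e)))) → e ≤ κ) :
    RHSg Even ε False e κ d ↔
      (((2 * d) % (2 * e) = 0 ∧ (Odd ((2 * d) / (2 * e)) ∨ ((2 * κ) % (2 * e) = 0 ∧ Odd ((2 * κ) / (2 * e))))) ∨
        (2 * e ≤ 2 * κ ∧ ((0 < (2 * κ) % (2 * e) ∧ (2 * κ) % (2 * e) < (2 * d) % (2 * e)) ∨
                  (0 < (2 * κ) % (2 * e) ∧ (2 * κ) % (2 * e) = (2 * d) % (2 * e) ∧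
                    Odd ((2 * d + 2 * κ - 2 * ((2 * d) % (2 * e))) / (2 * e))) ∨
                  ((2 * κ) % (2 * e) = 0 ∧ 0 < (2 * d) % (2 * e) ∧ Odd ((2 * κ) / (2 * e)))))) := by
  unfold RHSg
  simp only [Nat.mul_mod_mul_left, Nat.mul_div_mul_left _ _ (Nat.two_pos)]
  constructor
  · rintro (⟨h0, h1⟩ | ⟨h0, h1, h2, h3⟩)
    · left
      refine ⟨by omega, ?_⟩
      by_cases hev : Even (d / e)
      · right
        obtain ⟨h4, h5⟩ := h1 (iff_of_true hε hev)
        refine ⟨by omega, Nat.not_even_iff_odd.mp fun hc => h5.mpr hc⟩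
      · left
        exact Nat.not_even_iff_odd.mp hev
    · right
      have hele := hle h0 h1 h3
      refine ⟨by omega, ?_⟩
      rcases Nat.eq_zero_or_pos (κ % e) with hg | hg
      · right; right
        exact ⟨by omega, by omega, Nat.not_even_iff_odd.mp fun hc => (h2 hg).mpr hc⟩
      · rcases Nat.lt_or_ge (κ % e) (d % e) with hlt | hge
        · left
          exact ⟨by omega, by omega⟩
        · right; left
          have hgb : κ % e = d % e := by omega
          refine ⟨by omega, by omega, ?_⟩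
          rw [sum_div he hgb, odd_add_iff]
          have h4 := h3 hgb
          simpa [hε] using h4
  · rintro (⟨h0, h1⟩ | ⟨h0, h1⟩)
    · left
      refine ⟨by omega, fun hv => ?_⟩
      rcases h1 with h1 | ⟨h1, h3⟩
      · exact absurd (hv.mp hε) (Nat.not_even_iff_odd.mpr h1)
      · exact ⟨by omega, iff_of_false not_false (Nat.not_even_iff_odd.mpr h3)⟩
    · right
      rcases h1 with ⟨h1, h3⟩ | ⟨h1, h3, h4⟩ | ⟨h1, h3, h4⟩
      · exact ⟨by omega, by omega, fun h => by omega, fun h => by omega⟩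
      · have hgb : κ % e = d % e := by omega
        rw [sum_div he hgb, odd_add_iff] at h4
        refine ⟨by omega, by omega, fun h => by omega, fun _ => ?_⟩
        simpa [hε] using h4
      · exact ⟨by omega, by omega, fun _ => iff_of_false not_false (Nat.not_even_iff_odd.mpr h4), fun h => by omega⟩

/-- The elliptic case in plus type, odd order. -/
theorem rhs5988_odd {i d κ : ℕ} {ε : Prop} (hε : ε) (hi : 0 < i) (hκ : 0 < κ)
    (hle : 0 < d % i → κ % i ≤ d % i → (κ % i = d % i → (False ↔ ε)) → i ≤ κ) :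
    RHSg (fun _ => True) ε False i κ d ↔
      (2 * i ≤ 2 * κ ∧ 0 < (2 * κ) % (2 * i) ∧ (2 * κ) % (2 * i) < (2 * d) % (2 * i)) := by
  unfold RHSg
  simp only [Nat.mul_mod_mul_left]
  constructor
  · rintro (⟨h0, h1⟩ | ⟨h0, h1, h2, h3⟩)
    · obtain ⟨-, h4⟩ := h1 (iff_of_true hε trivial)
      exact absurd trivial (by simpa using h4)
    · have h4 : κ % i ≠ 0 := fun h => by simpa using h2 h
      have h5 : κ % i ≠ d % i := fun h => by simpa [hε] using h3 h
      have := hle h0 h1 (fun h => absurd h h5)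
      exact ⟨by omega, by omega, by omega⟩
  · rintro ⟨h0, h1, h2⟩
    right
    exact ⟨by omega, by omega, fun h => by omega, fun h => by omega⟩

/-- The elliptic case in minus type, even order. -/
theorem rhs5990_even {e d κ : ℕ} {ε : Prop} (hε : ¬ ε) (he : 0 < e)
    (hle : 0 < d % e → κ % e ≤ d % e → (κ % e = d % e → (False ↔ ((ε ↔ Even (d / e)) ↔ Even (κ / e)))) → e ≤ κ) :
    RHSg Even ε False e κ d ↔
      (((2 * d) % (2 * e) = 0 ∧ (Even ((2 * d) / (2 * e)) ∨ ((2 * κ) % (2 * e) = 0 ∧ Odd ((2 * κ) / (2 * e))))) ∨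
        (0 < (2 * d) % (2 * e) ∧ 2 * e ≤ 2 * κ ∧ ((0 < (2 * κ) % (2 * e) ∧ (2 * κ) % (2 * e) < (2 * d) % (2 * e)) ∨
                  ((2 * κ) % (2 * e) = 0 ∧ Odd ((2 * κ) / (2 * e))) ∨
                  ((2 * κ) % (2 * e) = (2 * d) % (2 * e) ∧
                    Even ((2 * d + 2 * κ - 2 * ((2 * d) % (2 * e))) / (2 * e)))))) := by
  unfold RHSg
  simp only [Nat.mul_mod_mul_left, Nat.mul_div_mul_left _ _ (Nat.two_pos)]
  constructor
  · rintro (⟨h0, h1⟩ | ⟨h0, h1, h2, h3⟩)
    · left
      refine ⟨by omega, ?_⟩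
      by_cases hev : Even (d / e)
      · left
        exact hev
      · right
        obtain ⟨h4, h5⟩ := h1 (iff_of_false hε hev)
        refine ⟨by omega, Nat.not_even_iff_odd.mp fun hc => h5.mpr hc⟩
    · right
      have hele := hle h0 h1 h3
      refine ⟨by omega, by omega, ?_⟩
      rcases Nat.eq_zero_or_pos (κ % e) with hg | hg
      · right; left
        exact ⟨by omega, Nat.not_even_iff_odd.mp fun hc => (h2 hg).mpr hc⟩
      · rcases Nat.lt_or_ge (κ % e) (d % e) with hlt | hge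
        · left
          exact ⟨by omega, by omega⟩
        · right; right
          have hgb : κ % e = d % e := by omega
          refine ⟨by omega, ?_⟩
          rw [sum_div he hgb, even_add_iff]
          exact (logic5990 hε).mp (h3 hgb)
  · rintro (⟨h0, h1⟩ | ⟨h0, h2, h1⟩)
    · left
      refine ⟨by omega, fun hv => ?_⟩
      rcases h1 with h1 | ⟨h1, h3⟩
      · exact absurd (hv.mpr h1) hε
      · exact ⟨by omega, iff_of_false not_false (Nat.not_even_iff_odd.mpr h3)⟩
    · right
      rcases h1 with ⟨h1, h3⟩ | ⟨h1, h3⟩ | ⟨h1, h3⟩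
      · exact ⟨by omega, by omega, fun h => by omega, fun h => by omega⟩
      · exact ⟨by omega, by omega, fun _ => iff_of_false not_false (Nat.not_even_iff_odd.mpr h3), fun h => by omega⟩
      · have hgb : κ % e = d % e := by omega
        rw [sum_div he hgb, even_add_iff] at h3
        refine ⟨by omega, by omega, fun h => ?_, fun _ => ?_⟩
        · omega
        · exact (logic5990 hε).mpr h3

/-- The elliptic case in minus type, odd order. -/
theorem rhs5990_odd {i d κ : ℕ} {ε : Prop} (hε : ¬ ε) (hi : 0 < i) (hκ : 0 < κ)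
    (hle : 0 < d % i → κ % i ≤ d % i → (κ % i = d % i → (False ↔ ε)) → i ≤ κ) :
    RHSg (fun _ => True) ε False i κ d ↔
      ((2 * d) % (2 * i) = 0 ∨ (2 * i ≤ 2 * κ ∧ 0 < (2 * κ) % (2 * i) ∧ (2 * κ) % (2 * i) ≤ (2 * d) % (2 * i))) := by
  unfold RHSg
  simp only [Nat.mul_mod_mul_left]
  constructor
  · rintro (⟨h0, h1⟩ | ⟨h0, h1, h2, h3⟩)
    · left
      omega
    · right
      have h4 : κ % i ≠ 0 := fun h => by simpa using h2 h
      have := hle h0 h1 (fun h => by simpa [hε] using h3 h)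
      exact ⟨by omega, by omega, by omega⟩
  · rintro (h0 | ⟨h0, h1, h2⟩)
    · left
      exact ⟨by omega, fun hv => absurd (hv.mpr trivial) hε⟩
    · right
      refine ⟨by omega, by omega, fun h => by omega, fun _ => ?_⟩
      simp [hε]

end Cfsg.Agent.Lib.ElusT.NStmt
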