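import Cfsg.Agent.Lib.ElusT.NC2G
import Cfsg.Agent.Lib.ElusT.NOdd
import Cfsg.Agent.Lib.ElusT.NStmt

/-!
# Nondegenerate subspaces of even dimension: the final assembly
-/

set_option autoImplicit false
set_option linter.unusedSectionVars false
set_option linter.style.haveILetI false
set_option linter.unusedVariables false
set_option linter.unusedSimpArgs false

open Polynomial Module QuadraticMap Matrix

universe u v w

namespace Cfsg.Agent.Lib.ElusT.NFin

open Cfsg Cfsg.Agent.Lib.ElusL.Basic Cfsg.Agent.Lib.ElusL.Cyc Cfsg.Agent.Lib.ElusF.Form Cfsg.Agent.Lib.ElusF.Step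
  Cfsg.Agent.Lib.ElusQ.Oz Cfsg.Agent.Lib.ElusQ.Syl Cfsg.Agent.Lib.ElusQ.Disc Cfsg.Agent.Lib.ElusQ.Bridge
  Cfsg.Agent.Lib.ElusT.QType Cfsg.Agent.Lib.ElusT.QK1 Cfsg.Agent.Lib.ElusT.QFw Cfsg.Agent.Lib.ElusT.QMain
  Cfsg.Agent.Lib.ElusT.NBase Cfsg.Agent.Lib.ElusT.NCount Cfsg.Agent.Lib.ElusT.NArith Cfsg.Agent.Lib.ElusT.NOdd
  Cfsg.Agent.Lib.ElusT.NTwo Cfsg.Agent.Lib.ElusT.NAlt Cfsg.Agent.Lib.ElusT.NC2 Cfsg.Agent.Lib.ElusT.NC2G
  Cfsg.Agent.Lib.Elusive.OmegaMem Cfsg.Agent.Lib.Orth.Bridge Cfsg.Agent.Lib.Orth.Refl Cfsg.Agent.Lib.Orth.Words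

section arith

variable {q r : ℕ}

/-- The count forces `e ≤ κ`, even order. -/
theorem e_le_even {e d κ : ℕ} {ε τ : Prop} (hq1 : 1 ≤ q) (hr : r.Prime) (hr2 : r ≠ 2)
    (hi : orderOf (q : ZMod r) = 2 * e) (he : 0 < e) (hκ : 0 < κ) (hκd : κ < d)
    (hc : r ∣ cf q d ε ∨ r ∣ cf q (d - κ) (¬ (τ ↔ ε)) ∨ ∃ l, d - κ < l ∧ l < d ∧ r ∣ q ^ (2 * l) - 1)
    (hb : 0 < d % e) (hle : κ % e ≤ d % e)
    (hpar : κ % e = d % e → (τ ↔ ((ε ↔ Even (d / e)) ↔ Even (κ / e)))) : e ≤ κ := by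
  by_contra hlt
  have hlt' : κ < e := by omega
  have hm1 : κ % e = κ := Nat.mod_eq_of_lt hlt'
  have hm2 : κ / e = 0 := Nat.div_eq_of_lt hlt'
  rw [hm1] at hle hpar
  rw [hm2] at hpar
  have hdec := Nat.div_add_mod d e
  have hbl := Nat.mod_lt d he
  have hmul : ∀ z, d = e * z → False := by
    intro z hz
    have : d % e = 0 := by
      rw [hz, Nat.mul_mod_right]
    omega
  have hsub : ∀ z, d - κ = e * z → d / e = z ∧ d % e = κ := by
    intro z hz
    exact (Nat.div_mod_unique (a := d) (b := e) (c := κ) (d := z) he).mpr ⟨by omega, hlt'⟩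
  rcases hc with h | h | ⟨l, hl1, hl2, hl3⟩
  · by_cases hε : ε
    · rw [cf_true hε] at h
      obtain ⟨y, hy⟩ := cnt_minus_even hq1 hi h
      exact hmul (2 * y) (by rw [hy]; ring)
    · rw [cf_false hε] at h
      obtain ⟨y, hy⟩ := cnt_plus_even hr hr2 hi he h
      exact hmul _ hy
  · by_cases hσ : (τ ↔ ε)
    · rw [cf_false (not_not.mpr hσ)] at h
      obtain ⟨y, hy⟩ := cnt_plus_even hr hr2 hi he h
      obtain ⟨h3, h4⟩ := hsub _ hy
      have h5 := hpar h4.symm
      rw [h3] at h5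
      have h6 : ¬ Even (2 * y + 1) := by simp [Nat.even_add_one]
      simp only [Even.zero, iff_true, h6, iff_false] at h5
      tauto
    · rw [cf_true hσ] at h
      obtain ⟨y, hy⟩ := cnt_minus_even hq1 hi h
      obtain ⟨h3, h4⟩ := hsub (2 * y) (by rw [hy]; ring)
      have h5 := hpar h4.symm
      rw [h3] at h5
      have h6 : Even (2 * y) := even_two_mul y
      simp only [Even.zero, iff_true, h6] at h5
      exact hσ h5
  · obtain ⟨y, hy⟩ := cnt_minus_even hq1 hi hl3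
    have hl : l = e * y := by
      have : 2 * l = 2 * (e * y) := by rw [hy]; ring
      omega
    rcases Nat.lt_or_ge (d / e) y with hn | hn
    · have : e * (d / e + 1) ≤ e * y := Nat.mul_le_mul_left e hn
      rw [Nat.mul_add, Nat.mul_one] at this
      omega
    · have : e * y ≤ e * (d / e) := Nat.mul_le_mul_left e hn
      omega

/-- The count forces `i ≤ κ`, odd order. -/
theorem e_le_odd {d κ : ℕ} {ε τ : Prop} (hq1 : 1 ≤ q) (hr : r.Prime) (hr2 : r ≠ 2)
    (hi : Odd (orderOf (q : ZMod r))) (hκ : 0 < κ) (hκd : κ < d)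
    (hc : r ∣ cf q d ε ∨ r ∣ cf q (d - κ) (¬ (τ ↔ ε)) ∨ ∃ l, d - κ < l ∧ l < d ∧ r ∣ q ^ (2 * l) - 1)
    (hb : 0 < d % orderOf (q : ZMod r)) (hle : κ % orderOf (q : ZMod r) ≤ d % orderOf (q : ZMod r))
    (hpar : κ % orderOf (q : ZMod r) = d % orderOf (q : ZMod r) → (τ ↔ ε)) : orderOf (q : ZMod r) ≤ κ := by
  by_contra hlt
  set e := orderOf (q : ZMod r) with he'
  have he : 0 < e := hi.pos
  have hlt' : κ < e := by omega
  have hm1 : κ % e = κ := Nat.mod_eq_of_lt hlt'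
  rw [hm1] at hle hpar
  have hdec := Nat.div_add_mod d e
  have hbl := Nat.mod_lt d he
  have hsub : ∀ z, d - κ = e * z → d / e = z ∧ d % e = κ := by
    intro z hz
    exact (Nat.div_mod_unique (a := d) (b := e) (c := κ) (d := z) he).mpr ⟨by omega, hlt'⟩
  rcases hc with h | h | ⟨l, hl1, hl2, hl3⟩
  · by_cases hε : ε
    · rw [cf_true hε] at h
      obtain ⟨y, hy⟩ := (ord_dvd_iff (r := r) hq1 _).mpr h
      have : d % e = 0 := by
        rw [hy, Nat.mul_mod_right]
      omega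
    · rw [cf_false hε] at h
      exact cnt_plus_odd hr hr2 hi h
  · by_cases hσ : (τ ↔ ε)
    · rw [cf_false (not_not.mpr hσ)] at h
      exact cnt_plus_odd hr hr2 hi h
    · rw [cf_true hσ] at h
      obtain ⟨y, hy⟩ := (ord_dvd_iff (r := r) hq1 _).mpr h
      obtain ⟨h3, h4⟩ := hsub y hy
      exact hσ (hpar h4.symm)
  · have h1 := (ord_dvd_iff (r := r) hq1 _).mpr hl3
    have hcop : Nat.Coprime e 2 := hi.coprime_two_right
    obtain ⟨y, hy⟩ := hcop.dvd_of_dvd_mul_left h1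
    rcases Nat.lt_or_ge (d / e) y with hn | hn
    · have : e * (d / e + 1) ≤ e * y := Nat.mul_le_mul_left e hn
      rw [Nat.mul_add, Nat.mul_one] at this
      omega
    · have : e * y ≤ e * (d / e) := Nat.mul_le_mul_left e hn
      omega

end arith

section gl

variable {F : Type u} [Field F] [Fintype F] {q r : ℕ} {ι : Type} [Fintype ι] [DecidableEq ι]
  {Q : QuadraticForm F (ι → F)}

/-- The elusive property in terms of endomorphisms, for odd primes. -/
theorem elusP_iff_mz (hN : (polarBilin Q).Nondegenerate) (hpos : 0 < Fintype.card ι)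
    (hc : Fintype.card F ≠ 2 ∨ Fintype.card ι ≠ 4) (hr : r.Prime) (hrO : Odd r) {P : Submodule F (ι → F) → Prop} :
    ElusP Q r P ↔ ∀ T : End F (ι → F), Mz Q T r → T ≠ 1 →
      ∃ W : Submodule F (ι → F), P W ∧ Inv T W := by
  constructor
  · intro H T hT hT1
    have hXr : (LinearMap.toMatrix' T) ^ r = 1 := by
      rw [toMatrix_pow, hT.oz.pow]
      exact LinearMap.toMatrix'_one
    let x : GL ι F := glOfPow (LinearMap.toMatrix' T) r hr.pos hXr
    have hxT : Matrix.toLin' (x : Matrix ι ι F) = T := Matrix.toLin'_toMatrix' T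
    have hxr : x ^ r = 1 := glOfPow_pow _ _ _ _
    have hxi : x ∈ isometryGroup F ⇑Q := by
      rw [mem_isometryGroup_iff]
      intro v
      rw [← Matrix.toLin'_apply, hxT]
      exact hT.iso v
    have hns : ∀ z : F, (x : Matrix ι ι F) ≠ z • (1 : Matrix ι ι F) := by
      intro z hz
      have hTz : ∀ w, T w = z • w := by
        intro w
        rw [← hxT, hz, Matrix.toLin'_apply, Matrix.smul_mulVec, Matrix.one_mulVec]
      have hzz := scalar_sq hN hpos (z := z) (fun v => by rw [← hTz, hT.iso])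
      have hTp : ∀ (k : ℕ) (w : ι → F), (T ^ k) w = z ^ k • w := by
        intro k
        induction k with
        | zero => intro w; simp
        | succ k ih =>
          intro w
          rw [pow_succ, Module.End.mul_apply, hTz, map_smul, ih, smul_smul, pow_succ]
          ring_nf
      have hzr : z ^ r = 1 := by
        have hone : (1 : ι → F) ≠ 0 := by
          haveI : Nonempty ι := Fintype.card_pos_iff.mp hpos
          exact one_ne_zero
        have h1 := hTp r 1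
        rw [hT.oz.pow] at h1
        have h3 : (z ^ r - 1) • (1 : ι → F) = 0 := by
          rw [sub_smul, ← h1]
          simp
        have h4 := (smul_eq_zero.mp h3).resolve_right hone
        exact sub_eq_zero.mp h4
      have hz1 : z = 1 := by
        obtain ⟨k, hk⟩ := hrO
        rw [hk, pow_succ, pow_mul, pow_two, hzz, one_pow, one_mul] at hzr
        exact hzr
      apply hT1
      apply LinearMap.ext
      intro w
      rw [hTz, hz1, one_smul]
      rfl
    obtain ⟨W, h1, h3⟩ := H x (mem_omega_of_odd Q hN hc x hxi hrO hxr) ⟨1, by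
      rw [hxr]
      simp⟩ hns
    rw [hxT] at h3
    exact ⟨W, h1, h3⟩
  · intro H x hx ⟨z, hz⟩ hns
    obtain ⟨hxi, -⟩ := (mem_omegaGL_iff _ x).mp hx
    set T₀ : End F (ι → F) := Matrix.toLin' (x : Matrix ι ι F) with hT₀
    have hQ₀ : ∀ v, Q (T₀ v) = Q v := fun v => by
      rw [hT₀, Matrix.toLin'_apply]
      exact (mem_isometryGroup_iff _ _).mp hxi v
    have hp₀ : ∀ (k : ℕ) (v : ι → F), Q ((T₀ ^ k) v) = Q v := by
      intro k
      induction k with
      | zero => intro v; rfl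
      | succ k ih =>
        intro v
        rw [pow_succ', Module.End.mul_apply, hQ₀, ih]
    have hT₀r : T₀ ^ r = z • 1 := by
      rw [hT₀, Cfsg.Agent.Lib.ElusQ.Bridge.toLin_pow, ← Units.val_pow_eq_pow_val, hz, map_smul, Matrix.toLin'_one]
      rfl
    have hzz : z * z = 1 := scalar_sq hN hpos (z := z) (fun v => by
      have h1 := hp₀ r v
      rw [hT₀r] at h1
      exact h1)
    have hz0 : z ≠ 0 := by
      rintro rfl
      simp at hzz
    let T : End F (ι → F) := z • T₀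
    have hTa : ∀ v, T v = z • T₀ v := fun v => rfl
    have hQT : ∀ v, Q (T v) = Q v := by
      intro v
      rw [hTa, QuadraticMap.map_smul, hQ₀, smul_eq_mul, hzz, one_mul]
    have hTr : T ^ r = 1 := by
      have h1 : T ^ r = z ^ r • T₀ ^ r := smul_pow z T₀ r
      rw [h1, hT₀r, smul_smul]
      obtain ⟨k, hk⟩ := hrO
      have h3 : z ^ r * z = (z * z) ^ (k + 1) := by
        rw [hk, ← pow_two, ← pow_mul, ← pow_succ]
        congr 1
      rw [h3, hzz, one_pow, one_smul]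
    have hpolar : ∀ u v, polarBilin Q (T u) (T v) = polarBilin Q u v := fun u v => by
      change polar (⇑Q) (T u) (T v) = polar (⇑Q) u v
      unfold polar
      rw [← map_add, hQT, hQT, hQT]
    have hM : Mz Q T r := ⟨⟨polar_symm Q, hN, hpolar, hTr⟩, hQT⟩
    have hT1 : T ≠ 1 := by
      intro h
      apply hns z
      apply Matrix.toLin'.injective
      apply LinearMap.ext
      intro v
      have h3 : z • T₀ v = v := by
        rw [← hTa, h, Module.End.one_apply]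
      have h4 : T₀ v = z • v := by
        nth_rewrite 2 [← h3]
        rw [smul_smul, hzz, one_smul]
      change T₀ v = _
      rw [h4, Matrix.toLin'_apply, Matrix.smul_mulVec, Matrix.one_mulVec]
    obtain ⟨W, h1, h3⟩ := H T hM hT1
    refine ⟨W, h1, ?_⟩
    intro v hv
    have h5 := W.smul_mem z (h3 v hv)
    rw [hTa, smul_smul, hzz, one_smul] at h5
    exact h5

/-- The main equivalence for odd `r`, even order. -/
theorem elusP_even (hN : (polarBilin Q).Nondegenerate) (hq : Fintype.card F = q) {d κ e : ℕ}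
    (hcard : Fintype.card ι = 2 * d) (hd : 3 ≤ d) (hr : r.Prime) (hr2 : r ≠ 2) (hrF : (r : F) ≠ 0) (hrq : ¬ r ∣ q)
    (hi : orderOf (q : ZMod r) = 2 * e) (he : 0 < e) (hκ : 0 < κ) (hκd : κ < d) {τ : Prop} :
    ElusP Q r (PQ Q (2 * κ) τ) ↔ RHSg Even (HyQ Q) τ e κ d := by
  have hdim : finrank F (ι → F) = 2 * d := by rw [Cfsg.Agent.Lib.ElusQ.SqNegMain.finrank_ι, hcard]
  rw [elusP_iff_mz hN (by omega) (Or.inr (by omega)) hr (hr.odd_of_ne_two hr2)]
  exact main_even_nd hN hq hr hr2 hrF hrq hi he hdim hκ hκd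

/-- The main equivalence for odd `r`, odd order. -/
theorem elusP_odd (hN : (polarBilin Q).Nondegenerate) (hq : Fintype.card F = q) {d κ : ℕ}
    (hcard : Fintype.card ι = 2 * d) (hd : 3 ≤ d) (hr : r.Prime) (hr2 : r ≠ 2) (hrF : (r : F) ≠ 0) (hrq : ¬ r ∣ q)
    (hi : Odd (orderOf (q : ZMod r))) (hκ : 0 < κ) (hκd : κ < d) {τ : Prop} :
    ElusP Q r (PQ Q (2 * κ) τ) ↔ RHSg (fun _ => True) (HyQ Q) τ (orderOf (q : ZMod r)) κ d := by
  have hdim : finrank F (ι → F) = 2 * d := by rw [Cfsg.Agent.Lib.ElusQ.SqNegMain.finrank_ι, hcard]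
  rw [elusP_iff_mz hN (by omega) (Or.inr (by omega)) hr (hr.odd_of_ne_two hr2)]
  exact main_odd_nd hN hq hr hr2 hrF hrq hi hdim hκ hκd

/-- The count for the elusive property. -/
theorem count_of (hN : (polarBilin Q).Nondegenerate) (hq : Fintype.card F = q) {d κ : ℕ}
    (hcard : Fintype.card ι = 2 * d) (hκ : 0 < κ) (hκd : κ < d) {τ : Prop} (hr : r.Prime) (hr2 : r ≠ 2) (hrq : ¬ r ∣ q)
    (h : r ∣ Nat.card {W // PQ Q (2 * κ) τ W}) :
    r ∣ cf q d (HyQ Q) ∨ r ∣ cf q (d - κ) (¬ (τ ↔ HyQ Q)) ∨ ∃ l, d - κ < l ∧ l < d ∧ r ∣ q ^ (2 * l) - 1 := by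
  have hdim : finrank F (ι → F) = 2 * d := by rw [Cfsg.Agent.Lib.ElusQ.SqNegMain.finrank_ι, hcard]
  exact nd_dvd hq hN hdim hκ hκd hr hr2 hrq h

theorem hyp_family_iff (Q : QuadraticForm F (ι → F)) (W : Submodule F (ι → F)) (m : ℕ) :
    (finrank F W = m ∧ (∀ u ∈ W, u ≠ 0 → ∃ v ∈ W, polar (⇑Q) u v ≠ 0) ∧
      ∃ U : Submodule F (ι → F), U ≤ W ∧ 2 * finrank F U = m ∧ ∀ u ∈ U, Q u = 0) ↔ PQ Q m True W := by
  constructor
  · rintro ⟨h1, h3, U, h4, h5, h6⟩
    refine ⟨h1, ?_, iff_of_true ⟨U, h4, h6, by omega⟩ trivial⟩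
    intro u hu hh
    by_contra hne
    obtain ⟨v, hv, hv0⟩ := h3 u hu hne
    exact hv0 (hh v hv)
  · rintro ⟨h1, h3, h4⟩
    obtain ⟨U, h5, h6, h7⟩ := h4.mpr trivial
    refine ⟨h1, ?_, U, h5, by omega, h6⟩
    intro u hu hne
    by_contra hcon
    push Not at hcon
    exact hne (h3 u hu hcon)

theorem ell_family_iff (Q : QuadraticForm F (ι → F)) (W : Submodule F (ι → F)) (m : ℕ) :
    (finrank F W = m ∧ Cfsg.Geo.IsNondegenerateOn (polar (⇑Q)) W ∧ ¬ Cfsg.Geo.IsPlusTypeOn (⇑Q) W) ↔ PQ Q m False W := by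
  have h1 : Cfsg.Geo.IsPlusTypeOn (⇑Q) W ↔ HyS Q W := Iff.rfl
  rw [h1, isNondeg_iff]
  unfold PQ
  simp only [iff_false]

theorem p_eq_two {p : ℕ} [hp : Fact p.Prime] [CharP F p] (h2 : (2 : F) = 0) : p = 2 := by
  have h3 : ((2 : ℕ) : F) = 0 := by exact_mod_cast h2
  have h4 : p ∣ 2 := (CharP.cast_eq_zero_iff F p 2).mp h3
  exact (Nat.prime_dvd_prime_iff_eq hp.out Nat.prime_two).mp h4

theorem two_dvd_q {p : ℕ} [hp : Fact p.Prime] [CharP F p] (h2 : (2 : F) = 0) (hq : Fintype.card F = q) : 2 ∣ q := by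
  have hp2 := p_eq_two (p := p) h2
  subst hp2
  obtain ⟨n, -, hn⟩ := FiniteField.card F 2
  rw [hq] at hn
  rw [hn]
  exact dvd_pow_self 2 n.ne_zero

end gl

end Cfsg.Agent.Lib.ElusT.NFin
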