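import Cfsg.Agent.Lib.ElusT.NOdd

/-!
# Projective involutions and nondegenerate subspaces, odd characteristic
-/

set_option autoImplicit false
set_option linter.unusedSectionVars false
set_option linter.style.haveILetI false
set_option linter.unusedVariables false
set_option linter.unusedSimpArgs false

open Polynomial Module QuadraticMap Matrix

universe u v w

namespace Cfsg.Agent.Lib.ElusT.NTwo

open Cfsg Cfsg.Agent.Lib.ElusL.Basic Cfsg.Agent.Lib.ElusL.Cyc Cfsg.Agent.Lib.ElusL.Flag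
  Cfsg.Agent.Lib.ElusF.Form Cfsg.Agent.Lib.ElusF.Step Cfsg.Agent.Lib.ElusF.Split Cfsg.Agent.Lib.ElusF.SpNeg
  Cfsg.Agent.Lib.ElusF.SpModel Cfsg.Agent.Lib.ElusF.SpTwo
  Cfsg.Agent.Lib.ElusQ.Oz Cfsg.Agent.Lib.ElusQ.Pos Cfsg.Agent.Lib.ElusQ.Syl Cfsg.Agent.Lib.ElusQ.Disc
  Cfsg.Agent.Lib.ElusQ.SqNeg Cfsg.Agent.Lib.ElusQ.SqNegMain Cfsg.Agent.Lib.ElusQ.Bridge
  Cfsg.Agent.Lib.ElusT.QType Cfsg.Agent.Lib.ElusT.QK1 Cfsg.Agent.Lib.ElusT.QModel Cfsg.Agent.Lib.ElusT.Count
  Cfsg.Agent.Lib.ElusT.QTS Cfsg.Agent.Lib.ElusT.QFw Cfsg.Agent.Lib.ElusT.QBk Cfsg.Agent.Lib.ElusT.Two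
  Cfsg.Agent.Lib.ElusT.QTwo Cfsg.Agent.Lib.ElusT.QTwoM Cfsg.Agent.Lib.ElusT.NBase
  Cfsg.Agent.Lib.Orth.Refl Cfsg.Agent.Lib.Orth.Bridge Cfsg.Agent.Lib.Orth.Words Cfsg.Agent.Lib.Elusive.OmegaMem
  Cfsg.Agent.Lib.QuadDisc.Basic Cfsg.Agent.Lib.QuadDisc.Classify

section general

variable {F : Type u} [Field F] [Fintype F] {q : ℕ} {V : Type v} [AddCommGroup V] [Module F V]
  [FiniteDimensional F V] {Q : QuadraticForm F V} {T : End F V}

/-- A nondegenerate subspace contains a nonsingular vector. -/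
theorem exists_nonsing {U : Submodule F V} (hU : Nd (fun u v => polarBilin Q u v) U) (hpos : 0 < finrank F U) :
    ∃ v ∈ U, Q v ≠ 0 := by
  haveI := Module.nontrivial_of_finrank_pos (R := F) hpos
  obtain ⟨⟨u, hu⟩, hu0⟩ := exists_ne (0 : U)
  have hu0' : u ≠ 0 := fun h => hu0 (Subtype.ext h)
  obtain ⟨w, hw, hp⟩ : ∃ w ∈ U, polar (⇑Q) u w ≠ 0 := by
    by_contra hc
    push Not at hc
    exact hu0' (hU u hu hc)
  by_contra hcon
  push Not at hcon
  apply hp
  unfold polar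
  rw [hcon _ (U.add_mem hu hw), hcon _ hu, hcon _ hw]
  simp

/-- Invariant planes for an isometry with square `-1`. -/
theorem sq_plane (h2 : (2 : F) ≠ 0) (hT : ∀ u v, polarBilin Q (T u) (T v) = polarBilin Q u v)
    (hT2 : ∀ v, T (T v) = - v) {U : Submodule F V} (hU : Nd (fun u v => polarBilin Q u v) U) (hUi : Inv T U)
    (hpos : 0 < finrank F U) :
    ∃ C : Submodule F V, C ≤ U ∧ Nd (fun u v => polarBilin Q u v) C ∧ Inv T C ∧ finrank F C = 2 := by
  have hS := polar_symm Q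
  obtain ⟨v, hv, hQv⟩ := exists_nonsing hU hpos
  have hvTv : polarBilin Q v (T v) = 0 := by
    have h5 := hT v (T v)
    rw [hT2, map_neg, hS.eq (T v) v] at h5
    have h6 : (2 : F) * polarBilin Q v (T v) = 0 := by
      rw [two_mul]
      nth_rewrite 1 [← h5]
      ring
    exact (mul_eq_zero.mp h6).resolve_left h2
  have hTvv : polarBilin Q (T v) v = 0 := by
    rw [hS.eq]
    exact hvTv
  have hvv : polarBilin Q v v = 2 * Q v := polar_self' Q v
  have hTT : polarBilin Q (T v) (T v) = 2 * Q v := by rw [hT, hvv]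
  have hne : (2 : F) * Q v ≠ 0 := mul_ne_zero h2 hQv
  have hkey : ∀ a b : F, polarBilin Q (a • v + b • T v) v = 0 → polarBilin Q (a • v + b • T v) (T v) = 0 → a = 0 ∧ b = 0 := by
    intro a b h3 h4
    simp only [map_add, map_smul, LinearMap.add_apply, LinearMap.smul_apply, smul_eq_mul, hvv, hTvv, hvTv, hTT] at h3 h4
    constructor
    · have : a * (2 * Q v) = 0 := by linear_combination h3
      exact (mul_eq_zero.mp this).resolve_right hne
    · have : b * (2 * Q v) = 0 := by linear_combination h4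
      exact (mul_eq_zero.mp this).resolve_right hne
  have hind : LinearIndependent F ![v, T v] := by
    rw [LinearIndependent.pair_iff]
    intro a b hab
    apply hkey a b
    · rw [hab]
      simp
    · rw [hab]
      simp
  refine ⟨Submodule.span F {v, T v}, ?_, ?_, ?_, ?_⟩
  · rw [Submodule.span_le]
    rintro x (rfl | rfl)
    · exact hv
    · exact hUi _ hv
  · intro x hx hh
    obtain ⟨a, b, rfl⟩ := Submodule.mem_span_pair.mp hx
    obtain ⟨rfl, rfl⟩ := hkey a b (hh v (Submodule.subset_span (by simp))) (hh (T v) (Submodule.subset_span (by simp)))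
    simp
  · intro x hx
    obtain ⟨a, b, rfl⟩ := Submodule.mem_span_pair.mp hx
    rw [map_add, map_smul, map_smul, hT2]
    exact Submodule.add_mem _ (Submodule.smul_mem _ _ (Submodule.subset_span (by simp)))
      (Submodule.smul_mem _ _ (Submodule.neg_mem _ (Submodule.subset_span (by simp))))
  · have := finrank_span_eq_card hind
    simp only [Fintype.card_fin] at this
    have h3 : Set.range ![v, T v] = {v, T v} := by
      ext x
      simp only [Matrix.range_cons, Matrix.range_empty, Set.union_empty, Set.mem_union,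
        Set.mem_singleton_iff, Set.mem_insert_iff]
    rwa [h3] at this

/-- Invariant nondegenerate subspaces for an isometry with square `-1`. -/
theorem exists_nd_sqneg (h2 : (2 : F) ≠ 0) (hN : (polarBilin Q).Nondegenerate)
    (hT : ∀ u v, polarBilin Q (T u) (T v) = polarBilin Q u v) (hT2 : ∀ v, T (T v) = - v) {t : ℕ}
    (ht : 2 * t ≤ finrank F V) :
    ∃ W : Submodule F V, Nd (fun u v => polarBilin Q u v) W ∧ Inv T W ∧ finrank F W = 2 * t := by
  have hB := fm_of_symm (polar_symm Q) hN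
  have hinj : Function.Injective T := by
    intro a b hab
    have h1 : T (T a) = T (T b) := by rw [hab]
    rw [hT2, hT2] at h1
    exact neg_injective h1
  obtain ⟨W, -, h3, h4, h5⟩ := ndcap hB hT hinj (d := 2) (by norm_num) (U₀ := ⊤)
    (fun U _ hU hUi hpos => sq_plane h2 hT hT2 hU hUi hpos) t ⊤ le_rfl hB.nd_top (fun v _ => trivial) (by
      rw [finrank_top]
      exact ht)
  exact ⟨W, h3, h4, h5⟩

/-- The type of an invariant subspace, `-1` a square. -/
theorem sq_type_square (h2 : (2 : F) ≠ 0) (hT : ∀ u v, polarBilin Q (T u) (T v) = polarBilin Q u v)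
    (hT2 : ∀ v, T (T v) = - v) {c : F} (hc : c * c = -1) {W : Submodule F V}
    (hW : Nd (fun u v => polarBilin Q u v) W) (hWi : Inv T W) {t : ℕ} (hd : finrank F W = 2 * t) : HyS Q W := by
  rw [hyS_iff]
  exact (sqneg_sq (T := T.restrict hWi) h2 (nd_comp hW) hd (fun u v => hT _ _)
    (fun v => Subtype.ext (hT2 _)) hc).1

/-- The type of an invariant subspace, `-1` not a square. -/
theorem sq_type_nonsq (h2 : (2 : F) ≠ 0) (hT : ∀ u v, polarBilin Q (T u) (T v) = polarBilin Q u v)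
    (hT2 : ∀ v, T (T v) = - v) (hn : ¬ IsSquare (-1 : F)) {W : Submodule F V}
    (hW : Nd (fun u v => polarBilin Q u v) W) (hWi : Inv T W) {t : ℕ} (hd : finrank F W = 2 * t) :
    HyS Q W ↔ Even t := by
  rw [hyS_iff]
  exact hyQ_of_sqneg (T := T.restrict hWi) h2 (nd_comp hW) hd (fun u v => hT _ _) (fun v => Subtype.ext (hT2 _)) hn

/-- Subspaces of two orthogonal pieces. -/
theorem pair_sub (hq : Fintype.card F = q) (hN : (polarBilin Q).Nondegenerate) {A C : Submodule F V}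
    (hA : Nd (fun u v => polarBilin Q u v) A) (hC : Nd (fun u v => polarBilin Q u v) C)
    (horth : ∀ x ∈ A, ∀ y ∈ C, polarBilin Q x y = 0) {a b κ : ℕ} (ha : finrank F A = 2 * a)
    (hb : finrank F C = 2 * b) (h2a : 2 ≤ a) (hκ : 1 ≤ κ) (hκ' : κ + 1 ≤ a + b) (τ : Prop) :
    ∃ W₁ W₂ : Submodule F V, W₁ ≤ A ∧ W₂ ≤ C ∧ PQ Q (2 * κ) τ (W₁ ⊔ W₂) := by
  classical
  have hB := fm_of_symm (polar_symm Q) hN
  set t₀ := max 1 (κ - b) with ht₀
  have ht1 : 1 ≤ t₀ := le_max_left _ _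
  have ht2 : κ - b ≤ t₀ := le_max_right _ _
  have ht3 : t₀ ≤ κ := max_le hκ (by omega)
  have ht4 : t₀ + 1 ≤ a := by
    apply Nat.succ_le_of_lt
    apply max_lt <;> omega
  set t₁ := κ - t₀ with ht₁
  by_cases hbb : t₁ = b
  · obtain ⟨W₂, h1, h3, h4, h5⟩ := exists_sub_q hq hC (a := b) (t := t₁) (τ := HyS Q C) hb (by omega)
      (fun h => hyS_of_zero _ (by omega)) (fun _ => Iff.rfl)
    obtain ⟨W₁, h6, h7, h8, h9⟩ := exists_sub_q hq hA (a := a) (t := t₀) (τ := τ ↔ HyS Q C) ha (by omega)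
      (fun h => by omega) (fun h => by omega)
    have hor : ∀ x ∈ W₁, ∀ y ∈ W₂, polarBilin Q x y = 0 := fun x hx y hy => horth x (h6 hx) y (h1 hy)
    refine ⟨W₁, W₂, h6, h1, ?_, nd_sup hB h7 h3 (fun y hy x hx => hor x hx y hy), ?_⟩
    · rw [finrank_sup_of_disjoint (disjoint_of_orth h7 hor), h8, h4]
      omega
    · rw [hyS_sup hq h7 h3 (a := t₀) (b := t₁) hor h8 h4, h9, h5]
      exact Cfsg.Agent.Lib.ElusT.NOdd.logic_d
  · obtain ⟨W₂, h1, h3, h4, h5⟩ := exists_sub_q hq hC (a := b) (t := t₁) (τ := True) hb (by omega)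
      (fun _ => trivial) (fun h => absurd h hbb)
    obtain ⟨W₁, h6, h7, h8, h9⟩ := exists_sub_q hq hA (a := a) (t := t₀) (τ := τ) ha (by omega)
      (fun h => by omega) (fun h => by omega)
    have hor : ∀ x ∈ W₁, ∀ y ∈ W₂, polarBilin Q x y = 0 := fun x hx y hy => horth x (h6 hx) y (h1 hy)
    refine ⟨W₁, W₂, h6, h1, ?_, nd_sup hB h7 h3 (fun y hy x hx => hor x hx y hy), ?_⟩
    · rw [finrank_sup_of_disjoint (disjoint_of_orth h7 hor), h8, h4]
      omega
    · rw [hyS_sup hq h7 h3 (a := t₀) (b := t₁) hor h8 h4, h9, h5]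
      simp

/-- Involutions. -/
theorem exists_W_invol_q (h : Mz Q T 2) (h2 : (2 : F) ≠ 0) (hq : Fintype.card F = q) {d κ : ℕ} (hV : finrank F V = 2 * d)
    (hev : Even (finrank F (K1 T 2))) (hd : 3 ≤ d) (hκ : 1 ≤ κ) (hκd : κ < d) (τ : Prop) :
    ∃ W : Submodule F V, PQ Q (2 * κ) τ W ∧ Inv T W := by
  have hrF : ((2 : ℕ) : F) ≠ 0 := by exact_mod_cast h2
  have hsum := finrank_K h.oz hrF
  obtain ⟨b, hb⟩ := hev
  obtain ⟨a, ha⟩ : ∃ a, finrank F (K0 T) = 2 * a := ⟨d - b, by omega⟩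
  have hb' : finrank F (K1 T 2) = 2 * b := by omega
  have hi1 : ∀ W : Submodule F V, W ≤ K1 T 2 → Inv T W := by
    intro W hW v hv
    rw [K1_two (fun _ _ => trivial) (hW hv)]
    exact W.neg_mem hv
  have hN := h.oz.nondeg
  have hS := polar_symm Q
  rcases Nat.lt_or_ge a 2 with ha2 | ha2
  · obtain ⟨W₁, W₂, h1, h3, h4⟩ := pair_sub (a := b) (b := a) hq hN (nd_K1 h.oz hrF) (nd_K0 h.oz hrF)
      (fun x hx y hy => by
        rw [hS.eq]
        exact orth_K h.oz hrF y hy x hx) hb' ha (by omega) hκ (by omega) τ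
    exact ⟨_, h4, inv_sup (hi1 _ h1) (inv_of_le_K0 h3)⟩
  · obtain ⟨W₁, W₂, h1, h3, h4⟩ := pair_sub (a := a) (b := b) hq hN (nd_K0 h.oz hrF) (nd_K1 h.oz hrF)
      (orth_K h.oz hrF) ha hb' ha2 hκ (by omega) τ
    exact ⟨_, h4, inv_sup (inv_of_le_K0 h1) (hi1 _ h3)⟩

end general

section gl

variable {F : Type u} [Field F] [Fintype F] {q : ℕ} {ι : Type} [Fintype ι] [DecidableEq ι] {Q : QuadraticForm F (ι → F)}

/-- The elusive property for a family of subspaces. -/
def ElusP (Q : QuadraticForm F (ι → F)) (r : ℕ) (P : Submodule F (ι → F) → Prop) : Prop :=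
  ∀ x : GL ι F, x ∈ Cfsg.Geo.omegaGL ⇑Q →
    (∃ z : F, ((x ^ r : GL ι F) : Matrix ι ι F) = z • (1 : Matrix ι ι F)) →
    (∀ z : F, (x : Matrix ι ι F) ≠ z • (1 : Matrix ι ι F)) →
    ∃ W : Submodule F (ι → F), P W ∧ Inv (Matrix.toLin' (x : Matrix ι ι F)) W

theorem two_core (hN : (polarBilin Q).Nondegenerate) (h2 : (2 : F) ≠ 0) (hq : Fintype.card F = q) {d κ : ℕ}
    (hcard : Fintype.card ι = 2 * d) (hd : 3 ≤ d) (hκ : 1 ≤ κ) (hκd : κ < d) {τ : Prop}
    (hsq : ∀ x : GL ι F, x ∈ Cfsg.Geo.omegaGL ⇑Q →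
      (∀ v, Matrix.toLin' (x : Matrix ι ι F) (Matrix.toLin' (x : Matrix ι ι F) v) = - v) →
      ∃ W : Submodule F (ι → F), PQ Q (2 * κ) τ W ∧ Inv (Matrix.toLin' (x : Matrix ι ι F)) W) :
    ElusP Q 2 (PQ Q (2 * κ) τ) := by
  have hdim : finrank F (ι → F) = 2 * d := by rw [finrank_ι, hcard]
  intro x hx ⟨z, hz⟩ hns
  obtain ⟨hxi, -⟩ := (mem_omegaGL_iff _ x).mp hx
  rcases scalar_of_sq Q hN h2 (by omega) hxi hz with rfl | rfl
  · have hx2 : x ^ 2 = 1 := by
      apply Units.ext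
      rw [hz]
      simp
    obtain ⟨hM, hev, -⟩ := invol_facts hN h2 hx hx2
    exact exists_W_invol_q hM h2 hq hdim hev hd hκ hκd τ
  · exact hsq x hx (sq_of_scalar hz)

theorem dd_of_plus (hN : (polarBilin Q).Nondegenerate) (h2 : (2 : F) ≠ 0) {d : ℕ} (hdim : finrank F (ι → F) = 2 * d)
    (hy : HyQ Q) (h : Even d ∨ IsSquare (-1 : F)) : IsSquare (dd (polarBilin Q) ⊤) := by
  have hS := polar_symm Q
  have hB := fm_of_symm hS hN
  have h6 := (hy_iff h2 hS hB.nd_top (l := d) (by rw [finrank_top, hdim])).mp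
    ((hyS_iff_hy h2 ⊤).mp ((hyS_top Q).mpr hy))
  rcases h with hev | hs
  · rw [hev.neg_one_pow, one_mul] at h6
    exact h6
  · obtain ⟨c, hc⟩ := hs
    have hc0 : c ≠ 0 := by
      rintro rfl
      have h3 : (1 : F) = 0 := by linear_combination -hc
      exact one_ne_zero h3
    have hpow : IsSquare ((-1 : F) ^ d) := by
      rw [hc]
      exact (IsSquare.mul_self c).pow d
    obtain ⟨s, hs'⟩ := hpow
    rw [hs'] at h6
    have hs0 : s ≠ 0 := by
      rintro rfl
      have h3 : (-1 : F) ^ d = 0 := by simpa using hs'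
      exact (pow_ne_zero d (neg_ne_zero.mpr one_ne_zero)) h3
    exact (isSquare_mul_self_mul hs0 _).mp h6

theorem dd_of_minus (hN : (polarBilin Q).Nondegenerate) (h2 : (2 : F) ≠ 0) {d : ℕ} (hdim : finrank F (ι → F) = 2 * d)
    (hy : ¬ HyQ Q) (hod : Odd d) (hn : ¬ IsSquare (-1 : F)) : IsSquare (dd (polarBilin Q) ⊤) := by
  have hS := polar_symm Q
  have hB := fm_of_symm hS hN
  by_contra h5
  apply hy
  rw [← hyS_top, hyS_iff_hy h2, hy_iff h2 hS hB.nd_top (l := d) (by rw [finrank_top, hdim]), hod.neg_one_pow]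
  rw [mul_comm]
  exact (Cfsg.Agent.Lib.Orth.Gram.isSquare_mul_nonsquare_iff (dd_ne_zero hS hB.nd_top) hn).mpr h5

theorem not_sq_neg_one (hq : Fintype.card F = q) (h : q % 4 = 3) : ¬ IsSquare (-1 : F) := by
  rw [FiniteField.isSquare_neg_one_iff, hq]
  omega

/-- Hyperbolic subspaces, plus type. -/
theorem two_hyp_iff (hN : (polarBilin Q).Nondegenerate) (h2 : (2 : F) ≠ 0) (hq : Fintype.card F = q) {d κ : ℕ}
    (hcard : Fintype.card ι = 2 * d) (hd : 3 ≤ d) (hκ : 1 ≤ κ) (hκd : κ < d) (hy : HyQ Q) :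
    ElusP Q 2 (PQ Q (2 * κ) True) ↔ ((2 * d) % 4 = 2 ∨ (2 * κ) % 4 = 0 ∨ q % 4 = 1) := by
  have hdim : finrank F (ι → F) = 2 * d := by rw [finrank_ι, hcard]
  constructor
  · intro H
    by_contra hcon
    rw [not_or, not_or] at hcon
    obtain ⟨h3, h4, h5⟩ := hcon
    have h43 : q % 4 = 3 := (q_mod h2 hq).resolve_left h5
    have hn := not_sq_neg_one hq h43
    have hev : Even d := by
      rw [Nat.even_iff]
      omega
    obtain ⟨x, hx, hsc, hns, hsq⟩ := exists_gl_sqneg hN h2 hcard (dd_of_plus hN h2 hdim hy (Or.inl hev))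
      (hev.isSquare_pow _) (by omega)
    obtain ⟨W, hW, hWi⟩ := H x hx hsc hns
    obtain ⟨hxi, -⟩ := (mem_omegaGL_iff _ x).mp hx
    have := (sq_type_nonsq h2 (iso_of_mem Q hN hxi) hsq hn hW.2.1 hWi hW.1).mp (hW.2.2.mpr trivial)
    rw [Nat.even_iff] at this
    omega
  · intro hc
    apply two_core hN h2 hq hcard hd hκ hκd
    intro x hx hsq
    obtain ⟨hxi, -⟩ := (mem_omegaGL_iff _ x).mp hx
    have hT := iso_of_mem Q hN hxi
    obtain ⟨W, h1, h3, h4⟩ := exists_nd_sqneg (t := κ) h2 hN hT hsq (by omega)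
    refine ⟨W, ⟨h4, h1, iff_true_intro ?_⟩, h3⟩
    by_cases hs : IsSquare (-1 : F)
    · obtain ⟨c, hc'⟩ := hs
      exact sq_type_square h2 hT hsq hc'.symm h1 h3 h4
    · have hev := (hyQ_of_sqneg h2 hN hdim hT hsq hs).mp hy
      have hq3 : q % 4 ≠ 1 := by
        intro h5
        apply hs
        rw [FiniteField.isSquare_neg_one_iff, hq]
        omega
      rw [sq_type_nonsq h2 hT hsq hs h1 h3 h4, Nat.even_iff]
      rw [Nat.even_iff] at hev
      omega

/-- Elliptic subspaces, plus type. -/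
theorem two_ell_plus_iff (hN : (polarBilin Q).Nondegenerate) (h2 : (2 : F) ≠ 0) (hq : Fintype.card F = q) {d κ : ℕ}
    (hcard : Fintype.card ι = 2 * d) (hd : 3 ≤ d) (hκ : 1 ≤ κ) (hκd : κ < d) (hy : HyQ Q) :
    ElusP Q 2 (PQ Q (2 * κ) False) ↔ ((Even d ∧ q % 4 = 3 ∧ (2 * κ) % 4 = 2) ∨ (Odd d ∧ q % 8 ≠ 1)) := by
  have hdim : finrank F (ι → F) = 2 * d := by rw [finrank_ι, hcard]
  constructor
  · intro H
    by_contra hcon
    rw [not_or] at hcon
    obtain ⟨h3, h4⟩ := hcon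
    rcases q_mod h2 hq with h41 | h43
    · have hs : IsSquare (-1 : F) := by
        rw [FiniteField.isSquare_neg_one_iff, hq]
        omega
      have h2d : IsSquare ((2 : F) ^ d) := by
        rcases Nat.even_or_odd d with hev | hod
        · exact hev.isSquare_pow _
        · have h8 : q % 8 = 1 := by
            by_contra hne
            exact h4 ⟨hod, hne⟩
          have h2s : IsSquare (2 : F) := by
            rw [FiniteField.isSquare_two_iff, hq]
            omega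
          exact h2s.pow _
      obtain ⟨x, hx, hsc, hns, hsq⟩ := exists_gl_sqneg hN h2 hcard (dd_of_plus hN h2 hdim hy (Or.inr hs)) h2d (by omega)
      obtain ⟨W, hW, hWi⟩ := H x hx hsc hns
      obtain ⟨hxi, -⟩ := (mem_omegaGL_iff _ x).mp hx
      obtain ⟨c, hc⟩ := hs
      exact hW.2.2.mp (sq_type_square h2 (iso_of_mem Q hN hxi) hsq hc.symm hW.2.1 hWi hW.1)
    · have hn := not_sq_neg_one hq h43
      have hev : Even d := by
        by_contra hne
        exact h4 ⟨Nat.not_even_iff_odd.mp hne, by omega⟩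
      have hκe : (2 * κ) % 4 ≠ 2 := fun h5 => h3 ⟨hev, h43, h5⟩
      obtain ⟨x, hx, hsc, hns, hsq⟩ := exists_gl_sqneg hN h2 hcard (dd_of_plus hN h2 hdim hy (Or.inl hev))
        (hev.isSquare_pow _) (by omega)
      obtain ⟨W, hW, hWi⟩ := H x hx hsc hns
      obtain ⟨hxi, -⟩ := (mem_omegaGL_iff _ x).mp hx
      refine hW.2.2.mp ((sq_type_nonsq h2 (iso_of_mem Q hN hxi) hsq hn hW.2.1 hWi hW.1).mpr ?_)
      rw [Nat.even_iff]
      omega
  · intro hc
    apply two_core hN h2 hq hcard hd hκ hκd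
    intro x hx hsq
    obtain ⟨hxi, -⟩ := (mem_omegaGL_iff _ x).mp hx
    have hT := iso_of_mem Q hN hxi
    by_cases hs : IsSquare (-1 : F)
    · exfalso
      have hq1 : q % 4 = 1 := by
        rw [FiniteField.isSquare_neg_one_iff, hq] at hs
        have := q_mod h2 hq
        omega
      rcases hc with ⟨-, h3, -⟩ | ⟨hod, h8⟩
      · omega
      · have h6 := (omega_iff_sqneg Q hN h2 hcard hxi hsq).mp hx
        obtain ⟨k, hk⟩ := hod
        rw [hk, pow_succ, pow_mul] at h6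
        have h7 : ((2 : F) ^ 2) ^ k = (2 ^ k) * (2 ^ k) := by
          rw [← pow_mul, mul_comm 2 k, pow_mul, pow_two]
        rw [h7] at h6
        have h9 := (isSquare_mul_self_mul (pow_ne_zero k h2) _).mp h6
        rw [FiniteField.isSquare_two_iff, hq] at h9
        omega
    · have hev := (hyQ_of_sqneg h2 hN hdim hT hsq hs).mp hy
      have hκo : (2 * κ) % 4 = 2 := by
        rcases hc with ⟨-, -, h3⟩ | ⟨hod, -⟩
        · exact h3
        · exact absurd hev (Nat.not_even_iff_odd.mpr hod)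
      obtain ⟨W, h1, h3, h4⟩ := exists_nd_sqneg (t := κ) h2 hN hT hsq (by omega)
      refine ⟨W, ⟨h4, h1, iff_false_intro ?_⟩, h3⟩
      rw [sq_type_nonsq h2 hT hsq hs h1 h3 h4, Nat.even_iff]
      omega

/-- Elliptic subspaces, minus type. -/
theorem two_ell_minus_iff (hN : (polarBilin Q).Nondegenerate) (h2 : (2 : F) ≠ 0) (hq : Fintype.card F = q) {d κ : ℕ}
    (hcard : Fintype.card ι = 2 * d) (hd : 3 ≤ d) (hκ : 1 ≤ κ) (hκd : κ < d) (hy : ¬ HyQ Q) :
    ElusP Q 2 (PQ Q (2 * κ) False) ↔ (Even d ∨ q % 8 ≠ 7 ∨ (2 * κ) % 4 = 2) := by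
  have hdim : finrank F (ι → F) = 2 * d := by rw [finrank_ι, hcard]
  constructor
  · intro H
    by_contra hcon
    rw [not_or, not_or] at hcon
    obtain ⟨h3, h4, h5⟩ := hcon
    have h87 : q % 8 = 7 := by omega
    have hn := not_sq_neg_one hq (show q % 4 = 3 by omega)
    have hod : Odd d := Nat.not_even_iff_odd.mp h3
    have h2s : IsSquare (2 : F) := by
      rw [FiniteField.isSquare_two_iff, hq]
      omega
    obtain ⟨x, hx, hsc, hns, hsq⟩ := exists_gl_sqneg hN h2 hcard (dd_of_minus hN h2 hdim hy hod hn) (h2s.pow _) (by omega)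
    obtain ⟨W, hW, hWi⟩ := H x hx hsc hns
    obtain ⟨hxi, -⟩ := (mem_omegaGL_iff _ x).mp hx
    refine hW.2.2.mp ((sq_type_nonsq h2 (iso_of_mem Q hN hxi) hsq hn hW.2.1 hWi hW.1).mpr ?_)
    rw [Nat.even_iff]
    omega
  · intro hc
    apply two_core hN h2 hq hcard hd hκ hκd
    intro x hx hsq
    obtain ⟨hxi, -⟩ := (mem_omegaGL_iff _ x).mp hx
    have hT := iso_of_mem Q hN hxi
    by_cases hs : IsSquare (-1 : F)
    · obtain ⟨c, hc'⟩ := hs
      exact absurd (sqneg_sq h2 hN hdim hT hsq hc'.symm).1 hy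
    · have hnd : ¬ Even d := fun he => hy ((hyQ_of_sqneg h2 hN hdim hT hsq hs).mpr he)
      have hκo : (2 * κ) % 4 = 2 := by
        rcases hc with h3 | h3 | h3
        · exact absurd h3 hnd
        · exfalso
          have h6 := (omega_iff_sqneg Q hN h2 hcard hxi hsq).mp hx
          have hod : Odd d := Nat.not_even_iff_odd.mp hnd
          obtain ⟨k, hk⟩ := hod
          rw [hk, pow_succ, pow_mul] at h6
          have h7 : ((2 : F) ^ 2) ^ k = (2 ^ k) * (2 ^ k) := by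
            rw [← pow_mul, mul_comm 2 k, pow_mul, pow_two]
          rw [h7] at h6
          have h8 := (isSquare_mul_self_mul (pow_ne_zero k h2) _).mp h6
          rw [FiniteField.isSquare_two_iff, hq] at h8
          rw [FiniteField.isSquare_neg_one_iff, hq] at hs
          omega
        · exact h3
      obtain ⟨W, h1, h3, h4⟩ := exists_nd_sqneg (t := κ) h2 hN hT hsq (by omega)
      refine ⟨W, ⟨h4, h1, iff_false_intro ?_⟩, h3⟩
      rw [sq_type_nonsq h2 hT hsq hs h1 h3 h4, Nat.even_iff]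
      omega

end gl

end Cfsg.Agent.Lib.ElusT.NTwo
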