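import Cfsg.Agent.Lib.ElusT.TI

/-!
# Models without invariant totally isotropic subspaces
-/

set_option autoImplicit false
set_option linter.unusedSectionVars false
set_option linter.style.haveILetI false
set_option linter.unusedVariables false
set_option linter.unusedSimpArgs false

open Polynomial Module

universe u v w

namespace Cfsg.Agent.Lib.ElusT.Neg

open Cfsg.Agent.Lib.ElusL.Basic Cfsg.Agent.Lib.ElusL.Flag Cfsg.Agent.Lib.ElusL.Cyc
  Cfsg.Agent.Lib.ElusL.Pos Cfsg.Agent.Lib.ElusF.Form Cfsg.Agent.Lib.ElusF.Step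
  Cfsg.Agent.Lib.ElusF.Split Cfsg.Agent.Lib.ElusF.SpNeg Cfsg.Agent.Lib.ElusF.SpModel
  Cfsg.Agent.Lib.ElusQ.Disc Cfsg.Agent.Lib.ElusQ.Oz Cfsg.Agent.Lib.ElusQ.Pos Cfsg.Agent.Lib.ElusQ.Model
  Cfsg.Agent.Lib.ElusT.TI

variable {F : Type u} [Field F] [Fintype F] {q r : ℕ} {V : Type v} [AddCommGroup V] [Module F V]
  [FiniteDimensional F V] {B : LinearMap.BilinForm F V} {T : End F V}

/-- The kernel of a factor is nondegenerate. -/
theorem nd_fac' (h : Oz B T r) (hq : Fintype.card F = q) (hr : r ≠ 0) (hrF : (r : F) ≠ 0) {e : ℕ}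
    (hrq : r ∣ q ^ e + 1) {g : F[X]} (hg : g ∣ X ^ r - 1) :
    Nd (fun u v => B u v) (LinearMap.ker (Polynomial.aeval T g)) := by
  obtain ⟨b, hb⟩ := hg
  have hsep : (X ^ r - 1 : F[X]).Separable := by
    have := separable_X_pow_sub_C (1 : F) hrF one_ne_zero
    simpa using this
  have hcop : IsCoprime g b := by
    rw [hb] at hsep
    exact hsep.isCoprime
  have hsup := (sup_ker hcop (T := T) (W := ⊤) (fun v _ => Submodule.mem_top) (fun w _ => by
    rw [← hb]
    simp [h.pow])).1
  rw [top_inf_eq, top_inf_eq] at hsup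
  exact h.fm.nd_of_orth_sum h.fm.nd_top hsup (fun x hx y hy =>
    orth_fac' h hq hr hrq hcop hx hy)

theorem bound_fac' (h : Oz B T r) (hq : Fintype.card F = q) (hr : r ≠ 0) (hrF : (r : F) ≠ 0) {e : ℕ}
    (hrq : r ∣ q ^ e + 1) {g : F[X]} (hg : g ∣ X ^ r - 1) {W : Submodule F V}
    (hTI : TI (fun u v => B u v) W) :
    2 * finrank F (W ⊓ LinearMap.ker (Polynomial.aeval T g) : Submodule F V) ≤ Dk T g :=
  h.fm.two_mul_finrank_le (nd_fac' h hq hr hrF hrq hg) inf_le_right
    (fun u hu v hv => hTI u hu.1 v hv.1)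

theorem bound_beta' (h : Oz B T r) (hq : Fintype.card F = q) (hr : r.Prime) (hrF : (r : F) ≠ 0)
    {e : ℕ} (hrq : r ∣ q ^ e + 1) (he : 0 < e) {S : Finset F[X]}
    (hS : ∀ g ∈ S, Irreducible g ∧ g.Monic ∧ g ∣ X ^ r - 1 ∧ ¬ g ∣ X - 1 ∧ g.natDegree = 2 * e)
    (hprod : ∏ g ∈ S, g = Phi F r) {W : Submodule F V} (hTI : TI (fun u v => B u v) W)
    (hInv : Inv T W) :
    ∃ (t₀ : ℕ) (w : F[X] → ℕ), finrank F W = t₀ + 2 * e * ∑ g ∈ S, w g ∧
      2 * t₀ ≤ Dk T (X - 1 : F[X]) ∧ ∀ g ∈ S, 2 * (2 * e * w g) ≤ Dk T g := by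
  classical
  have h1 := split01 hrF h.pow hInv
  have hnd := nd0 h.fm h.iso hrF h.pow (h.fm.nd_top) (U := ⊤) (fun v _ => Submodule.mem_top)
  rw [top_inf_eq] at hnd
  have h2 := h.fm.two_mul_finrank_le hnd
    (W := W ⊓ LinearMap.ker (Polynomial.aeval T (X - 1 : F[X]))) inf_le_right
    (fun u hu v hv => hTI u hu.1 v hv.1)
  have hcop : ∀ g ∈ S, ∀ k ∈ S, g ≠ k → IsCoprime g k := by
    intro g hg k hk hne
    obtain ⟨hgi, hgm, -⟩ := hS g hg
    obtain ⟨hki, hkm, -⟩ := hS k hk
    refine hgi.coprime_iff_not_dvd.mpr ?_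
    intro hd
    exact hne (Polynomial.eq_of_monic_of_associated hgm hkm (hgi.associated_of_dvd hki hd))
  have h3 := finrank_sum_factors hInv S hcop
  rw [hprod] at h3
  have hdvd : ∀ g ∈ S, 2 * e ∣ finrank F (W ⊓ LinearMap.ker (Polynomial.aeval T g) : Submodule F V) := by
    intro g hg
    obtain ⟨hgi, -, -, -, hd⟩ := hS g hg
    rw [← hd]
    exact natDegree_dvd_inf hgi hInv
  refine ⟨finrank F (W ⊓ LinearMap.ker (Polynomial.aeval T (X - 1 : F[X])) : Submodule F V),
    fun g => finrank F (W ⊓ LinearMap.ker (Polynomial.aeval T g) : Submodule F V) / (2 * e), ?_, h2, ?_⟩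
  · rw [h1.2, h3, Finset.mul_sum]
    congr 1
    apply Finset.sum_congr rfl
    intro g hg
    rw [Nat.mul_div_cancel' (hdvd g hg)]
  · intro g hg
    rw [Nat.mul_div_cancel' (hdvd g hg)]
    exact bound_fac' h hq hr.ne_zero hrF hrq (hS g hg).2.2.1 hTI

/-- Model for even order when the number of factors is too large. -/
theorem exists_beta' (hq : Fintype.card F = q) (hr : r.Prime) (hr2 : r ≠ 2) (hrF : (r : F) ≠ 0)
    (hrq : ¬ r ∣ q) {e n m : ℕ} (hi : orderOf (q : ZMod r) = 2 * e) (he : 0 < e)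
    (hmd : 2 * m ≤ n) (hm : 2 * e ≤ m) (hbig : n / (2 * e) < (r - 1) / (2 * e) + 2 * (m / (2 * e))) :
    ∃ (V : Type u) (_ : AddCommGroup V) (_ : Module F V) (_ : FiniteDimensional F V)
      (B : LinearMap.BilinForm F V) (T : End F V), Oz B T r ∧ finrank F V = n ∧
      (∀ z : F, T ≠ z • 1) ∧ ∀ W : Submodule F V, TI (fun u v => B u v) W → Inv T W →
        finrank F W ≠ m := by
  classical
  obtain ⟨S, hS, hprod, hcard⟩ := exists_factors hq hr hrF hrq
  rw [hi] at hS hcard
  have hrpos := hr.two_le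
  have h2e : 0 < 2 * e := by omega
  have hSpos : 0 < S.card := by
    rcases Nat.eq_zero_or_pos S.card with h0 | h0
    · rw [h0, zero_mul] at hcard
      omega
    · exact h0
  obtain ⟨g₀, hg₀⟩ := Finset.card_pos.mp hSpos
  have hrq' := dvd_pow_add_one (q := q) hr hi he
  set t := S.card with ht
  have htdiv : (r - 1) / (2 * e) = t := by
    rw [← hcard, Nat.mul_div_cancel _ h2e]
  rw [htdiv] at hbig
  set k := n % (2 * e) with hk
  have hklt : k < 2 * e := Nat.mod_lt _ h2e
  set n' := n / (2 * e) with hn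
  have hdn : k + 2 * e * n' = n := Nat.mod_add_div _ _
  have hm1 : 1 ≤ m / (2 * e) := (Nat.one_le_div_iff h2e).mpr hm
  have hn2 : 2 ≤ n' := by
    rw [hn, Nat.le_div_iff_mul_le h2e]
    omega
  set u := (n' + t) % 2 with hu
  have hu1 : u ≤ 1 := by omega
  set N := n' - u with hN
  have hNpar : ∀ h : t ≤ N, Even (N - t) := by
    intro h
    rw [Nat.even_iff]
    omega
  let L := S.toList
  have hLnd : L.Nodup := S.nodup_toList
  have hLmem : ∀ g, g ∈ L ↔ g ∈ S := fun g => Finset.mem_toList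
  have hLlen : L.length = t := Finset.length_toList S
  let l := L.take N ++ List.replicate (N - t) g₀
  have hllen : l.length = N := by
    simp only [l, List.length_append, List.length_take, List.length_replicate, hLlen]
    omega
  have hlmem : ∀ g ∈ l, g ∈ S := by
    intro g hg
    rcases List.mem_append.mp hg with h1 | h1
    · exact (hLmem g).mp (List.mem_of_mem_take h1)
    · rw [List.eq_of_mem_replicate h1]
      exact hg₀
  obtain ⟨V, i1, i2, i3, B, T, hOz, hf, hD, hDh, hNS⟩ := Cfsg.Agent.Lib.ElusQ.Model.model_even hq he.ne' hrq'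
    (k + 2 * e * u) l (fun g hg => hS g (hlmem g hg))
  have hNpos : 0 < N := by omega
  refine ⟨V, i1, i2, i3, B, T, hOz, ?_, hNS (by
    intro h0
    have := congrArg List.length h0
    rw [hllen] at this
    simp at this
    omega), ?_⟩
  · rw [hf, hllen, ← hdn]
    have : n' = u + N := by omega
    rw [this]
    ring
  · intro W hTI hInv hWm
    obtain ⟨t₀, w, hW, h2, h3⟩ := bound_beta' hOz hq hr hrF hrq' he hS hprod hTI hInv
    rw [hD] at h2
    have hsum := arith_unique h2e (hWm.symm.trans hW) h2 hklt hu1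
    have hcount : ∀ g ∈ S, 2 * w g ≤ l.count g := by
      intro g hg
      have h4 := h3 g hg
      obtain ⟨hgi, hgm, hgr, hg1, hgd⟩ := hS g hg
      rw [hDh g hgm hgi hg1] at h4
      have h5 : 2 * e * (2 * w g) ≤ 2 * e * l.count g := by
        calc 2 * e * (2 * w g) = 2 * (2 * e * w g) := by ring
          _ ≤ _ := h4
      exact Nat.le_of_mul_le_mul_left h5 h2e
    have hcount1 : ∀ g ∈ S, g ≠ g₀ → w g = 0 := by
      intro g hg hne
      have h4 := hcount g hg
      have h5 : l.count g ≤ 1 := by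
        simp only [l, List.count_append]
        have h6 : (L.take N).count g ≤ 1 :=
          List.nodup_iff_count_le_one.mp (hLnd.sublist (List.take_sublist _ _)) g
        have h7 : (List.replicate (N - t) g₀).count g = 0 := by
          rw [List.count_replicate]
          simp [Ne.symm hne]
        omega
      omega
    have hcount0 : l.count g₀ ≤ 1 + (N - t) := by
      simp only [l, List.count_append]
      have h6 : (L.take N).count g₀ ≤ 1 :=
        List.nodup_iff_count_le_one.mp (hLnd.sublist (List.take_sublist _ _)) g₀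
      have h7 : (List.replicate (N - t) g₀).count g₀ = N - t := by
        simp
      omega
    have hsum1 : ∑ g ∈ S, w g = w g₀ := Finset.sum_eq_single g₀
      (fun g hg hne => hcount1 g hg hne) (fun h => absurd hg₀ h)
    rw [hsum1] at hsum
    have h8 := hcount g₀ hg₀
    by_cases hle : t ≤ N
    · have h9 := hNpar hle
      rw [Nat.even_iff] at h9
      omega
    · have : N - t = 0 := by omega
      omega

end Cfsg.Agent.Lib.ElusT.Neg
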