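import Cfsg.Agent.Lib.ElusT.TI

/-!
# Existence of invariant totally isotropic subspaces in odd dimension
-/

set_option autoImplicit false
set_option linter.unusedSectionVars false
set_option linter.style.haveILetI false
set_option linter.unusedVariables false
set_option linter.unusedSimpArgs false

open Polynomial Module

universe u v

namespace Cfsg.Agent.Lib.ElusT.OddPos

open Cfsg.Agent.Lib.ElusL.Basic Cfsg.Agent.Lib.ElusL.Flag Cfsg.Agent.Lib.ElusL.Cyc
  Cfsg.Agent.Lib.ElusL.Pos Cfsg.Agent.Lib.ElusF.Form Cfsg.Agent.Lib.ElusF.Step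
  Cfsg.Agent.Lib.ElusF.Split Cfsg.Agent.Lib.ElusF.SpNeg Cfsg.Agent.Lib.ElusF.SpPos2
  Cfsg.Agent.Lib.ElusQ.Disc Cfsg.Agent.Lib.ElusQ.Oz Cfsg.Agent.Lib.ElusQ.Pos Cfsg.Agent.Lib.ElusT.TI

variable {F : Type u} [Field F] [Fintype F] {q r : ℕ} {V : Type v} [AddCommGroup V] [Module F V]
  [FiniteDimensional F V] {B : LinearMap.BilinForm F V} {T : End F V}

/-- Invariant isotropic subspaces, degree odd. -/
theorem pos_odd' (h : Oz B T r) (h2 : (2 : F) ≠ 0) (hq : Fintype.card F = q) (hr : r.Prime) (hr2 : r ≠ 2)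
    (hrF : (r : F) ≠ 0) (hrq : ¬ r ∣ q) (hi : Odd (orderOf (q : ZMod r))) {m : ℕ}
    (hm : 2 * m < finrank F V)
    (hmod : 2 * (m % orderOf (q : ZMod r)) < finrank F V % (2 * orderOf (q : ZMod r))) :
    ∃ W : Submodule F V, TI (fun u v => B u v) W ∧ Inv T W ∧ finrank F W = m := by
  set i := orderOf (q : ZMod r) with hidef
  have hipos : 0 < i := hi.pos
  have hrO := hr.odd_of_ne_two hr2
  have hnd1 := nd_K1 h hrF
  have hsum := finrank_K h hrF
  have hcd := c_dvd h h2 hq hr hrO hrF hrq hnd1 (inv_ker T _) le_rfl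
  rw [show cOf (orderOf (q : ZMod r)) = 2 * i by
    unfold cOf
    rw [if_neg (Nat.not_even_iff_odd.mpr hi)]] at hcd
  obtain ⟨s₁, hs₁⟩ := hcd
  have hmodk : finrank F V % (2 * i) = finrank F (K0 T) % (2 * i) := by
    rw [hsum, hs₁, Nat.add_mul_mod_self_left]
  have hkle : finrank F V % (2 * i) ≤ finrank F (K0 T) := by
    rw [hmodk]
    exact Nat.mod_le _ _
  have hm' := Nat.div_add_mod m i
  set m' := m / i with hm'def
  set l := m % i with hldef
  set s := min m' s₁ with hs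
  have hsm : s ≤ m' := min_le_left _ _
  have hss₁ : s ≤ s₁ := min_le_right _ _
  have hle : i * s ≤ i * m' := Nat.mul_le_mul_left i hsm
  have hle₁ : i * s ≤ i * s₁ := Nat.mul_le_mul_left i hss₁
  have hb : finrank F (K1 T r) = 2 * (i * s₁) := by
    rw [hs₁]
    ring
  obtain ⟨W₁, h1, h3, h4, h5⟩ := K1_odd h h2 hq hr hrO hrF hrq hi (s := s) (by
    rw [← hidef, hb]
    exact Nat.mul_le_mul_left 2 hle₁)
  rw [← hidef] at h5
  have ht0 : 2 * (m - i * s) < finrank F (K0 T) := by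
    by_cases hc : m' ≤ s₁
    · have h6 : s = m' := min_eq_left hc
      rw [h6]
      omega
    · have h6 : s = s₁ := min_eq_right (by omega)
      rw [h6]
      omega
  obtain ⟨W₀, h6, h7, h8, h9⟩ := cap0' h hr.ne_zero hrF ht0
  obtain ⟨h10, h11, h12⟩ := combine' h hrF h6 h1 h7 h3 h8 h4
  refine ⟨W₀ ⊔ W₁, h10, h11, ?_⟩
  rw [h12, h9, h5]
  omega

/-- Invariant isotropic subspaces, general degree. -/
theorem pos_even' (h : Oz B T r) (h2 : (2 : F) ≠ 0) (hq : Fintype.card F = q) (hr : r.Prime) (hr2 : r ≠ 2)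
    (hrF : (r : F) ≠ 0) (hrq : ¬ r ∣ q) {m : ℕ}
    (hmod : 2 * (m % orderOf (q : ZMod r)) < finrank F V % orderOf (q : ZMod r))
    (hbig : (r - 1) / orderOf (q : ZMod r) + 2 * (m / orderOf (q : ZMod r)) ≤
      finrank F V / orderOf (q : ZMod r)) :
    ∃ W : Submodule F V, TI (fun u v => B u v) W ∧ Inv T W ∧ finrank F W = m := by
  haveI : Fact r.Prime := ⟨hr⟩
  have hipos := ord_pos (q := q) hr hrq
  set i := orderOf (q : ZMod r) with hidef
  have hPhi0 := Phi_ne_zero (F := F) hr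
  have hdeg : ∀ g, Irreducible g → g ∣ Phi F r → g.natDegree = i :=
    fun g hg hgd => natDegree_factor hq hr hrF hrq hg hgd
  have hnd1 := nd_K1 h hrF
  have hsum := finrank_K h hrF
  obtain ⟨n₁, hn₁⟩ : i ∣ finrank F (K1 T r) := i_dvd hq hr hrF hrq (inv_ker T _) le_rfl
  obtain ⟨t, ht⟩ : i ∣ r - 1 := by
    have := ZMod.orderOf_dvd_card_sub_one (a := (q : ZMod r)) (natCast_q_ne_zero hrq)
    exact this
  have ht' : (r - 1) / i = t := by
    rw [ht]
    exact Nat.mul_div_cancel_left t hipos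
  have hk₀ := Nat.div_add_mod (finrank F (K0 T)) i
  set u := finrank F (K0 T) / i with hu
  set k := finrank F (K0 T) % i with hk
  have hklt : k < i := Nat.mod_lt _ hipos
  have hn : finrank F V = i * (u + n₁) + k := by
    rw [hsum, hn₁, ← hk₀]
    ring
  have hnmod : finrank F V % i = k := by
    rw [hn, Nat.mul_add_mod, Nat.mod_eq_of_lt hklt]
  have hndiv : finrank F V / i = u + n₁ := by
    rw [hn, Nat.mul_add_div hipos, Nat.div_eq_of_lt hklt, add_zero]
  rw [hnmod] at hmod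
  rw [ht', hndiv] at hbig
  have hm' := Nat.div_add_mod m i
  set m' := m / i with hm'def
  set l := m % i with hldef
  obtain ⟨ha1, ha2, ha3⟩ := arith_even (k := k - 1) (l := l) hipos (by omega) hbig
  set s := min m' ((n₁ + 1 - t) / 2) with hs
  rw [← ht, ← hn₁] at ha1
  obtain ⟨W₁, h1, h3, h4, h5⟩ := K1_large h h2 hq hr hr2 hrF hrq (s := s) (by
    rcases ha1 with h0 | h0
    · exact Or.inl h0
    · exact Or.inr h0)
  rw [← hidef] at h5
  rw [hm'] at ha2 ha3
  have ht0 : 2 * (m - i * s) < finrank F (K0 T) := by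
    rw [← hk₀]
    omega
  obtain ⟨W₀, h6, h7, h8, h9⟩ := cap0' h hr.ne_zero hrF ht0
  obtain ⟨h10, h11, h12⟩ := combine' h hrF h6 h1 h7 h3 h8 h4
  refine ⟨W₀ ⊔ W₁, h10, h11, ?_⟩
  rw [h12, h9, h5]
  omega

end Cfsg.Agent.Lib.ElusT.OddPos
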