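import Cfsg.Agent.Lib.ElusT.TI
import Cfsg.Agent.Lib.ElusQ.SqNegMain
import Cfsg.Agent.Lib.ElusF.HzTwo

/-!
# Involutions and totally isotropic subspaces
-/

set_option autoImplicit false
set_option linter.unusedSectionVars false
set_option linter.style.haveILetI false
set_option linter.unusedVariables false
set_option linter.unusedSimpArgs false

open Polynomial Module QuadraticMap Matrix

universe u v w

namespace Cfsg.Agent.Lib.ElusT.Two

open Cfsg Cfsg.Agent.Lib.ElusL.Basic Cfsg.Agent.Lib.ElusF.Form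
  Cfsg.Agent.Lib.ElusF.Step Cfsg.Agent.Lib.ElusF.Split
  Cfsg.Agent.Lib.ElusQ.Disc Cfsg.Agent.Lib.ElusQ.Oz Cfsg.Agent.Lib.ElusQ.Syl Cfsg.Agent.Lib.ElusQ.OddMain
  Cfsg.Agent.Lib.ElusQ.Pos Cfsg.Agent.Lib.ElusQ.EvenV Cfsg.Agent.Lib.ElusQ.OddW Cfsg.Agent.Lib.ElusQ.Bridge
  Cfsg.Agent.Lib.ElusQ.SqNegMain Cfsg.Agent.Lib.ElusT.TI
  Cfsg.Agent.Lib.Witt.Quadratic Cfsg.Agent.Lib.QuadDisc.Basic Cfsg.Agent.Lib.QuadDisc.Classify
  Cfsg.Agent.Lib.Orth.Refl Cfsg.Agent.Lib.Orth.Bridge Cfsg.Agent.Lib.Orth.Words Cfsg.Agent.Lib.Elusive.OmegaMem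

variable {F : Type u} [Field F] [Fintype F]

section General

variable {V : Type v} [AddCommGroup V] [Module F V] [FiniteDimensional F V]

/-- The map that is `-1` on a nondegenerate subspace and `1` on its orthogonal complement is a word. -/
theorem neg_struct {Q : QuadraticForm F V} (hN : (polarBilin Q).Nondegenerate) (h2 : (2 : F) ≠ 0) :
    ∀ (n : ℕ) (W : Submodule F V), Nd (fun u v => polarBilin Q u v) W → finrank F W = n →
      ∃ vs : List V, (∀ v ∈ vs, v ∈ W ∧ Q v ≠ 0) ∧ vs.length = n ∧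
        (∀ x ∈ W, (vs.map (refl Q)).prod x = - x) ∧
        (∀ x, (∀ w ∈ W, polar Q x w = 0) → (vs.map (refl Q)).prod x = x) ∧
        IsSquare (dd (polarBilin Q) W * (vs.map (fun v => 2 * Q v)).prod) := by
  have hS := polar_symm Q
  have hB := fm_of_symm hS hN
  intro n
  induction n with
  | zero =>
    intro W hW hWd
    have hbot : W = ⊥ := Submodule.finrank_eq_zero.mp hWd
    subst hbot
    refine ⟨[], by simp, rfl, ?_, ?_, ?_⟩
    · intro x hx
      rw [(Submodule.mem_bot F).mp hx]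
      simp
    · intro x _
      simp
    · simp only [List.map_nil, List.prod_nil, mul_one]
      unfold dd
      rw [Matrix.det_eq_one_of_card_eq_zero (by simp)]
      exact IsSquare.one
  | succ n ih =>
    intro W hW hWd
    obtain ⟨v', hv'⟩ : ∃ e : W, polarBilin Q (e : V) (e : V) ≠ 0 :=
      exists_self_ne_zero h2 (LinearMap.BilinForm.restrict (polarBilin Q) W) (restrict_nondeg hS hW)
        (restrict_isSymm _ hS _) (by rw [hWd]; omega)
    obtain ⟨v, hvW⟩ := v'
    simp only at hv'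
    set B := polarBilin Q with hBdef
    set a := B v v with ha
    have ha0 : a ≠ 0 := hv'
    have hv0 : v ≠ 0 := by
      rintro rfl
      simp [ha, B] at ha0
    have hQv : 2 * Q v = a := (Cfsg.Agent.Lib.ElusQ.Syl.polar_self' Q v).symm
    have hQv0 : Q v ≠ 0 := by
      intro h
      rw [h, mul_zero] at hQv
      exact ha0 hQv.symm
    set L := Submodule.span F {v} with hL
    have hLn : Nd (fun u v => B u v) L := by
      intro x hx hh
      obtain ⟨c, rfl⟩ := Submodule.mem_span_singleton.mp hx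
      have h3 := hh v (Submodule.mem_span_singleton_self v)
      simp only [map_smul, LinearMap.smul_apply, smul_eq_mul] at h3
      have hc : c = 0 := (mul_eq_zero.mp h3).resolve_right ha0
      rw [hc, zero_smul]
    have hLW : L ≤ W := (Submodule.span_singleton_le_iff_mem _ _).mpr hvW
    have hLd : finrank F L = 1 := finrank_span_singleton hv0
    set W₁ := W ⊓ hB.orth L with hW₁
    have hW₁n : Nd (fun u v => B u v) W₁ := hB.nd_inf_orth hW hLn hLW
    have hW₁d : finrank F W₁ = n := by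
      have : finrank F W₁ + finrank F L = finrank F W := hB.finrank_inf_orth hW hLW
      rw [hLd, hWd] at this
      omega
    obtain ⟨vs, hvs, hlen, hact, hfix, hsq⟩ := ih W₁ hW₁n hW₁d
    have hc1 := hB.isCompl_inf_orth hLn hLW
    have hdisW : Disjoint L W₁ := by
      rw [disjoint_iff]
      exact hc1.2
    have hor1 : ∀ x ∈ L, ∀ y ∈ W₁, B x y = 0 := fun x hx y hy => (hB.mem_orth.mp hy.2) x hx
    have hor2 : ∀ x ∈ L, ∀ y ∈ W₁, B y x = 0 := fun x hx y hy => by
      rw [hS.eq]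
      exact hor1 x hx y hy
    have hvL : v ∈ L := Submodule.mem_span_singleton_self v
    refine ⟨v :: vs, ?_, ?_, ?_, ?_, ?_⟩
    · intro y hy
      simp only [List.mem_cons] at hy
      rcases hy with rfl | hy
      · exact ⟨hvW, hQv0⟩
      · exact ⟨(hvs y hy).1.1, (hvs y hy).2⟩
    · simp [hlen]
    · intro x hx
      have hx' : x ∈ L ⊔ W₁ := by rw [hc1.1]; exact hx
      obtain ⟨y, hy, z, hz, rfl⟩ := Submodule.mem_sup.mp hx'
      simp only [List.map_cons, List.prod_cons, LinearEquiv.mul_apply, map_add]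
      have h3 : (vs.map (refl Q)).prod y = y := hfix y (fun w hw => hor1 y hy w hw)
      have h4 : (vs.map (refl Q)).prod z = - z := hact z hz
      rw [h3, h4, map_neg]
      obtain ⟨c, rfl⟩ := Submodule.mem_span_singleton.mp hy
      have h5 : refl Q v (c • v) = -(c • v) := by
        rw [map_smul, refl_self Q hQv0, smul_neg]
      have h6 : refl Q v z = z := refl_fix Q (hor2 v hvL z hz)
      rw [h5, h6]
      abel
    · intro x hx
      have h3 : ∀ y ∈ W₁, polar Q x y = 0 := fun y hy => hx y hy.1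
      simp only [List.map_cons, List.prod_cons, LinearEquiv.mul_apply]
      rw [hfix x h3, refl_fix Q (hx v hvW)]
    · obtain ⟨u, hu, hu'⟩ := dd_sup (B := B) hdisW hor1 hor2
      obtain ⟨u₁, hu₁, hu₁'⟩ := dd_span (B := B) ha0 hv0
      rw [hc1.1] at hu'
      obtain ⟨s, hs⟩ := hsq
      have h3 : dd B L = a * (u₁⁻¹ * u₁⁻¹) := by
        have : a = u₁ * u₁ * dd B L := hu₁'
        rw [this]
        field_simp
      simp only [List.map_cons, List.prod_cons]
      refine ⟨u * a * u₁⁻¹ * s, ?_⟩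
      rw [hu', h3, hQv]
      have h4 : u * u * (a * (u₁⁻¹ * u₁⁻¹) * dd B W₁) * (a * (vs.map (fun v => 2 * Q v)).prod) =
          u * u * a * a * (u₁⁻¹ * u₁⁻¹) * (dd B W₁ * (vs.map (fun v => 2 * Q v)).prod) := by ring
      rw [h4, hs]
      ring

theorem prod_two_mul (Q : QuadraticForm F V) (vs : List V) :
    (vs.map (fun v => 2 * Q v)).prod = (2 : F) ^ vs.length * (vs.map (fun v => Q v)).prod := by
  induction vs with
  | nil => simp
  | cons a l ih =>
    rw [List.map_cons, List.map_cons, List.prod_cons, List.prod_cons, ih, List.length_cons, pow_succ]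
    ring

/-- Totally isotropic subspaces of nondegenerate subspaces. -/
theorem exists_ti_sub {B : LinearMap.BilinForm F V} (hS : B.IsSymm) (hN : B.Nondegenerate) {U : Submodule F V}
    (hU : Nd (fun u v => B u v) U) {t : ℕ} (ht : t = 0 ∨ 2 * t < finrank F U) :
    ∃ W : Submodule F V, W ≤ U ∧ TI (fun u v => B u v) W ∧ finrank F W = t := by
  have hB := fm_of_symm hS hN
  have hss : SS (1 : End F V) := by
    intro Z _
    obtain ⟨Z', hZ'⟩ := Submodule.exists_isCompl Z
    exact ⟨Z', fun v hv => hv, hZ'⟩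
  obtain ⟨W, h1, h3, -, h5⟩ := cap hB (T := 1) (fun u v => rfl) (fun a b h => h) hss (e := 2) (d := 1) (U₀ := U)
    (fun U' hU' _ _ hpos => by
      obtain ⟨u, huU, hu0, hu⟩ := exists_sing B hpos
      refine ⟨Submodule.span F {u}, ?_, ?_, fun v hv => hv, finrank_span_singleton hu0⟩
      · rw [Submodule.span_le, Set.singleton_subset_iff]
        exact huU
      · intro a ha b hb
        obtain ⟨c, rfl⟩ := Submodule.mem_span_singleton.mp ha
        obtain ⟨d, rfl⟩ := Submodule.mem_span_singleton.mp hb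
        simp [hu])
    t U le_rfl hU (fun v hv => hv) (by
      rcases ht with h0 | h0
      · exact Or.inl h0
      · rcases Nat.eq_zero_or_pos t with h3 | h3
        · exact Or.inl h3
        · right
          omega)
  exact ⟨W, h1, h3, by simpa using h5⟩

end General

section Matrix

variable {ι : Type} [Fintype ι] [DecidableEq ι] (Q : QuadraticForm F (ι → F))

/-- The eigenspace of an involution in `Ω` has even dimension and square discriminant. -/
theorem omega_invol (hN : (polarBilin Q).Nondegenerate) (h2 : (2 : F) ≠ 0) {x : GL ι F}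
    (hx : x ∈ Cfsg.Geo.omegaGL ⇑Q) (hx2 : x ^ 2 = 1) :
    Even (finrank F (K1 (Matrix.toLin' (x : Matrix ι ι F)) 2)) ∧
      IsSquare (dd (polarBilin Q) (K1 (Matrix.toLin' (x : Matrix ι ι F)) 2)) := by
  obtain ⟨hxi, hxΩ⟩ := (mem_omegaGL_iff _ x).mp hx
  have hT := oz_of_mem Q hN hxi hx2
  set T := Matrix.toLin' (x : Matrix ι ι F) with hTdef
  have hrF : ((2 : ℕ) : F) ≠ 0 := by exact_mod_cast h2
  have hK1T : ∀ v ∈ K1 T 2, T v = - v := by
    intro v hv
    have h3 : Polynomial.aeval T (Cfsg.Agent.Lib.ElusL.Cyc.Phi F 2) v = 0 := hv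
    have h4 : Cfsg.Agent.Lib.ElusL.Cyc.Phi F 2 = X + 1 := by
      simp [Cfsg.Agent.Lib.ElusL.Cyc.Phi, Finset.sum_range_succ, add_comm]
    rw [h4] at h3
    simp only [map_add, aeval_X, map_one, LinearMap.add_apply, Module.End.one_apply] at h3
    exact eq_neg_of_add_eq_zero_left h3
  obtain ⟨vs, hvs, hlen, hact, hfix, hsq⟩ := neg_struct hN h2 _ (K1 T 2) (nd_K1 hT hrF) rfl
  have hprod : ∀ y, (vs.map (refl Q)).prod y = T y := by
    intro y
    have hsup := (split01 hrF hT.pow (U := ⊤) (fun v _ => trivial)).1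
    have hy : y ∈ (⊤ ⊓ K0 T ⊔ ⊤ ⊓ K1 T 2 : Submodule F (ι → F)) := by
      rw [hsup]
      trivial
    obtain ⟨a, ha, b, hb, rfl⟩ := Submodule.mem_sup.mp hy
    rw [map_add, map_add, hact b hb.2, hK1T b hb.2, hfix a (fun w hw => orth_K hT hrF a ha.2 w hw),
      mem_fix.mp ha.2]
  have hgw : (x : Matrix ι ι F) = (vs.map (fun v => reflectionMatrix ⇑Q v)).prod := by
    apply mat_eq_of_mulVec
    intro v
    rw [word_mulVec, hprod, hTdef, Matrix.toLin'_apply]
  have hcard : Fintype.card F ≠ 2 := card_ne_two h2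
  have h3 := (word_mem_Omega_iff Q hN (Or.inl hcard) ⟨x, hxi⟩ vs (fun v hv => (hvs v hv).2) hgw).mp hxΩ
  obtain ⟨hev, hs⟩ := h3
  refine ⟨hlen ▸ hev, ?_⟩
  obtain ⟨k, hk⟩ := hev
  rw [prod_two_mul Q vs, hk] at hsq
  obtain ⟨c, hc⟩ := hs
  have hc0 : c ≠ 0 := by
    intro h0
    have h5 : (vs.map (fun v => Q v)).prod ≠ 0 := by
      intro h6
      rw [List.prod_eq_zero_iff] at h6
      obtain ⟨v, hv, hv0⟩ := List.mem_map.mp h6
      exact (hvs v hv).2 hv0
    rw [hc, h0, zero_mul] at h5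
    exact h5 rfl
  have h5 : dd (polarBilin Q) (K1 T 2) * ((2 : F) ^ (k + k) * (vs.map (fun v => Q v)).prod) =
      ((2 : F) ^ k * c) * ((2 : F) ^ k * c) * dd (polarBilin Q) (K1 T 2) := by
    rw [hc, pow_add]
    ring
  rw [h5] at hsq
  exact (isSquare_mul_self_mul (mul_ne_zero (pow_ne_zero _ h2) hc0) _).mp hsq

/-- Involutions have invariant totally isotropic subspaces of the expected dimensions. -/
theorem two_pos (hN : (polarBilin Q).Nondegenerate) (h2 : (2 : F) ≠ 0) {q d m : ℕ} (hq : Fintype.card F = q)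
    (hcardι : Fintype.card ι = 2 * d + 1) (hmd : m ≤ d) (hcond : m < d ∨ q % 4 = 1) {x : GL ι F}
    (hx : x ∈ Cfsg.Geo.omegaGL ⇑Q) (hx2 : x ^ 2 = 1) :
    ∃ W : Submodule F (ι → F), TI (fun u v => polarBilin Q u v) W ∧ Inv (Matrix.toLin' (x : Matrix ι ι F)) W ∧
      finrank F W = m := by
  obtain ⟨hxi, hxΩ⟩ := (mem_omegaGL_iff _ x).mp hx
  have hT := oz_of_mem Q hN hxi hx2
  have hS := polar_symm Q
  set T := Matrix.toLin' (x : Matrix ι ι F) with hTdef
  have hrF : ((2 : ℕ) : F) ≠ 0 := by exact_mod_cast h2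
  have hK1T : ∀ v ∈ K1 T 2, T v = - v := by
    intro v hv
    have h3 : Polynomial.aeval T (Cfsg.Agent.Lib.ElusL.Cyc.Phi F 2) v = 0 := hv
    have h4 : Cfsg.Agent.Lib.ElusL.Cyc.Phi F 2 = X + 1 := by
      simp [Cfsg.Agent.Lib.ElusL.Cyc.Phi, Finset.sum_range_succ, add_comm]
    rw [h4] at h3
    simp only [map_add, aeval_X, map_one, LinearMap.add_apply, Module.End.one_apply] at h3
    exact eq_neg_of_add_eq_zero_left h3
  have hinv1 : ∀ W : Submodule F (ι → F), W ≤ K1 T 2 → Inv T W := by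
    intro W hW v hv
    rw [hK1T v (hW hv)]
    exact W.neg_mem hv
  have hn0 := nd_K0 hT hrF
  have hn1 := nd_K1 hT hrF
  have hsum := finrank_K hT hrF
  rw [finrank_ι, hcardι] at hsum
  set a := finrank F (K0 T) with ha
  set b := finrank F (K1 T 2) with hb
  -- combining
  have hfin : ∀ W₀ W₁ : Submodule F (ι → F), W₀ ≤ K0 T → W₁ ≤ K1 T 2 → TI (fun u v => polarBilin Q u v) W₀ →
      TI (fun u v => polarBilin Q u v) W₁ → finrank F W₀ + finrank F W₁ = m →
      ∃ W : Submodule F (ι → F), TI (fun u v => polarBilin Q u v) W ∧ Inv T W ∧ finrank F W = m := by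
    intro W₀ W₁ h0 h1 ht0 ht1 hd
    obtain ⟨h3, h4, h5⟩ := combine' hT hrF h0 h1 ht0 ht1 (inv_of_le_K0 h0) (hinv1 _ h1)
    exact ⟨W₀ ⊔ W₁, h3, h4, by rw [h5, hd]⟩
  rcases hcond with hlt | hq1
  · set t₀ := min m ((a - 1) / 2) with ht₀
    obtain ⟨W₀, h0, h1, h3⟩ := exists_ti_sub hS hN hn0 (t := t₀) (by
      rcases Nat.eq_zero_or_pos a with h | h
      · left
        rw [ht₀, h]
        simp
      · right
        omega)
    obtain ⟨W₁, h4, h5, h6⟩ := exists_ti_sub hS hN hn1 (t := m - t₀) (by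
      by_cases hc : m ≤ (a - 1) / 2
      · left
        omega
      · right
        omega)
    exact hfin W₀ W₁ h0 h4 h1 h5 (by omega)
  · obtain ⟨hev, hsq⟩ := omega_invol Q hN h2 hx hx2
    rw [← hTdef, ← hb] at hev
    rw [← hTdef] at hsq
    obtain ⟨k, hk⟩ := hev
    have hn : IsSquare (-1 : F) := by
      rw [FiniteField.isSquare_neg_one_iff, hq]
      omega
    have hHy := (hy_iff h2 hS hn1 (l := k) (by rw [← hb, hk]; ring)).mpr ((hn.pow k).mul hsq)
    obtain ⟨X₁, hX₁, hX₁t, hX₁d⟩ := hHy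
    have hX₁d' : 2 * finrank F X₁ = b := hX₁d
    set t₁ := min m k with ht₁
    obtain ⟨W₁, h4, h6⟩ := Cfsg.Agent.Lib.ElusF.HzTwo.exists_le_dim X₁ (t := t₁) (by omega)
    obtain ⟨W₀, h0, h1, h3⟩ := exists_ti_sub hS hN hn0 (t := m - t₁) (by
      by_cases hc : m ≤ k
      · left
        omega
      · right
        omega)
    exact hfin W₀ W₁ h0 (h4.trans hX₁) h1 (fun u hu v hv => hX₁t u (h4 hu) v (h4 hv)) (by omega)

/-- The counterexample for maximal subspaces. -/
theorem two_neg (hN : (polarBilin Q).Nondegenerate) (h2 : (2 : F) ≠ 0) {v₁ v₂ : ι → F} (h1 : Q v₁ = 1) (h3 : Q v₂ = 1)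
    (h12 : polar Q v₁ v₂ = 0) (hn : ¬ IsSquare (-1 : F)) :
    ∃ x : GL ι F, x ∈ Cfsg.Geo.omegaGL ⇑Q ∧ orderOf x = 2 ∧ ∀ W : Submodule F (ι → F),
      TI (fun u v => polarBilin Q u v) W → Inv (Matrix.toLin' (x : Matrix ι ι F)) W →
      2 * finrank F W + 2 ≤ finrank F (ι → F) := by
  have hS := polar_symm Q
  have hB := fm_of_symm hS hN
  have hv10 : v₁ ≠ 0 := by
    rintro rfl
    simp at h1
  have hv20 : v₂ ≠ 0 := by
    rintro rfl
    simp at h3
  have h21 : polar Q v₂ v₁ = 0 := by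
    rw [polar_comm]
    exact h12
  have hQ1 : Q v₁ ≠ 0 := by
    rw [h1]
    exact one_ne_zero
  have hQ2 : Q v₂ ≠ 0 := by
    rw [h3]
    exact one_ne_zero
  let e : (ι → F) ≃ₗ[F] (ι → F) := refl Q v₁ * refl Q v₂
  let T : End F (ι → F) := (e : (ι → F) →ₗ[F] (ι → F))
  have hTa : ∀ w, T w = w - polar Q w v₁ • v₁ - polar Q w v₂ • v₂ := by
    intro w
    change refl Q v₁ (refl Q v₂ w) = _
    simp only [refl_apply, h1, h3, inv_one, one_mul]
    simp only [polar_sub_left, polar_smul_left, h21, smul_eq_mul, mul_zero, sub_zero]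
    abel
  have hTT : ∀ w, T (T w) = w := by
    intro w
    change (e * e) w = w
    have h4 : e * e = 1 := by
      change refl Q v₁ * refl Q v₂ * (refl Q v₁ * refl Q v₂) = 1
      have hcomm := refl_comm_of_ortho Q h12
      calc refl Q v₁ * refl Q v₂ * (refl Q v₁ * refl Q v₂) = refl Q v₁ * (refl Q v₂ * refl Q v₁) * refl Q v₂ := by
            simp only [mul_assoc]
        _ = refl Q v₁ * (refl Q v₁ * refl Q v₂) * refl Q v₂ := by rw [← hcomm]
        _ = (refl Q v₁ * refl Q v₁) * (refl Q v₂ * refl Q v₂) := by simp only [mul_assoc]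
        _ = 1 := by rw [refl_mul_self, refl_mul_self, one_mul]
    rw [h4]
    rfl
  have hT2 : T ^ 2 = 1 := by
    apply LinearMap.ext
    intro v
    rw [pow_two, Module.End.mul_apply, hTT]
    rfl
  have hX2 : (LinearMap.toMatrix' T) ^ 2 = 1 := by
    rw [toMatrix_pow, hT2]
    exact LinearMap.toMatrix'_one
  let x : GL ι F := glOfPow (LinearMap.toMatrix' T) 2 (by norm_num) hX2
  have hxT : Matrix.toLin' (x : Matrix ι ι F) = T := Matrix.toLin'_toMatrix' T
  have hx2 : x ^ 2 = 1 := glOfPow_pow _ _ _ _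
  have hxi : x ∈ isometryGroup F ⇑Q := by
    rw [mem_isometryGroup_iff]
    intro v
    rw [← Matrix.toLin'_apply, hxT]
    change Q (refl Q v₁ (refl Q v₂ v)) = Q v
    rw [refl_mem Q v₁ _, refl_mem Q v₂ _]
  have hgw : (x : Matrix ι ι F) = ([v₁, v₂].map (fun v => reflectionMatrix ⇑Q v)).prod := by
    apply mat_eq_of_mulVec
    intro v
    rw [word_mulVec, ← Matrix.toLin'_apply, hxT]
    simp [T, e]
  have hcard : Fintype.card F ≠ 2 := card_ne_two h2
  have hΩ : x ∈ Cfsg.Geo.omegaGL ⇑Q := by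
    rw [mem_omegaGL_iff]
    refine ⟨hxi, (word_mem_Omega_iff Q hN (Or.inl hcard) ⟨x, hxi⟩ [v₁, v₂] ?_ hgw).mpr ⟨by simp, ?_⟩⟩
    · intro v hv
      simp only [List.mem_cons, List.not_mem_nil, or_false] at hv
      rcases hv with rfl | rfl
      · exact hQ1
      · exact hQ2
    · simp [h1, h3]
  have hord : orderOf x = 2 := by
    refine orderOf_eq_prime hx2 ?_
    intro hx1
    have h4 : T v₁ = v₁ := by
      rw [← hxT, hx1]
      simp
    rw [hTa, h12] at h4
    have h5 : polar Q v₁ v₁ = 2 := by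
      have := Cfsg.Agent.Lib.ElusQ.Syl.polar_self' Q v₁
      rw [h1, mul_one] at this
      exact this
    rw [h5] at h4
    simp only [zero_smul, sub_zero] at h4
    have h6 : (2 : F) • v₁ = 0 := by
      have := sub_eq_self.mp h4
      exact this
    exact (smul_ne_zero h2 hv10) h6
  refine ⟨x, hΩ, hord, fun W hW hWi => ?_⟩
  rw [hxT] at hWi
  -- the plane
  have hS1 : polarBilin Q v₁ v₁ = 2 := by
    have := Cfsg.Agent.Lib.ElusQ.Syl.polar_self' Q v₁
    rw [h1, mul_one] at this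
    exact this
  have hS2 : polarBilin Q v₂ v₂ = 2 := by
    have := Cfsg.Agent.Lib.ElusQ.Syl.polar_self' Q v₂
    rw [h3, mul_one] at this
    exact this
  have hline : ∀ {y : ι → F}, polarBilin Q y y = 2 → Nd (fun u v => polarBilin Q u v) (Submodule.span F {y}) := by
    intro y hy x hx hh
    obtain ⟨c, rfl⟩ := Submodule.mem_span_singleton.mp hx
    have h4 := hh y (Submodule.mem_span_singleton_self y)
    simp only [map_smul, LinearMap.smul_apply, smul_eq_mul, hy] at h4
    have hc : c = 0 := (mul_eq_zero.mp h4).resolve_right h2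
    rw [hc, zero_smul]
  have hL₁ := hline hS1
  have hL₂ := hline hS2
  have horthL : ∀ x ∈ Submodule.span F {v₁}, ∀ y ∈ Submodule.span F {v₂}, polarBilin Q x y = 0 := by
    intro x hx y hy
    obtain ⟨c, rfl⟩ := Submodule.mem_span_singleton.mp hx
    obtain ⟨d, rfl⟩ := Submodule.mem_span_singleton.mp hy
    have : polarBilin Q v₁ v₂ = 0 := h12
    simp [this]
  have hdis : Disjoint (Submodule.span F {v₁}) (Submodule.span F {v₂}) := by
    rw [Submodule.disjoint_def]
    intro x hx hx'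
    apply hL₁ x hx
    intro y hy
    change polarBilin Q x y = 0
    rw [hS.eq]
    exact horthL y hy x hx'
  set P := Submodule.span F {v₁} ⊔ Submodule.span F {v₂} with hP
  have hPn : Nd (fun u v => polarBilin Q u v) P := nd_sup hB hL₁ hL₂ (fun y hy x hx => horthL x hx y hy)
  have hPd : finrank F P = 2 := by
    rw [hP, finrank_sup_of_disjoint' hdis, finrank_span_singleton hv10, finrank_span_singleton hv20]
  have hU := hB.nd_orth hPn
  have hUd := hB.finrank_orth P
  have hWU : W ≤ hB.orth P := by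
    intro w hw y hy
    have h4 : w - T w ∈ W := W.sub_mem hw (hWi w hw)
    rw [hTa] at h4
    have h5 : w - (w - polar Q w v₁ • v₁ - polar Q w v₂ • v₂) = polar Q w v₁ • v₁ + polar Q w v₂ • v₂ := by
      abel
    rw [h5] at h4
    have h6 : Q (polar Q w v₁ • v₁ + polar Q w v₂ • v₂) = 0 := by
      have h7 := hW _ h4 _ h4
      simp only at h7
      rw [Cfsg.Agent.Lib.ElusQ.Syl.polar_self'] at h7
      exact (mul_eq_zero.mp h7).resolve_left h2
    have h8 : Q (polar Q w v₁ • v₁ + polar Q w v₂ • v₂) = polar Q w v₁ * polar Q w v₁ + polar Q w v₂ * polar Q w v₂ := by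
      have h9 : polar Q (polar Q w v₁ • v₁) (polar Q w v₂ • v₂) = 0 := by
        simp [h12]
      have h10 : Q (polar Q w v₁ • v₁ + polar Q w v₂ • v₂) =
          Q (polar Q w v₁ • v₁) + Q (polar Q w v₂ • v₂) + polar Q (polar Q w v₁ • v₁) (polar Q w v₂ • v₂) :=
        QuadraticMap.map_add Q _ _
      rw [h10, h9, QuadraticMap.map_smul, QuadraticMap.map_smul, h1, h3]
      simp
    rw [h8] at h6
    have hc1 : polar Q w v₁ = 0 ∧ polar Q w v₂ = 0 := by
      by_contra hc
      apply hn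
      by_cases h0 : polar Q w v₁ = 0
      · have h0' : polar Q w v₂ ≠ 0 := fun h' => hc ⟨h0, h'⟩
        rw [h0, mul_zero, zero_add] at h6
        exact absurd (mul_self_eq_zero.mp h6) h0'
      · refine ⟨polar Q w v₂ * (polar Q w v₁)⁻¹, ?_⟩
        field_simp
        linear_combination (-1 : F) * h6
    obtain ⟨y₁, hy₁, y₂, hy₂, rfl⟩ := Submodule.mem_sup.mp hy
    obtain ⟨c, rfl⟩ := Submodule.mem_span_singleton.mp hy₁
    obtain ⟨d, rfl⟩ := Submodule.mem_span_singleton.mp hy₂
    have h11 : polarBilin Q v₁ w = 0 := by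
      rw [hS.eq]
      exact hc1.1
    have h13 : polarBilin Q v₂ w = 0 := by
      rw [hS.eq]
      exact hc1.2
    change polarBilin Q (c • v₁ + d • v₂) w = 0
    simp [h11, h13]
  have h4 := hB.two_mul_finrank_le hU hWU hW
  omega

end Matrix

end Cfsg.Agent.Lib.ElusT.Two
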