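import Cfsg.Agent.Lib.ElusT.Count
import Cfsg.Agent.Lib.ElusT.OddPos
import Cfsg.Agent.Lib.ElusT.Neg
import Cfsg.Agent.Lib.ElusT.Two
import Cfsg.Agent.Lib.ElusQ.OddThm

/-!
# Totally singular subspaces of odd-dimensional quadratic spaces
-/

set_option autoImplicit false
set_option linter.unusedSectionVars false
set_option linter.style.haveILetI false
set_option linter.unusedVariables false
set_option linter.unusedSimpArgs false

open Polynomial Module QuadraticMap

universe u v w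

namespace Cfsg.Agent.Lib.ElusT.OddTS

open Cfsg Cfsg.Agent.Lib.ElusL.Basic Cfsg.Agent.Lib.ElusL.Cyc Cfsg.Agent.Lib.ElusF.Form
  Cfsg.Agent.Lib.ElusF.Step Cfsg.Agent.Lib.ElusF.Split Cfsg.Agent.Lib.ElusF.SpNeg Cfsg.Agent.Lib.ElusF.SpModel
  Cfsg.Agent.Lib.ElusQ.Disc Cfsg.Agent.Lib.ElusQ.Oz Cfsg.Agent.Lib.ElusQ.Syl Cfsg.Agent.Lib.ElusQ.OddMain
  Cfsg.Agent.Lib.ElusQ.Pos Cfsg.Agent.Lib.ElusQ.Model Cfsg.Agent.Lib.ElusQ.EvenV Cfsg.Agent.Lib.ElusQ.Count
  Cfsg.Agent.Lib.ElusT.TI Cfsg.Agent.Lib.ElusT.Neg Cfsg.Agent.Lib.ElusT.OddPos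
  Cfsg.Agent.Lib.QuadDisc.Basic Cfsg.Agent.Lib.QuadDisc.Classify

variable {F : Type u} [Field F] [Fintype F] {q r : ℕ} {V : Type v} [AddCommGroup V] [Module F V]
  [FiniteDimensional F V]

/-- Totally isotropic is totally singular in odd characteristic. -/
theorem ti_iff {Q : QuadraticForm F V} (h2 : (2 : F) ≠ 0) (W : Submodule F V) :
    TI (fun u v => polarBilin Q u v) W ↔ ∀ w ∈ W, Q w = 0 := by
  constructor
  · intro h w hw
    have h3 := h w hw w hw
    simp only at h3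
    rw [polar_self'] at h3
    exact (mul_eq_zero.mp h3).resolve_left h2
  · intro h u hu v hv
    change polar (⇑Q) u v = 0
    rw [polar, h _ (W.add_mem hu hv), h u hu, h v hv]
    simp

/-- The number of singular vectors of complements. -/
theorem card_compl_odd {Q : QuadraticForm F V} (hN : (polarBilin Q).Nondegenerate) (h2 : (2 : F) ≠ 0)
    (hq : Fintype.card F = q) {d m : ℕ} (hV : finrank F V = 2 * d + 1) (hmd : m ≤ d) :
    ∀ j < m, ∀ S C : Submodule F V, finrank F S = j → (∀ x ∈ S, Q x = 0) →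
      (∀ x ∈ S, ∀ y ∈ S, polarBilin Q x y = 0) →
      S ⊔ C = (fm_of_symm (polar_symm Q) hN).orth S → Disjoint S C →
      Nat.card {c : C // Q (c : V) = 0} = (fun j => q ^ (2 * (d - j))) j := by
  intro j hj S C hSd hS0 hS hsup hdisj
  have hS' := polar_symm Q
  have hCn := Cfsg.Agent.Lib.ElusT.Count.nd_compl hS' hN hS hsup hdisj
  have hCd := Cfsg.Agent.Lib.ElusT.Count.finrank_compl hS' hN hsup hdisj
  rw [hSd, hV] at hCd
  have h3 := card_sing_odd hq h2 (LinearMap.BilinForm.restrict (polarBilin Q) C) (restrict_nondeg hS' hCn)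
    (restrict_isSymm _ hS' _) (l := d - j) (by omega)
  simp only
  rw [← h3]
  apply Nat.card_congr
  apply Equiv.subtypeEquivRight
  intro c
  change Q (c : V) = 0 ↔ polarBilin Q (c : V) (c : V) = 0
  rw [polar_self']
  constructor
  · intro h
    rw [h, mul_zero]
  · intro h
    exact (mul_eq_zero.mp h).resolve_left h2

/-- A prime divisor of the number of totally singular subspaces in odd dimension. -/
theorem ts_dvd_odd {Q : QuadraticForm F V} (hN : (polarBilin Q).Nondegenerate) (h2 : (2 : F) ≠ 0)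
    (hq : Fintype.card F = q) {d m : ℕ} (hV : finrank F V = 2 * d + 1) (hmd : m ≤ d) (hr : r.Prime)
    (h : r ∣ Nat.card {W : Submodule F V // finrank F W = m ∧ ∀ w ∈ W, Q w = 0}) :
    ∃ j, j < m ∧ r ∣ q ^ (2 * (d - j)) - 1 :=
  Cfsg.Agent.Lib.ElusT.Count.ts_dvd (polar_symm Q) hN hq hr (card_compl_odd hN h2 hq hV hmd) h

/-- Models can be transported into odd-dimensional spaces. -/
theorem exists_conj_odd' {Q : QuadraticForm F V} (hN : (polarBilin Q).Nondegenerate) (h2 : (2 : F) ≠ 0)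
    (hodd : Odd (finrank F V)) {V' : Type w} [AddCommGroup V'] [Module F V'] [FiniteDimensional F V']
    {B' : LinearMap.BilinForm F V'} {T' : End F V'} (h' : Oz B' T' r) (hd : finrank F V' = finrank F V) :
    ∃ (T : End F V) (lam : F) (g : V ≃ₗ[F] V'), lam ≠ 0 ∧ Oz (polarBilin Q) T r ∧ (∀ x, g (T x) = T' (g x)) ∧
      (∀ x y, lam * B' (g x) (g y) = polarBilin Q x y) ∧
      ((∀ z : F, T' ≠ z • 1) → T ≠ 1) := by
  classical
  set G := LinearMap.BilinForm.toMatrix (finBasis F V') B' with hG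
  set G₀ := LinearMap.BilinForm.toMatrix (finBasis F V) (polarBilin Q) with hG₀
  have hdG : G.det ≠ 0 := (nondegenerate_iff_det (finBasis F V') B').mp h'.nondeg
  have hd₀ : G₀.det ≠ 0 := (nondegenerate_iff_det (finBasis F V) (polarBilin Q)).mp hN
  set lam : F := G.det * G₀.det with hlam
  have hlam0 : lam ≠ 0 := mul_ne_zero hdG hd₀
  have hN₁ : (lam • B').Nondegenerate := by
    have hrefl : (lam • B').IsRefl := by
      intro x y h
      have h3 : lam * B' x y = 0 := by simpa using h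
      have h4 := (mul_eq_zero.mp h3).resolve_left hlam0
      simp [h'.symm.eq y x, h4]
    refine (LinearMap.IsRefl.nondegenerate_iff_separatingLeft hrefl).2 ?_
    intro x hx
    apply h'.nondeg.1 x
    intro y
    have h3 : lam * B' x y = 0 := by simpa using hx y
    exact (mul_eq_zero.mp h3).resolve_left hlam0
  have hS₁ : (lam • B').IsSymm := ⟨fun x y => by
    simp [h'.symm.eq y x]⟩
  obtain ⟨k, hk⟩ := hodd
  obtain ⟨g, hg⟩ := exists_isometry h2 (polarBilin Q) (lam • B') hN hN₁ (polar_symm Q) hS₁ hd.symm (by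
    have h3 : LinearMap.BilinForm.toMatrix (finBasis F V') (lam • B') = lam • G := by
      rw [map_smul]
    rw [h3, Matrix.det_smul]
    simp only [Fintype.card_fin, hd, hk]
    refine ⟨lam ^ (k + 1), ?_⟩
    rw [← pow_add]
    have : k + 1 + (k + 1) = 2 * k + 1 + 1 := by ring
    rw [this, pow_succ lam (2 * k + 1)]
    simp only [hlam]
    ring)
  obtain ⟨T, hT, hTa, -, hT1⟩ := conj_of_equiv (polar_symm Q) hN (B₁ := lam • B') (T' := T') (r := r) g hg
    (fun u v => by
      simp only [LinearMap.smul_apply, h'.iso]) h'.pow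
  refine ⟨T, lam, g, hlam0, hT, hTa, ?_, hT1⟩
  intro x y
  rw [← hg x y]
  simp

/-- The forward direction. -/
theorem ts_forward {Q : QuadraticForm F V} (hN : (polarBilin Q).Nondegenerate) (h2 : (2 : F) ≠ 0)
    (hq : Fintype.card F = q) (hr : r.Prime) (hr2 : r ≠ 2) (hrF : (r : F) ≠ 0) (hrq : ¬ r ∣ q)
    {d m j : ℕ} (hV : finrank F V = 2 * d + 1) (hmd : m ≤ d) (hjm : j < m) (hj : r ∣ q ^ (2 * (d - j)) - 1)
    (hL : ∀ T : End F V, Oz (polarBilin Q) T r → T ≠ 1 →
      ∃ W : Submodule F V, TI (fun u v => polarBilin Q u v) W ∧ Inv T W ∧ finrank F W = m) :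
    orderOf (q : ZMod r) ≤ m ∧
      2 * (m % orderOf (q : ZMod r)) < (2 * d + 1) % cOf (orderOf (q : ZMod r)) ∧
      (Odd (orderOf (q : ZMod r)) ∨
        (r - 1) / orderOf (q : ZMod r) + 2 * (m / orderOf (q : ZMod r)) ≤ (2 * d + 1) / orderOf (q : ZMod r)) := by
  classical
  have hq1 : 1 ≤ q := by
    rw [← hq]
    exact Fintype.card_pos
  have hodd : Odd (finrank F V) := by
    rw [hV]
    exact ⟨d, rfl⟩
  have hid : orderOf (q : ZMod r) ∣ 2 * (d - j) := (ord_dvd_iff hq1 _).mpr hj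
  set i := orderOf (q : ZMod r) with hi
  have hipos : 0 < i := ord_pos hr hrq
  set c := cOf i with hc
  have hc0 : 0 < c := cOf_pos hipos
  have hce : Even c := even_cOf i
  have hcd : c ∣ 2 * (d - j) := by
    rw [hc]
    unfold cOf
    split_ifs with he
    · exact hid
    · rw [Nat.not_even_iff_odd] at he
      exact Nat.mul_dvd_mul_left 2 (he.coprime_two_right.dvd_of_dvd_mul_left hid)
  have hcle : c ≤ 2 * (d - j) := Nat.le_of_dvd (by omega) hcd
  have hdeg : ∀ g : F[X], Irreducible g → g ∣ Phi F r → g.natDegree = i :=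
    fun g hg hgd => natDegree_factor hq hr hrF hrq hg hgd
  set n := 2 * d + 1 with hn
  have hkpos : 0 < n / c := Nat.div_pos (by omega) hc0
  obtain ⟨V', i1, i2, i3, B', T', hOz, hf, hD, hNS⟩ := exists_max_model (F := F) hq hr hr2 hrF hrq (n % c) (n / c)
  obtain ⟨T, hT, hDT, hT1⟩ := exists_conj_odd hN h2 hodd hOz (by
    rw [hf, hV]
    exact Nat.mod_add_div _ _)
  obtain ⟨W, hTI, hInv, hWm⟩ := hL T hT (hT1 (hNS hkpos))
  have h1 := bound_tail hT.fm hT.isoF hrF hT.pow hr (d := i) hdeg hTI hInv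
  rw [hDT, hD, hWm] at h1
  have hpar : 2 * (m % i) ≠ n % c := by
    obtain ⟨a, ha⟩ := hce
    have h6 : (n % c) % 2 = n % 2 := by
      rw [ha, ← two_mul]
      exact Nat.mod_mul_right_mod _ _ _
    omega
  have hlt : 2 * (m % i) < n % c := lt_of_le_of_ne h1 hpar
  have hnj : n % c ≤ 2 * j + 1 := by
    have h3 : n = 2 * (d - j) + (2 * j + 1) := by omega
    rw [h3, Nat.add_mod, Nat.mod_eq_zero_of_dvd hcd, zero_add, Nat.mod_mod]
    exact Nat.mod_le _ _
  have hle : i ≤ m := by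
    by_contra hcon
    push Not at hcon
    rw [Nat.mod_eq_of_lt hcon] at hlt
    omega
  refine ⟨hle, hlt, ?_⟩
  by_cases ho : Odd i
  · exact Or.inl ho
  · right
    rw [Nat.not_odd_iff_even] at ho
    obtain ⟨e, he⟩ := ho
    have hi2 : orderOf (q : ZMod r) = 2 * e := by omega
    have he0 : 0 < e := by omega
    by_contra hbig
    push Not at hbig
    have hi3 : i = 2 * e := hi2
    rw [hi3] at hbig hle
    obtain ⟨V₁, j1, j2, j3, B₁, T₁, hOz₁, hf₁, hNS₁, hno⟩ := exists_beta' (n := n) (m := m) hq hr hr2 hrF hrq hi2 he0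
      (by omega) hle hbig
    obtain ⟨T₂, lam, g, hlam, hT₂, hTa, hg, hT₂1⟩ := exists_conj_odd' hN h2 hodd hOz₁ (by rw [hf₁, hV])
    obtain ⟨W₂, hW₂TI, hW₂i, hW₂m⟩ := hL T₂ hT₂ (hT₂1 hNS₁)
    refine hno (W₂.map (g : V →ₗ[F] V₁)) ?_ ?_ ?_
    · rintro _ ⟨x, hx, rfl⟩ _ ⟨y, hy, rfl⟩
      have h5 := hg x y
      have h7 : polarBilin Q x y = 0 := hW₂TI x hx y hy
      rw [h7] at h5
      exact (mul_eq_zero.mp h5).resolve_left hlam
    · rintro _ ⟨x, hx, rfl⟩
      refine ⟨T₂ x, hW₂i x hx, ?_⟩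
      exact hTa x
    · rw [LinearEquiv.finrank_map_eq, hW₂m]

/-- The backward direction. -/
theorem ts_backward {B : LinearMap.BilinForm F V} {T : End F V} (hT : Oz B T r) (h2 : (2 : F) ≠ 0)
    (hq : Fintype.card F = q) (hr : r.Prime) (hr2 : r ≠ 2) (hrF : (r : F) ≠ 0) (hrq : ¬ r ∣ q)
    {n m : ℕ} (hV : finrank F V = n) (hmd : 2 * m < n)
    (hmod : 2 * (m % orderOf (q : ZMod r)) < n % cOf (orderOf (q : ZMod r)))
    (hb : Odd (orderOf (q : ZMod r)) ∨
      (r - 1) / orderOf (q : ZMod r) + 2 * (m / orderOf (q : ZMod r)) ≤ n / orderOf (q : ZMod r)) :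
    ∃ W : Submodule F V, TI (fun u v => B u v) W ∧ Inv T W ∧ finrank F W = m := by
  subst hV
  by_cases ho : Odd (orderOf (q : ZMod r))
  · have hc : cOf (orderOf (q : ZMod r)) = 2 * orderOf (q : ZMod r) := by
      unfold cOf
      rw [if_neg (Nat.not_even_iff_odd.mpr ho)]
    rw [hc] at hmod
    exact pos_odd' hT h2 hq hr hr2 hrF hrq ho hmd hmod
  · have hc : cOf (orderOf (q : ZMod r)) = orderOf (q : ZMod r) := by
      unfold cOf
      rw [if_pos (Nat.not_odd_iff_even.mp ho)]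
    rw [hc] at hmod
    rcases hb with h | h
    · exact absurd h ho
    · exact pos_even' hT h2 hq hr hr2 hrF hrq hmod h

end Cfsg.Agent.Lib.ElusT.OddTS
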