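import Cfsg.Agent.Lib.ElusT.QFw

/-!
# Invariant totally singular subspaces of quadratic spaces: sufficient conditions
-/

set_option autoImplicit false
set_option linter.unusedSectionVars false
set_option linter.style.haveILetI false
set_option linter.unusedVariables false
set_option linter.unusedSimpArgs false

open Polynomial Module QuadraticMap

universe u v w

namespace Cfsg.Agent.Lib.ElusT.QBk

open Cfsg Cfsg.Agent.Lib.ElusL.Basic Cfsg.Agent.Lib.ElusL.Cyc Cfsg.Agent.Lib.ElusL.Flag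
  Cfsg.Agent.Lib.ElusF.Form Cfsg.Agent.Lib.ElusF.Step Cfsg.Agent.Lib.ElusF.Split Cfsg.Agent.Lib.ElusF.SpNeg
  Cfsg.Agent.Lib.ElusF.SpModel
  Cfsg.Agent.Lib.ElusQ.Oz Cfsg.Agent.Lib.ElusQ.Pos Cfsg.Agent.Lib.ElusQ.Syl Cfsg.Agent.Lib.ElusQ.Disc
  Cfsg.Agent.Lib.ElusT.QType Cfsg.Agent.Lib.ElusT.QK1 Cfsg.Agent.Lib.ElusT.QModel Cfsg.Agent.Lib.ElusT.Count
  Cfsg.Agent.Lib.ElusT.QTS Cfsg.Agent.Lib.ElusT.QFw

theorem aux_w0 (Hy τ A B : Prop) (h1 : Hy ↔ (τ ↔ B)) (hAB : A ↔ B) : Hy ↔ (A ↔ τ) := by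
  tauto

theorem aux_w1 (Hy τ A B : Prop) (h1 : Hy ↔ (τ ↔ B)) (hAB : A ↔ ¬ B) : Hy ↔ ¬ (A ↔ τ) := by
  tauto

/-- The arithmetic of the even case. -/
theorem arith_back {e k₀ l m' u n₁ n' t : ℕ} {Hy τ : Prop} (he : 0 < e) (hk : k₀ < e) (hl : l < 2 * e)
    (hn' : n' = u + n₁) (hD : t + 2 * m' ≤ n')
    (hc : ((Even n' ↔ τ) ∧ 2 * l ≤ 2 * k₀) ∨ (¬ (Even n' ↔ τ) ∧ 0 < k₀ ∧ 2 * l < 2 * k₀) ∨
      (¬ (Even n' ↔ τ) ∧ k₀ = 0 ∧ 2 * l ≤ 2 * e ∧ t + 2 * m' < n'))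
    (hHy : Hy ↔ (τ ↔ Even n₁)) (hz : k₀ + e * u = 0 → Hy) :
    ∃ s x, m' = s + x ∧ (s = 0 ∨ 2 * (s - 1) + t < n₁) ∧
      ((Hy ∧ 2 * e * x + l ≤ k₀ + e * u) ∨ 2 * e * x + l + 1 ≤ k₀ + e * u) := by
  set S := (n₁ + 1 - t) / 2 with hS
  obtain ⟨s, x, w', hm', hu, hs, hcase⟩ : ∃ s x w', m' = s + x ∧ u = 2 * x + w' ∧ (s = 0 ∨ 2 * (s - 1) + t < n₁) ∧
      ((x = 0 ∧ w' = u) ∨ (2 * (m' - x) + t ≥ n₁)) := by
    by_cases hmin : m' ≤ S
    · refine ⟨m', 0, u, by omega, by omega, ?_, Or.inl ⟨rfl, rfl⟩⟩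
      omega
    · refine ⟨S, m' - S, u - 2 * (m' - S), by omega, by omega, ?_, Or.inr ?_⟩ <;> omega
  refine ⟨s, x, hm', hs, ?_⟩
  have hmul : e * u = 2 * e * x + e * w' := by
    rw [hu]
    ring
  have hev : Even n' ↔ (Even w' ↔ Even n₁) := by
    rw [hn', hu, Nat.even_add, Nat.even_add]
    simp
  rcases Nat.lt_or_ge w' 2 with hw | hw
  · obtain h0 | h1 : w' = 0 ∨ w' = 1 := by omega
    · subst h0
      have hHyAl : Hy ↔ (Even n' ↔ τ) := aux_w0 Hy τ _ _ hHy (by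
        rw [hev]
        simp)
      rw [hmul, mul_zero, add_zero]
      rcases hc with ⟨h1, h3⟩ | ⟨h1, h3, h4⟩ | ⟨h1, h3, h4, h5⟩
      · left
        exact ⟨hHyAl.mpr h1, by omega⟩
      · right
        omega
      · exfalso
        rcases hcase with ⟨h6, h7⟩ | h6
        · subst h6
          have h8 : u = 0 := by omega
          apply h1
          apply hHyAl.mp
          apply hz
          rw [h8, h3]
          simp
        · omega
    · subst h1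
      have hHyAl : Hy ↔ ¬ (Even n' ↔ τ) := aux_w1 Hy τ _ _ hHy (by
        rw [hev]
        simp)
      rw [hmul, mul_one]
      rcases hc with ⟨h1, h3⟩ | ⟨h1, h3, h4⟩ | ⟨h1, h3, h4, h5⟩
      · right
        omega
      · left
        exact ⟨hHyAl.mpr h1, by omega⟩
      · left
        exact ⟨hHyAl.mpr h1, by omega⟩
  · right
    have h1 : e * 2 ≤ e * w' := Nat.mul_le_mul_left e hw
    omega

variable {F : Type u} [Field F] [Fintype F] {q r : ℕ} {V : Type v} [AddCommGroup V] [Module F V]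
  [FiniteDimensional F V] {Q : QuadraticForm F V} {T : End F V}

/-- Sufficient conditions for even order. -/
theorem backward_even (h : Mz Q T r) (hq : Fintype.card F = q) (hr : r.Prime) (hr2 : r ≠ 2)
    (hrF : (r : F) ≠ 0) (hrq : ¬ r ∣ q) {e : ℕ} (hi : orderOf (q : ZMod r) = 2 * e) (he : 0 < e) {m d : ℕ}
    (hV : finrank F V = 2 * d) {τ : Prop} (hτ : HyQ Q ↔ τ)
    (hD : (r - 1) / (2 * e) + 2 * (m / (2 * e)) ≤ d / e)
    (hc : ((Even (d / e) ↔ τ) ∧ 2 * (m % (2 * e)) ≤ 2 * (d % e)) ∨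
        (¬ (Even (d / e) ↔ τ) ∧ 0 < d % e ∧ 2 * (m % (2 * e)) < 2 * (d % e)) ∨
        (¬ (Even (d / e) ↔ τ) ∧ d % e = 0 ∧ 2 * (m % (2 * e)) ≤ 2 * e ∧
          (r - 1) / (2 * e) + 2 * (m / (2 * e)) < d / e)) :
    ∃ W : Submodule F V, (∀ w ∈ W, Q w = 0) ∧ Inv T W ∧ finrank F W = m := by
  haveI : Fact r.Prime := ⟨hr⟩
  have h2e : 0 < 2 * e := by omega
  have hde := Nat.div_add_mod d e
  set n' := d / e with hn'
  set k₀ := d % e with hk₀
  have hk₀lt : k₀ < e := Nat.mod_lt _ he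
  have hmm := Nat.div_add_mod m (2 * e)
  set m' := m / (2 * e) with hm'
  set l := m % (2 * e) with hl
  have hllt : l < 2 * e := Nat.mod_lt _ h2e
  obtain ⟨n₁, hn₁⟩ : 2 * e ∣ finrank F (K1 T r) := by
    have := i_dvd hq hr hrF hrq (inv_ker T _) (le_rfl : K1 T r ≤ K1 T r)
    rwa [hi] at this
  obtain ⟨t, ht⟩ : 2 * e ∣ r - 1 := by
    have := ZMod.orderOf_dvd_card_sub_one (a := (q : ZMod r)) (natCast_q_ne_zero hrq)
    rwa [hi] at this
  have ht' : (r - 1) / (2 * e) = t := by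
    rw [ht]
    exact Nat.mul_div_cancel_left t h2e
  rw [ht'] at hD hc
  have hsum := finrank_K h.oz hrF
  have hn₁le : n₁ ≤ n' := by
    by_contra hcon
    have h1 : n' + 1 ≤ n₁ := by omega
    have h3 : 2 * e * (n' + 1) ≤ 2 * e * n₁ := Nat.mul_le_mul_left _ h1
    have h4 : 2 * e * (n' + 1) = 2 * (e * n') + 2 * e := by ring
    omega
  obtain ⟨u, hu⟩ : ∃ u, n' = u + n₁ := ⟨n' - n₁, by omega⟩
  have hK0 : finrank F (K0 T) = 2 * (k₀ + e * u) := by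
    have h1 : 2 * e * n₁ = 2 * (e * n₁) := by ring
    have h3 : e * n' = e * u + e * n₁ := by
      rw [hu]
      ring
    omega
  have hHy : HyS Q (K0 T) ↔ (τ ↔ Even n₁) := by
    rw [hyS_K0_even h hq hr hr2 hrF hrq hi he hV hn₁, hτ]
  obtain ⟨s, x, hmx, hs, hcap⟩ := arith_back (Hy := HyS Q (K0 T)) he hk₀lt hllt hu hD hc hHy (fun h0 => by
    refine ⟨⊥, bot_le, fun w hw => ?_, ?_⟩
    · rw [(Submodule.mem_bot F).mp hw, map_zero]
    · rw [finrank_bot, hK0, h0])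
  obtain ⟨W₁, h1, h3, h4, h5⟩ := K1_large_q h.oz hq hr hr2 hrF hrq (s := s) (by
    rcases hs with h0 | h0
    · exact Or.inl h0
    · right
      rw [hi, hn₁, ht]
      have h6 : 2 * e * (2 * (s - 1)) + 2 * e * t < 2 * e * n₁ := by
        rw [← mul_add]
        exact Nat.mul_lt_mul_of_pos_left h0 h2e
      have h7 : 2 * (2 * e) * (s - 1) = 2 * e * (2 * (s - 1)) := by ring
      omega)
  rw [hi] at h5
  have hW₁ := ts_of_ti h hrF h1 h3 h4
  obtain ⟨W₀, h6, h7, h8⟩ := exists_ts_sub (nd_K0 h.oz hrF) hK0 (t := 2 * e * x + l) (by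
    rcases hcap with ⟨h9, h10⟩ | h9
    · exact Or.inl ⟨h9, h10⟩
    · exact Or.inr h9)
  obtain ⟨h9, h10, h11⟩ := combine_q h.oz hrF h6 h1 h7 hW₁ h4
  refine ⟨W₀ ⊔ W₁, h9, h10, ?_⟩
  rw [h11, h8, h5, ← hmm, hmx]
  ring

/-- Sufficient conditions for odd order. -/
theorem backward_odd (h : Mz Q T r) (hq : Fintype.card F = q) (hr : r.Prime) (hr2 : r ≠ 2)
    (hrF : (r : F) ≠ 0) (hrq : ¬ r ∣ q) (hi : Odd (orderOf (q : ZMod r))) {m d : ℕ}
    (hV : finrank F V = 2 * d) {τ : Prop} (hτ : HyQ Q ↔ τ) (hmd : m < d)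
    (hc1 : τ → 2 * (m % orderOf (q : ZMod r)) ≤ 2 * (d % orderOf (q : ZMod r)))
    (hc2 : ¬ τ → d % orderOf (q : ZMod r) = 0 ∨ 2 * (m % orderOf (q : ZMod r)) < 2 * (d % orderOf (q : ZMod r))) :
    ∃ W : Submodule F V, (∀ w ∈ W, Q w = 0) ∧ Inv T W ∧ finrank F W = m := by
  set i := orderOf (q : ZMod r) with hidef
  have hipos : 0 < i := hi.pos
  have hrO := hr.odd_of_ne_two hr2
  have hde := Nat.div_add_mod d i
  set n' := d / i with hn'
  set k₀ := d % i with hk₀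
  have hk₀lt : k₀ < i := Nat.mod_lt _ hipos
  have hmm := Nat.div_add_mod m i
  set m' := m / i with hm'
  set l := m % i with hl
  have hllt : l < i := Nat.mod_lt _ hipos
  have hd := c_dvd_q h.oz hq hr hrO hrF hrq (nd_K1 h.oz hrF) (inv_ker T _) le_rfl
  rw [show cOf (orderOf (q : ZMod r)) = 2 * i by
    unfold cOf
    rw [if_neg (Nat.not_even_iff_odd.mpr hi)]] at hd
  obtain ⟨s₁, hs₁⟩ := hd
  have hsum := finrank_K h.oz hrF
  have hs₁le : s₁ ≤ n' := by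
    by_contra hcon
    have h1 : n' + 1 ≤ s₁ := by omega
    have h3 : 2 * i * (n' + 1) ≤ 2 * i * s₁ := Nat.mul_le_mul_left _ h1
    have h4 : 2 * i * (n' + 1) = 2 * (i * n') + 2 * i := by ring
    omega
  obtain ⟨y, hy⟩ : ∃ y, n' = y + s₁ := ⟨n' - s₁, by omega⟩
  have hK0 : finrank F (K0 T) = 2 * (k₀ + i * y) := by
    have h1 : 2 * i * s₁ = 2 * (i * s₁) := by ring
    have h3 : i * n' = i * y + i * s₁ := by
      rw [hy]
      ring
    omega
  have hHy : HyS Q (K0 T) ↔ τ := by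
    rw [hyS_K0_odd h hq hr hrO hrF hrq hi hV, hτ]
  set s := min m' s₁ with hs
  have hss₁ : s ≤ s₁ := min_le_right _ _
  have hsm' : s ≤ m' := min_le_left _ _
  have hle₁ : i * s ≤ i * s₁ := Nat.mul_le_mul_left i hss₁
  have hle₂ : i * s ≤ i * m' := Nat.mul_le_mul_left i hsm'
  obtain ⟨W₁, h1, h3, h4, h5⟩ := K1_odd_q h.oz hq hr hrO hrF hrq hi le_rfl (nd_K1 h.oz hrF) (inv_ker T _) (s := s) (by
    rw [← hidef, hs₁]
    have h6 : 2 * i * s₁ = 2 * (i * s₁) := by ring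
    omega)
  rw [← hidef] at h5
  have hW₁ := ts_of_ti h hrF h1 h3 h4
  have hcap : (HyS Q (K0 T) ∧ m - i * s ≤ k₀ + i * y) ∨ m - i * s + 1 ≤ k₀ + i * y := by
    have h6 : i * n' = i * y + i * s₁ := by
      rw [hy]
      ring
    by_cases hmin : m' ≤ s₁
    · have hsm : s = m' := min_eq_left hmin
      rw [hsm]
      by_cases hτ' : τ
      · left
        exact ⟨hHy.mpr hτ', by have := hc1 hτ'; omega⟩
      · right
        rcases hc2 hτ' with h7 | h7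
        · have hy0 : y ≠ 0 := by
            rintro rfl
            apply hτ'
            apply hHy.mp
            refine ⟨⊥, bot_le, fun w hw => ?_, ?_⟩
            · rw [(Submodule.mem_bot F).mp hw, map_zero]
            · rw [finrank_bot, hK0, h7]
              simp
          have h8 : i * 1 ≤ i * y := Nat.mul_le_mul_left i (by omega)
          omega
        · omega
    · have hsm : s = s₁ := min_eq_right (by omega)
      rw [hsm]
      right
      have : i * s₁ ≤ m := by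
        have h8 : i * s₁ ≤ i * m' := Nat.mul_le_mul_left i (by omega)
        omega
      omega
  obtain ⟨W₀, h6, h7, h8⟩ := exists_ts_sub (nd_K0 h.oz hrF) hK0 (t := m - i * s) hcap
  obtain ⟨h9, h10, h11⟩ := combine_q h.oz hrF h6 h1 h7 hW₁ h4
  refine ⟨W₀ ⊔ W₁, h9, h10, ?_⟩
  rw [h11, h8, h5]
  omega

end Cfsg.Agent.Lib.ElusT.QBk
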