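import Cfsg.Agent.Lib.ElusT.QTS
import Cfsg.Agent.Lib.ElusT.Neg

/-!
# Invariant totally singular subspaces of quadratic spaces: necessary conditions
-/

set_option autoImplicit false
set_option linter.unusedSectionVars false
set_option linter.style.haveILetI false
set_option linter.unusedVariables false
set_option linter.unusedSimpArgs false

open Polynomial Module QuadraticMap

universe u v w

namespace Cfsg.Agent.Lib.ElusT.QFw

open Cfsg Cfsg.Agent.Lib.ElusL.Basic Cfsg.Agent.Lib.ElusL.Cyc Cfsg.Agent.Lib.ElusL.Flag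
  Cfsg.Agent.Lib.ElusF.Form Cfsg.Agent.Lib.ElusF.Step Cfsg.Agent.Lib.ElusF.Split Cfsg.Agent.Lib.ElusF.SpNeg
  Cfsg.Agent.Lib.ElusF.SpModel
  Cfsg.Agent.Lib.ElusQ.Oz Cfsg.Agent.Lib.ElusQ.Pos Cfsg.Agent.Lib.ElusQ.Syl Cfsg.Agent.Lib.ElusQ.Disc
  Cfsg.Agent.Lib.ElusT.Neg
  Cfsg.Agent.Lib.ElusT.QType Cfsg.Agent.Lib.ElusT.QK1 Cfsg.Agent.Lib.ElusT.QModel Cfsg.Agent.Lib.ElusT.Count
  Cfsg.Agent.Lib.ElusT.QTS

variable {F : Type u} [Field F] [Fintype F] {q r : ℕ} {V : Type v} [AddCommGroup V] [Module F V]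
  [FiniteDimensional F V] {Q : QuadraticForm F V} {T : End F V}

/-- The hypothesis on models. -/
def MP (F : Type u) [Field F] [Fintype F] (r m d : ℕ) (τ : Prop) : Prop :=
  ∀ (V : Type u) (_ : AddCommGroup V) (_ : Module F V) (_ : FiniteDimensional F V) (Q : QuadraticForm F V)
    (T : End F V), Mz Q T r → finrank F V = 2 * d → (HyQ Q ↔ τ) → (∀ z : F, T ≠ z • 1) →
    ∃ W : Submodule F V, (∀ w ∈ W, Q w = 0) ∧ Inv T W ∧ finrank F W = m

theorem mp_of_target (hN : (polarBilin Q).Nondegenerate) {d m : ℕ} (hV : finrank F V = 2 * d) {τ : Prop}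
    (hτ : HyQ Q ↔ τ)
    (hL : ∀ T : End F V, Mz Q T r → T ≠ 1 → ∃ W : Submodule F V, (∀ w ∈ W, Q w = 0) ∧ Inv T W ∧ finrank F W = m) :
    MP F r m d τ := by
  intro V' _ _ _ Q' T' hM hf hty hNS
  obtain ⟨T, g, hT, hTa, hg, hT1⟩ := model_transport hN hM hf hV (hty.trans hτ.symm)
  obtain ⟨W, hW, hInv, hWm⟩ := hL T hT (hT1 hNS)
  refine ⟨W.map (g : V →ₗ[F] V'), ?_, ?_, ?_⟩
  · rintro _ ⟨w, hw, rfl⟩
    change Q' (g w) = 0
    rw [hg]
    exact hW w hw
  · rintro _ ⟨w, hw, rfl⟩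
    refine ⟨T w, hInv w hw, ?_⟩
    exact hTa w
  · rw [LinearEquiv.finrank_map_eq, hWm]

/-- Splitting an invariant totally singular subspace. -/
theorem W_split (h : Mz Q T r) (hq : Fintype.card F = q) (hr : r.Prime) (hrF : (r : F) ≠ 0) (hrq : ¬ r ∣ q)
    {W : Submodule F V} (hW : ∀ w ∈ W, Q w = 0) (hInv : Inv T W) :
    ∃ y, finrank F W = finrank F (W ⊓ K0 T : Submodule F V) + orderOf (q : ZMod r) * y ∧
      2 * finrank F (W ⊓ K0 T : Submodule F V) ≤ finrank F (K0 T) ∧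
      (2 * finrank F (W ⊓ K0 T : Submodule F V) = finrank F (K0 T) → HyS Q (K0 T)) := by
  have h1 := split01 hrF h.oz.pow hInv
  have h3 : Inv T (W ⊓ K1 T r) := h.oz.fm.inv_inf hInv (inv_ker T _)
  obtain ⟨y, hy⟩ := i_dvd hq hr hrF hrq h3 inf_le_right
  refine ⟨y, ?_, ?_, ?_⟩
  · rw [h1.2, hy]
  · exact h.oz.fm.two_mul_finrank_le (nd_K0 h.oz hrF) inf_le_right
      (fun u hu v hv => ti_of_ts hW u hu.1 v hv.1)
  · intro h4
    exact ⟨W ⊓ K0 T, inf_le_right, fun w hw => hW w hw.1, h4⟩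

/-- The type of the fixed part, degree even. -/
theorem hyS_K0_even (h : Mz Q T r) (hq : Fintype.card F = q) (hr : r.Prime) (hr2 : r ≠ 2) (hrF : (r : F) ≠ 0)
    (hrq : ¬ r ∣ q) {e d n₁ : ℕ} (hi : orderOf (q : ZMod r) = 2 * e) (he : 0 < e) (hV : finrank F V = 2 * d)
    (hK : finrank F (K1 T r) = 2 * e * n₁) :
    HyS Q (K0 T) ↔ (HyQ Q ↔ Even n₁) := by
  have hsum := finrank_K h.oz hrF
  have h1 := hyS_even h hq hr hr2 hrF hrq hi he le_rfl (nd_K1 h.oz hrF) (inv_ker T _) hK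
  have hb : finrank F (K1 T r) = 2 * (e * n₁) := by
    rw [hK]
    ring
  have h3 := hyQ_K h.oz hq hrF (a := d - e * n₁) (b := e * n₁) (by omega) hb
  rw [h3, h1]
  tauto

/-- The type of the fixed part, degree odd. -/
theorem hyS_K0_odd (h : Mz Q T r) (hq : Fintype.card F = q) (hr : r.Prime) (hrO : Odd r) (hrF : (r : F) ≠ 0)
    (hrq : ¬ r ∣ q) (hi : Odd (orderOf (q : ZMod r))) {d : ℕ} (hV : finrank F V = 2 * d) :
    HyS Q (K0 T) ↔ HyQ Q := by
  have hsum := finrank_K h.oz hrF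
  have h1 := hyS_odd h hq hr hrO hrF hrq hi le_rfl (nd_K1 h.oz hrF) (inv_ker T _)
  obtain ⟨b, hb⟩ := two_dvd_q h.oz hrO hrF (nd_K1 h.oz hrF) (inv_ker T _) le_rfl
  have h3 := hyQ_K h.oz hq hrF (a := d - b) (b := b) (by omega) hb
  rw [h3]
  tauto

/-- Replicated models. -/
theorem fw_rep {m d : ℕ} {τ : Prop} (hM : MP F r m d τ) (hq : Fintype.card F = q) (hr : r.Prime) (hr2 : r ≠ 2)
    (hrF : (r : F) ≠ 0) (hrq : ¬ r ∣ q) {e : ℕ} (hi : orderOf (q : ZMod r) = 2 * e) (he : 0 < e) {a₀ N : ℕ}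
    (hN : 0 < N) (hdim : a₀ + e * N = d) (hτ : a₀ = 0 → (τ ↔ Even N)) :
    ∃ t₀ y, m = t₀ + 2 * e * y ∧ t₀ ≤ a₀ ∧ (t₀ = a₀ → (τ ↔ Even N)) := by
  classical
  obtain ⟨S, hS, hprod, hcard⟩ := exists_factors hq hr hrF hrq
  rw [hi] at hS hcard
  have hSpos : 0 < S.card := by
    rcases Nat.eq_zero_or_pos S.card with h0 | h0
    · rw [h0, zero_mul] at hcard
      have := hr.two_le
      omega
    · exact h0
  obtain ⟨g₀, hg₀⟩ := Finset.card_pos.mp hSpos
  obtain ⟨V', _, _, _, Q', T', hMz, hf, hD, hDh, hNS, hty⟩ := qmodel_even hq hr hr2 hrF hrq hi he a₀ (τ ↔ Even N) hτ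
    (List.replicate N g₀) (fun g hg => by
      rw [List.eq_of_mem_replicate hg]
      exact hS g₀ hg₀)
  rw [List.length_replicate] at hf hty
  have hty' : HyQ Q' ↔ τ := by
    rw [hty]
    tauto
  obtain ⟨W, hW, hInv, hWm⟩ := hM V' _ _ inferInstance Q' T' hMz (by
      rw [hf, ← hdim]
      ring) hty' (hNS (by
      intro h0
      have := congrArg List.length h0
      simp at this
      omega))
  obtain ⟨y, h1, h3, h4⟩ := W_split hMz hq hr hrF hrq hW hInv
  have hK0 : finrank F (K0 T') = 2 * a₀ := hD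
  have hK1 : finrank F (K1 T' r) = 2 * e * N := by
    have hsum := finrank_K hMz.oz hrF
    omega
  have h5 := hyS_K0_even hMz hq hr hr2 hrF hrq hi he (d := d) (by
    rw [hf, ← hdim]
    ring) hK1
  refine ⟨finrank F (W ⊓ K0 T' : Submodule F V'), y, ?_, by omega, ?_⟩
  · rw [← hWm, h1, hi]
  · intro h6
    have h7 := h5.mp (h4 (by omega))
    rw [hty'] at h7
    exact h7

/-- Models with many different factors. -/
theorem fw_beta {m d : ℕ} {τ : Prop} (hM : MP F r m d τ) (hq : Fintype.card F = q) (hr : r.Prime) (hr2 : r ≠ 2)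
    (hrF : (r : F) ≠ 0) (hrq : ¬ r ∣ q) {e : ℕ} (hi : orderOf (q : ZMod r) = 2 * e) (he : 0 < e) {a₀ N : ℕ}
    (hN : 0 < N) (hdim : a₀ + e * N = d) (hτ : a₀ = 0 → (τ ↔ Even N)) (hpar : Even (N + (r - 1) / (2 * e)))
    (ht₀ : ∀ t₀, t₀ ≤ a₀ → (t₀ = a₀ → (τ ↔ Even N)) → t₀ < 2 * e) :
    2 * (m / (2 * e)) ≤ N - (r - 1) / (2 * e) := by
  classical
  obtain ⟨S, hS, hprod, hcard⟩ := exists_factors hq hr hrF hrq
  rw [hi] at hS hcard
  have h2e : 0 < 2 * e := by omega
  have hSpos : 0 < S.card := by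
    rcases Nat.eq_zero_or_pos S.card with h0 | h0
    · rw [h0, zero_mul] at hcard
      have := hr.two_le
      omega
    · exact h0
  obtain ⟨g₀, hg₀⟩ := Finset.card_pos.mp hSpos
  have hrq' := dvd_pow_add_one (q := q) hr hi he
  set t := S.card with ht
  have htdiv : (r - 1) / (2 * e) = t := by
    rw [← hcard, Nat.mul_div_cancel _ h2e]
  rw [htdiv] at hpar ⊢
  let L := S.toList
  have hLnd : L.Nodup := S.nodup_toList
  have hLmem : ∀ g, g ∈ L ↔ g ∈ S := fun g => Finset.mem_toList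
  have hLlen : L.length = t := Finset.length_toList S
  let l := L.take N ++ List.replicate (N - t) g₀
  have hllen : l.length = N := by
    simp only [l, List.length_append, List.length_take, List.length_replicate, hLlen]
    omega
  have hlmem : ∀ g ∈ l, g ∈ S := by
    intro g hg
    rcases List.mem_append.mp hg with h1 | h1
    · exact (hLmem g).mp (List.mem_of_mem_take h1)
    · rw [List.eq_of_mem_replicate h1]
      exact hg₀
  obtain ⟨V', _, _, _, Q', T', hMz, hf, hD, hDh, hNS, hty⟩ := qmodel_even hq hr hr2 hrF hrq hi he a₀ (τ ↔ Even N) hτ l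
    (fun g hg => hS g (hlmem g hg))
  rw [hllen] at hf hty
  have hty' : HyQ Q' ↔ τ := by
    rw [hty]
    tauto
  obtain ⟨W, hW, hInv, hWm⟩ := hM V' _ _ inferInstance Q' T' hMz (by
      rw [hf, ← hdim]
      ring) hty' (hNS (by
      intro h0
      have := congrArg List.length h0
      rw [hllen] at this
      simp at this
      omega))
  have hK0 : finrank F (K0 T') = 2 * a₀ := hD
  have hK1 : finrank F (K1 T' r) = 2 * e * N := by
    have hsum := finrank_K hMz.oz hrF
    omega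
  have h5 := hyS_K0_even hMz hq hr hr2 hrF hrq hi he (d := d) (by
    rw [hf, ← hdim]
    ring) hK1
  -- decomposing
  have hTI := ti_of_ts hW
  have h1 := split01 hrF hMz.oz.pow hInv
  set t₀ := finrank F (W ⊓ K0 T' : Submodule F V') with ht₀def
  have ht₀2 : 2 * t₀ ≤ 2 * a₀ := by
    rw [← hK0]
    exact hMz.oz.fm.two_mul_finrank_le (nd_K0 hMz.oz hrF) inf_le_right
      (fun u hu v hv => hTI u hu.1 v hv.1)
  have ht₀h : t₀ = a₀ → (τ ↔ Even N) := by
    intro h6
    have h7 : HyS Q' (K0 T') := ⟨W ⊓ K0 T', inf_le_right, fun w hw => hW w hw.1, by omega⟩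
    have h8 := h5.mp h7
    rw [hty'] at h8
    exact h8
  have ht₀lt := ht₀ t₀ (by omega) ht₀h
  have hcop : ∀ g ∈ S, ∀ k ∈ S, g ≠ k → IsCoprime g k := by
    intro g hg k hk hne
    obtain ⟨hgi, hgm, -⟩ := hS g hg
    obtain ⟨hki, hkm, -⟩ := hS k hk
    refine hgi.coprime_iff_not_dvd.mpr ?_
    intro hd
    exact hne (Polynomial.eq_of_monic_of_associated hgm hkm (hgi.associated_of_dvd hki hd))
  have h3 := finrank_sum_factors hInv S hcop
  rw [hprod] at h3
  have hdvd : ∀ g ∈ S, 2 * e ∣ finrank F (W ⊓ LinearMap.ker (Polynomial.aeval T' g) : Submodule F V') := by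
    intro g hg
    obtain ⟨hgi, -, -, -, hd⟩ := hS g hg
    rw [← hd]
    exact natDegree_dvd_inf hgi hInv
  let w : F[X] → ℕ := fun g => finrank F (W ⊓ LinearMap.ker (Polynomial.aeval T' g) : Submodule F V') / (2 * e)
  have hwd : ∀ g ∈ S, 2 * e * w g = finrank F (W ⊓ LinearMap.ker (Polynomial.aeval T' g) : Submodule F V') :=
    fun g hg => Nat.mul_div_cancel' (hdvd g hg)
  have hWsum : m = t₀ + 2 * e * ∑ g ∈ S, w g := by
    rw [← hWm, h1.2, h3, Finset.mul_sum]
    congr 1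
    exact Finset.sum_congr rfl (fun g hg => (hwd g hg).symm)
  have hbound : ∀ g ∈ S, 2 * (2 * e * w g) ≤ Dk T' g := by
    intro g hg
    rw [hwd g hg]
    exact bound_fac' hMz.oz hq hr.ne_zero hrF hrq' (hS g hg).2.2.1 hTI
  have hcount : ∀ g ∈ S, 2 * w g ≤ l.count g := by
    intro g hg
    have h4 := hbound g hg
    obtain ⟨hgi, hgm, hgr, hg1, hgd⟩ := hS g hg
    rw [hDh g hgm hgi hg1] at h4
    have h5 : 2 * e * (2 * w g) ≤ 2 * e * l.count g := by
      calc 2 * e * (2 * w g) = 2 * (2 * e * w g) := by ring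
        _ ≤ _ := h4
    exact Nat.le_of_mul_le_mul_left h5 h2e
  have hcount1 : ∀ g ∈ S, g ≠ g₀ → w g = 0 := by
    intro g hg hne
    have h4 := hcount g hg
    have h5 : l.count g ≤ 1 := by
      simp only [l, List.count_append]
      have h6 : (L.take N).count g ≤ 1 :=
        List.nodup_iff_count_le_one.mp (hLnd.sublist (List.take_sublist _ _)) g
      have h7 : (List.replicate (N - t) g₀).count g = 0 := by
        rw [List.count_replicate]
        simp [Ne.symm hne]
      omega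
    omega
  have hcount0 : l.count g₀ ≤ 1 + (N - t) := by
    simp only [l, List.count_append]
    have h6 : (L.take N).count g₀ ≤ 1 :=
      List.nodup_iff_count_le_one.mp (hLnd.sublist (List.take_sublist _ _)) g₀
    have h7 : (List.replicate (N - t) g₀).count g₀ = N - t := by
      simp
    omega
  have hsum1 : ∑ g ∈ S, w g = w g₀ := Finset.sum_eq_single g₀
    (fun g hg hne => hcount1 g hg hne) (fun h => absurd hg₀ h)
  rw [hsum1] at hWsum
  have h8 := hcount g₀ hg₀
  have hmdiv : m / (2 * e) = w g₀ := by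
    rw [hWsum, Nat.add_mul_div_left _ _ h2e, Nat.div_eq_of_lt ht₀lt, zero_add]
  rw [hmdiv]
  rw [Nat.even_iff] at hpar
  omega

/-- Divisors of `q ^ x - 1`, even order. -/
theorem cnt_minus_even {e x : ℕ} (hq0 : 1 ≤ q) (hi : orderOf (q : ZMod r) = 2 * e) (h : r ∣ q ^ x - 1) :
    ∃ y, x = 2 * e * y := by
  have := (ord_dvd_iff (r := r) hq0 x).mpr h
  rw [hi] at this
  exact this

/-- Divisors of `q ^ x + 1`, even order. -/
theorem cnt_plus_even {e x : ℕ} (hr : r.Prime) (hr2 : r ≠ 2) (hi : orderOf (q : ZMod r) = 2 * e) (he : 0 < e)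
    (h : r ∣ q ^ x + 1) : ∃ y, x = e * (2 * y + 1) := by
  haveI : Fact r.Prime := ⟨hr⟩
  have hx : (q : ZMod r) ^ x = -1 := by
    have h1 : ((q ^ x + 1 : ℕ) : ZMod r) = 0 := (ZMod.natCast_eq_zero_iff _ _).mpr h
    push_cast at h1
    linear_combination h1
  have h21 : (1 : ZMod r) ≠ -1 := by
    intro h1
    have h3 : ((2 : ℕ) : ZMod r) = 0 := by
      push_cast
      linear_combination h1
    rw [ZMod.natCast_eq_zero_iff] at h3
    exact hr2 ((Nat.prime_dvd_prime_iff_eq hr Nat.prime_two).mp h3)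
  have h2x : (q : ZMod r) ^ (2 * x) = 1 := by
    rw [mul_comm, pow_mul, hx]
    simp
  have hd := orderOf_dvd_of_pow_eq_one h2x
  rw [hi] at hd
  obtain ⟨z, hz⟩ := Nat.dvd_of_mul_dvd_mul_left (by omega : 0 < 2) hd
  have hrq' := dvd_pow_add_one (q := q) hr hi he
  have hQe : (q : ZMod r) ^ e = -1 := by
    have h1 : ((q ^ e + 1 : ℕ) : ZMod r) = 0 := (ZMod.natCast_eq_zero_iff _ _).mpr hrq'
    push_cast at h1
    linear_combination h1
  rw [hz, pow_mul, hQe] at hx
  rcases Nat.even_or_odd z with hev | hod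
  · rw [hev.neg_one_pow] at hx
    exact absurd hx h21
  · obtain ⟨y, rfl⟩ := hod
    exact ⟨y, hz⟩

/-- Divisors of `q ^ x + 1`, odd order. -/
theorem cnt_plus_odd {x : ℕ} (hr : r.Prime) (hr2 : r ≠ 2) (hi : Odd (orderOf (q : ZMod r))) (h : r ∣ q ^ x + 1) :
    False := by
  haveI : Fact r.Prime := ⟨hr⟩
  have hx : (q : ZMod r) ^ x = -1 := by
    have h1 : ((q ^ x + 1 : ℕ) : ZMod r) = 0 := (ZMod.natCast_eq_zero_iff _ _).mpr h
    push_cast at h1
    linear_combination h1
  have h21 : (1 : ZMod r) ≠ -1 := by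
    intro h1
    have h3 : ((2 : ℕ) : ZMod r) = 0 := by
      push_cast
      linear_combination h1
    rw [ZMod.natCast_eq_zero_iff] at h3
    exact hr2 ((Nat.prime_dvd_prime_iff_eq hr Nat.prime_two).mp h3)
  have h2x : (q : ZMod r) ^ (2 * x) = 1 := by
    rw [mul_comm, pow_mul, hx]
    simp
  have hd := orderOf_dvd_of_pow_eq_one h2x
  have hd' : orderOf (q : ZMod r) ∣ x := hi.coprime_two_right.dvd_of_dvd_mul_left hd
  obtain ⟨z, hz⟩ := hd'
  rw [hz, pow_mul, pow_orderOf_eq_one, one_pow] at hx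
  exact h21 hx

set_option maxHeartbeats 2000000 in
/-- The necessary conditions for even order. -/
theorem forward_even {m d : ℕ} {τ : Prop} (hM : MP F r m d τ) (hq : Fintype.card F = q) (hr : r.Prime) (hr2 : r ≠ 2)
    (hrF : (r : F) ≠ 0) (hrq : ¬ r ∣ q) {e : ℕ} (hi : orderOf (q : ZMod r) = 2 * e) (he : 0 < e) (hm : 1 ≤ m)
    (hmd : m < d) {w b : ℕ} (hdwb : d = e * w + b) (hw : 0 < w) (hbm : b ≤ m)
    (hcnt : (b < m ∧ (Even w ↔ τ)) ∨ (1 ≤ b ∧ ¬ (Even w ↔ τ))) :
    2 * e ≤ m ∧ (r - 1) / (2 * e) + 2 * (m / (2 * e)) ≤ d / e ∧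
      (((Even (d / e) ↔ τ) ∧ 2 * (m % (2 * e)) ≤ 2 * (d % e)) ∨
        (¬ (Even (d / e) ↔ τ) ∧ 0 < d % e ∧ 2 * (m % (2 * e)) < 2 * (d % e)) ∨
        (¬ (Even (d / e) ↔ τ) ∧ d % e = 0 ∧ 2 * (m % (2 * e)) ≤ 2 * e ∧
          (r - 1) / (2 * e) + 2 * (m / (2 * e)) < d / e)) := by
  have h2e : 0 < 2 * e := by omega
  have hde := Nat.div_add_mod d e
  set n' := d / e with hn'
  set k₀ := d % e with hk₀
  have hk₀lt : k₀ < e := Nat.mod_lt _ he
  have hmm := Nat.div_add_mod m (2 * e)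
  set m' := m / (2 * e) with hm'
  set l := m % (2 * e) with hl
  have hllt : l < 2 * e := Nat.mod_lt _ h2e
  -- the first family of models
  have hM0 : 0 < n' → (0 < k₀ ∨ (Even n' ↔ τ)) →
      2 * l ≤ 2 * k₀ ∧ (¬ (Even n' ↔ τ) → 2 * l < 2 * k₀) := by
    intro hn0 hor
    obtain ⟨t₀, y, h1, h3, h4⟩ := fw_rep hM hq hr hr2 hrF hrq hi he (a₀ := k₀) (N := n') hn0
      (by rw [add_comm]; exact hde) (fun h0 => by
        rcases hor with h5 | h5
        · omega
        · rw [h5])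
    have ht : t₀ < 2 * e := by omega
    have h5 : l = t₀ := by
      rw [hl, h1, Nat.add_mul_mod_self_left, Nat.mod_eq_of_lt ht]
    subst h5
    refine ⟨by omega, fun h6 => ?_⟩
    have h7 : l ≠ k₀ := fun h8 => h6 (by
      have := h4 h8
      tauto)
    omega
  -- the second family
  have hM1 : 2 ≤ n' → k₀ = 0 → ¬ (Even n' ↔ τ) → 2 * l ≤ 2 * e := by
    intro hn2 hk0 hAl
    have hev : Even (n' - 1) ↔ ¬ Even n' := by
      obtain ⟨c, hc⟩ : ∃ c, n' = c + 1 := ⟨n' - 1, by omega⟩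
      rw [hc, Nat.add_sub_cancel, Nat.even_add_one]
      tauto
    obtain ⟨t₀, y, h1, h3, h4⟩ := fw_rep hM hq hr hr2 hrF hrq hi he (a₀ := e) (N := n' - 1) (by omega)
      (by
        obtain ⟨c, hc⟩ : ∃ c, n' = c + 1 := ⟨n' - 1, by omega⟩
        rw [hc] at hde ⊢
        rw [Nat.add_sub_cancel, ← hde, hk0, add_zero]
        ring) (fun h0 => by omega)
    have ht : t₀ < 2 * e := by omega
    have h5 : l = t₀ := by
      rw [hl, h1, Nat.add_mul_mod_self_left, Nat.mod_eq_of_lt ht]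
    omega
  -- the order
  have hle : 2 * e ≤ m := by
    by_contra hcon
    push Not at hcon
    have hm0 : m' = 0 := Nat.div_eq_of_lt hcon
    have hlm : l = m := Nat.mod_eq_of_lt hcon
    by_cases hbe : b < e
    · have hn'w : n' = w := by
        rw [hn', hdwb, Nat.mul_add_div he, Nat.div_eq_of_lt hbe, add_zero]
      have hk₀b : k₀ = b := by
        rw [hk₀, hdwb, Nat.mul_add_mod, Nat.mod_eq_of_lt hbe]
      rcases hcnt with ⟨h1, h3⟩ | ⟨h1, h3⟩
      · have := hM0 (by omega) (Or.inr (by rw [hn'w]; exact h3))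
        omega
      · have := (hM0 (by omega) (Or.inl (by omega))).2 (by rw [hn'w]; exact h3)
        omega
    · have hd2 : d = e * (w + 1) + (b - e) := by
        rw [hdwb, mul_add, mul_one]
        omega
      have hbe' : b - e < e := by omega
      have hn'w : n' = w + 1 := by
        rw [hn', hd2, Nat.mul_add_div he, Nat.div_eq_of_lt hbe', add_zero]
      have hk₀b : k₀ = b - e := by
        rw [hk₀, hd2, Nat.mul_add_mod, Nat.mod_eq_of_lt hbe']
      have hev : Even n' ↔ ¬ Even w := by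
        rw [hn'w, Nat.even_add_one]
      rcases hcnt with ⟨h1, h3⟩ | ⟨h1, h3⟩
      · have hAl : ¬ (Even n' ↔ τ) := by
          rw [hev]
          tauto
        by_cases hk0 : k₀ = 0
        · have := hM1 (by omega) hk0 hAl
          omega
        · have := (hM0 (by omega) (Or.inl (by omega))).2 hAl
          omega
      · have hAl : (Even n' ↔ τ) := by
          rw [hev]
          tauto
        have := (hM0 (by omega) (Or.inr hAl)).1
        omega
  have hm'1 : 1 ≤ m' := by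
    rw [hm', Nat.one_le_div_iff h2e]
    exact hle
  -- the number of factors
  have hn2 : 2 < n' + 1 := by
    by_contra hcon
    have h1 : n' + 1 ≤ 2 := by omega
    have h3 : e * (n' + 1) ≤ e * 2 := Nat.mul_le_mul_left _ h1
    have h4 : e * (n' + 1) = e * n' + e := by ring
    omega
  set t := (r - 1) / (2 * e) with ht
  have hbeta : t + 2 * m' ≤ n' ∧ (k₀ = 0 → ¬ (Even n' ↔ τ) → t + 2 * m' < n') := by
    by_cases hu : (n' + t) % 2 = 1
    · -- one block is moved to the fixed part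
      have h1 := fw_beta hM hq hr hr2 hrF hrq hi he (a₀ := k₀ + e) (N := n' - 1) (by omega)
        (by
          obtain ⟨c, hc⟩ : ∃ c, n' = c + 1 := ⟨n' - 1, by omega⟩
          rw [hc] at hde ⊢
          rw [Nat.add_sub_cancel, ← hde]
          ring) (fun h0 => by omega) (by
          rw [← ht, Nat.even_iff]
          omega) (fun t₀ h3 _ => by omega)
      rw [← ht, ← hm'] at h1
      omega
    · by_cases hc : 0 < k₀ ∨ (Even n' ↔ τ)
      · have h1 := fw_beta hM hq hr hr2 hrF hrq hi he (a₀ := k₀) (N := n') (by omega)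
          (by rw [add_comm]; exact hde) (fun h0 => by
            rcases hc with h5 | h5
            · omega
            · rw [h5]) (by
            rw [← ht, Nat.even_iff]
            omega) (fun t₀ h3 _ => by omega)
        rw [← ht, ← hm'] at h1
        refine ⟨by omega, fun h3 h4 => ?_⟩
        rcases hc with h5 | h5
        · omega
        · exact absurd h5 h4
      · rw [not_or] at hc
        obtain ⟨hk0, hAl⟩ := hc
        have hk0' : k₀ = 0 := by omega
        have hn3 : 2 < n' := by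
          by_contra hcon
          have h1 : n' ≤ 2 := by omega
          have h3 : e * n' ≤ e * 2 := Nat.mul_le_mul_left _ h1
          omega
        have hev : Even (n' - 2) ↔ Even n' := by
          obtain ⟨c, hc⟩ : ∃ c, n' = c + 2 := ⟨n' - 2, by omega⟩
          rw [hc, Nat.add_sub_cancel, Nat.even_add]
          simp
        have h1 := fw_beta hM hq hr hr2 hrF hrq hi he (a₀ := 2 * e) (N := n' - 2) (by omega)
          (by
            obtain ⟨c, hc⟩ : ∃ c, n' = c + 2 := ⟨n' - 2, by omega⟩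
            rw [hc] at hde ⊢
            rw [Nat.add_sub_cancel, ← hde, hk0', add_zero]
            ring) (fun h0 => by omega) (by
            rw [← ht, Nat.even_iff]
            omega) (fun t₀ h3 h4 => by
            have h5 : t₀ ≠ 2 * e := fun h6 => hAl (by
              have := h4 h6
              rw [hev] at this
              tauto)
            omega)
        rw [← ht, ← hm'] at h1
        omega
  refine ⟨hle, hbeta.1, ?_⟩
  by_cases hAl : Even n' ↔ τ
  · left
    exact ⟨hAl, (hM0 (by omega) (Or.inr hAl)).1⟩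
  · right
    by_cases hk0 : k₀ = 0
    · right
      exact ⟨hAl, hk0, hM1 (by omega) hk0 hAl, hbeta.2 hk0 hAl⟩
    · left
      exact ⟨hAl, by omega, (hM0 (by omega) (Or.inl (by omega))).2 hAl⟩

/-- The necessary conditions for odd order. -/
theorem forward_odd {m d : ℕ} {τ : Prop} (hM : MP F r m d τ) (hq : Fintype.card F = q) (hr : r.Prime) (hr2 : r ≠ 2)
    (hrF : (r : F) ≠ 0) (hrq : ¬ r ∣ q) (hi : Odd (orderOf (q : ZMod r))) (hm : 1 ≤ m) {x b : ℕ}
    (hdxb : d = orderOf (q : ZMod r) * x + b) (hx : 0 < x) (hbm : b ≤ m)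
    (hcnt : (b < m ∧ τ) ∨ (1 ≤ b ∧ ¬ τ)) :
    orderOf (q : ZMod r) ≤ m ∧ (τ → 2 * (m % orderOf (q : ZMod r)) ≤ 2 * (d % orderOf (q : ZMod r))) ∧
      (¬ τ → d % orderOf (q : ZMod r) = 0 ∨
        2 * (m % orderOf (q : ZMod r)) < 2 * (d % orderOf (q : ZMod r))) := by
  classical
  set i := orderOf (q : ZMod r) with hidef
  have hipos : 0 < i := hi.pos
  have hrO := hr.odd_of_ne_two hr2
  obtain ⟨S, hS, hprod, hcard⟩ := exists_factors hq hr hrF hrq
  have hSpos : 0 < S.card := by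
    rcases Nat.eq_zero_or_pos S.card with h0 | h0
    · rw [h0, zero_mul] at hcard
      have := hr.two_le
      omega
    · exact h0
  obtain ⟨g₀, hg₀⟩ := Finset.card_pos.mp hSpos
  obtain ⟨hgi, hgm, hgr, hg1, hgd⟩ := hS g₀ hg₀
  have hde := Nat.div_add_mod d i
  set s := d / i with hs
  set k₀ := d % i with hk₀
  have hk₀lt : k₀ < i := Nat.mod_lt _ hipos
  have hspos : 0 < s := by
    rw [hs, Nat.div_pos_iff]
    refine ⟨hipos, ?_⟩
    have : i * 1 ≤ i * x := Nat.mul_le_mul_left _ hx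
    omega
  have hmm := Nat.div_add_mod m i
  set l := m % i with hl
  have hllt : l < i := Nat.mod_lt _ hipos
  have hmain : (0 < k₀ ∨ τ) → 2 * l ≤ 2 * k₀ ∧ (¬ τ → 2 * l < 2 * k₀) := by
    intro hor
    obtain ⟨V', _, _, _, Q', T', hMz, hf, hD, hNS, hty⟩ := qmodel_odd hq hgi hgr hg1 hrO k₀ τ (fun h0 => by
      rcases hor with h5 | h5
      · omega
      · exact h5) s
    rw [hgd] at hf
    obtain ⟨W, hW, hInv, hWm⟩ := hM V' _ _ inferInstance Q' T' hMz (by
      rw [hf, ← hde]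
      ring) hty (hNS hspos)
    obtain ⟨y, h1, h3, h4⟩ := W_split hMz hq hr hrF hrq hW hInv
    have hK0 : finrank F (K0 T') = 2 * k₀ := hD
    have h5 := hyS_K0_odd hMz hq hr hrO hrF hrq hi (d := d) (by
      rw [hf, ← hde]
      ring)
    set t₀ := finrank F (W ⊓ K0 T' : Submodule F V') with ht₀
    have ht : t₀ < i := by omega
    have h6 : l = t₀ := by
      rw [hl, ← hWm, h1, Nat.add_mul_mod_self_left, Nat.mod_eq_of_lt ht]
    refine ⟨by omega, fun h7 => ?_⟩
    have h8 : t₀ ≠ k₀ := fun h9 => h7 (hty.mp (h5.mp (h4 (by omega))))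
    omega
  have hle : i ≤ m := by
    by_contra hcon
    push Not at hcon
    have hlm : l = m := Nat.mod_eq_of_lt hcon
    have hbi : b < i := by omega
    have hk₀b : k₀ = b := by
      rw [hk₀, hdxb, Nat.mul_add_mod, Nat.mod_eq_of_lt hbi]
    rcases hcnt with ⟨h1, h3⟩ | ⟨h1, h3⟩
    · have := (hmain (Or.inr h3)).1
      omega
    · have := (hmain (Or.inl (by omega))).2 h3
      omega
  refine ⟨hle, fun h => (hmain (Or.inr h)).1, fun h => ?_⟩
  by_cases hk0 : k₀ = 0
  · exact Or.inl hk0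
  · exact Or.inr ((hmain (Or.inl (by omega))).2 h)

end Cfsg.Agent.Lib.ElusT.QFw
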