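import Cfsg.Agent.Lib.ElusT.QTwoM

/-!
# Totally singular subspaces of even-dimensional quadratic spaces: the main equivalence
-/

set_option autoImplicit false
set_option linter.unusedSectionVars false
set_option linter.style.haveILetI false
set_option linter.unusedVariables false
set_option linter.unusedSimpArgs false

open Polynomial Module QuadraticMap Matrix

universe u v w

namespace Cfsg.Agent.Lib.ElusT.QMain

open Cfsg Cfsg.Agent.Lib.ElusL.Basic Cfsg.Agent.Lib.ElusL.Cyc Cfsg.Agent.Lib.ElusL.Flag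
  Cfsg.Agent.Lib.ElusF.Form Cfsg.Agent.Lib.ElusF.Step Cfsg.Agent.Lib.ElusF.Split Cfsg.Agent.Lib.ElusF.SpNeg
  Cfsg.Agent.Lib.ElusF.SpModel Cfsg.Agent.Lib.ElusF.SpTwo
  Cfsg.Agent.Lib.ElusQ.Oz Cfsg.Agent.Lib.ElusQ.Pos Cfsg.Agent.Lib.ElusQ.Syl Cfsg.Agent.Lib.ElusQ.Disc
  Cfsg.Agent.Lib.ElusQ.SqNeg Cfsg.Agent.Lib.ElusQ.SqNegMain Cfsg.Agent.Lib.ElusQ.Bridge
  Cfsg.Agent.Lib.ElusT.QType Cfsg.Agent.Lib.ElusT.QK1 Cfsg.Agent.Lib.ElusT.QModel Cfsg.Agent.Lib.ElusT.Count
  Cfsg.Agent.Lib.ElusT.QTS Cfsg.Agent.Lib.ElusT.QFw Cfsg.Agent.Lib.ElusT.QBk Cfsg.Agent.Lib.ElusT.Two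
  Cfsg.Agent.Lib.ElusT.QTwo Cfsg.Agent.Lib.ElusT.QTwoM
  Cfsg.Agent.Lib.Orth.Refl Cfsg.Agent.Lib.Orth.Bridge Cfsg.Agent.Lib.Orth.Words Cfsg.Agent.Lib.Elusive.OmegaMem
  Cfsg.Agent.Lib.QuadDisc.Basic Cfsg.Agent.Lib.QuadDisc.Classify

variable {F : Type u} [Field F] [Fintype F] {q r : ℕ}

variable {ι : Type} [Fintype ι] [DecidableEq ι] {Q : QuadraticForm F (ι → F)}

/-- Scalar isometries. -/
theorem scalar_sq (hN : (polarBilin Q).Nondegenerate) (hpos : 0 < Fintype.card ι) {z : F}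
    (h : ∀ v, Q (z • v) = Q v) : z * z = 1 := by
  classical
  haveI : Nontrivial (ι → F) := Module.nontrivial_of_finrank_pos (R := F) (by
    rw [finrank_ι]
    exact hpos)
  obtain ⟨a, ha⟩ := Cfsg.Agent.Lib.Orth.Closure.exists_nonsingular Q hN
  have h1 := h a
  rw [QuadraticMap.map_smul, smul_eq_mul] at h1
  have h3 : (z * z - 1) * Q a = 0 := by linear_combination h1
  have h4 := (mul_eq_zero.mp h3).resolve_right ha
  linear_combination h4

/-- The elusive property in terms of endomorphisms, for odd primes. -/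
theorem elus_iff_mz (hN : (polarBilin Q).Nondegenerate) (hpos : 0 < Fintype.card ι)
    (hc : Fintype.card F ≠ 2 ∨ Fintype.card ι ≠ 4) (hr : r.Prime) (hrO : Odd r) {m : ℕ} :
    Elus Q r m ↔ ∀ T : End F (ι → F), Mz Q T r → T ≠ 1 →
      ∃ W : Submodule F (ι → F), (∀ w ∈ W, Q w = 0) ∧ Inv T W ∧ finrank F W = m := by
  constructor
  · intro H T hT hT1
    have hXr : (LinearMap.toMatrix' T) ^ r = 1 := by
      rw [toMatrix_pow, hT.oz.pow]
      exact LinearMap.toMatrix'_one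
    let x : GL ι F := glOfPow (LinearMap.toMatrix' T) r hr.pos hXr
    have hxT : Matrix.toLin' (x : Matrix ι ι F) = T := Matrix.toLin'_toMatrix' T
    have hxr : x ^ r = 1 := glOfPow_pow _ _ _ _
    have hxi : x ∈ isometryGroup F ⇑Q := by
      rw [mem_isometryGroup_iff]
      intro v
      rw [← Matrix.toLin'_apply, hxT]
      exact hT.iso v
    have hns : ∀ z : F, (x : Matrix ι ι F) ≠ z • (1 : Matrix ι ι F) := by
      intro z hz
      have hTz : ∀ w, T w = z • w := by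
        intro w
        rw [← hxT, hz, Matrix.toLin'_apply, Matrix.smul_mulVec, Matrix.one_mulVec]
      have hzz := scalar_sq hN hpos (z := z) (fun v => by rw [← hTz, hT.iso])
      have hTp : ∀ (k : ℕ) (w : ι → F), (T ^ k) w = z ^ k • w := by
        intro k
        induction k with
        | zero => intro w; simp
        | succ k ih =>
          intro w
          rw [pow_succ, Module.End.mul_apply, hTz, map_smul, ih, smul_smul, pow_succ]
          ring_nf
      have hzr : z ^ r = 1 := by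
        have hone : (1 : ι → F) ≠ 0 := by
          haveI : Nonempty ι := Fintype.card_pos_iff.mp hpos
          exact one_ne_zero
        have h1 := hTp r 1
        rw [hT.oz.pow] at h1
        have h3 : (z ^ r - 1) • (1 : ι → F) = 0 := by
          rw [sub_smul, ← h1]
          simp
        have h4 := (smul_eq_zero.mp h3).resolve_right hone
        exact sub_eq_zero.mp h4
      have hz1 : z = 1 := by
        obtain ⟨k, hk⟩ := hrO
        rw [hk, pow_succ, pow_mul, pow_two, hzz, one_pow, one_mul] at hzr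
        exact hzr
      apply hT1
      apply LinearMap.ext
      intro w
      rw [hTz, hz1, one_smul]
      rfl
    obtain ⟨W, h1, h3, h4⟩ := H x (mem_omega_of_odd Q hN hc x hxi hrO hxr) ⟨1, by
      rw [hxr]
      simp⟩ hns
    rw [hxT] at h3
    exact ⟨W, h1, h3, h4⟩
  · intro H x hx ⟨z, hz⟩ hns
    obtain ⟨hxi, -⟩ := (mem_omegaGL_iff _ x).mp hx
    set T₀ : End F (ι → F) := Matrix.toLin' (x : Matrix ι ι F) with hT₀
    have hQ₀ : ∀ v, Q (T₀ v) = Q v := fun v => by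
      rw [hT₀, Matrix.toLin'_apply]
      exact (mem_isometryGroup_iff _ _).mp hxi v
    have hp₀ : ∀ (k : ℕ) (v : ι → F), Q ((T₀ ^ k) v) = Q v := by
      intro k
      induction k with
      | zero => intro v; rfl
      | succ k ih =>
        intro v
        rw [pow_succ', Module.End.mul_apply, hQ₀, ih]
    have hT₀r : T₀ ^ r = z • 1 := by
      rw [hT₀, Cfsg.Agent.Lib.ElusQ.Bridge.toLin_pow, ← Units.val_pow_eq_pow_val, hz, map_smul, Matrix.toLin'_one]
      rfl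
    have hzz : z * z = 1 := scalar_sq hN hpos (z := z) (fun v => by
      have h1 := hp₀ r v
      rw [hT₀r] at h1
      exact h1)
    have hz0 : z ≠ 0 := by
      rintro rfl
      simp at hzz
    let T : End F (ι → F) := z • T₀
    have hTa : ∀ v, T v = z • T₀ v := fun v => rfl
    have hQT : ∀ v, Q (T v) = Q v := by
      intro v
      rw [hTa, QuadraticMap.map_smul, hQ₀, smul_eq_mul, hzz, one_mul]
    have hTr : T ^ r = 1 := by
      have h1 : T ^ r = z ^ r • T₀ ^ r := smul_pow z T₀ r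
      rw [h1, hT₀r, smul_smul]
      obtain ⟨k, hk⟩ := hrO
      have h3 : z ^ r * z = (z * z) ^ (k + 1) := by
        rw [hk, ← pow_two, ← pow_mul, ← pow_succ]
        congr 1
      rw [h3, hzz, one_pow, one_smul]
    have hpolar : ∀ u v, polarBilin Q (T u) (T v) = polarBilin Q u v := fun u v => by
      change polar (⇑Q) (T u) (T v) = polar (⇑Q) u v
      unfold polar
      rw [← map_add, hQT, hQT, hQT]
    have hM : Mz Q T r := ⟨⟨polar_symm Q, hN, hpolar, hTr⟩, hQT⟩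
    have hT1 : T ≠ 1 := by
      intro h
      apply hns z
      apply Matrix.toLin'.injective
      apply LinearMap.ext
      intro v
      have h3 : z • T₀ v = v := by
        rw [← hTa, h, Module.End.one_apply]
      have h4 : T₀ v = z • v := by
        nth_rewrite 2 [← h3]
        rw [smul_smul, hzz, one_smul]
      change T₀ v = _
      rw [h4, Matrix.toLin'_apply, Matrix.smul_mulVec, Matrix.one_mulVec]
    obtain ⟨W, h1, h3, h4⟩ := H T hM hT1
    refine ⟨W, h1, ?_, h4⟩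
    intro v hv
    have h5 := W.smul_mem z (h3 v hv)
    rw [hTa, smul_smul, hzz, one_smul] at h5
    exact h5

/-- The main equivalence, even order. -/
theorem main_even (hN : (polarBilin Q).Nondegenerate) (hq : Fintype.card F = q) {d m : ℕ}
    (hcard : Fintype.card ι = 2 * d) (hc : Fintype.card F ≠ 2 ∨ Fintype.card ι ≠ 4) (hr : r.Prime) (hr2 : r ≠ 2)
    (hrF : (r : F) ≠ 0) (hrq : ¬ r ∣ q) {e : ℕ} (hi : orderOf (q : ZMod r) = 2 * e) (he : 0 < e) (hm : 1 ≤ m)
    (hmd : m < d) {τ : Prop} (hτ : HyQ Q ↔ τ) {w b : ℕ} (hdwb : d = e * w + b) (hw : 0 < w) (hbm : b ≤ m)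
    (hcnt : (b < m ∧ (Even w ↔ τ)) ∨ (1 ≤ b ∧ ¬ (Even w ↔ τ))) :
    Elus Q r m ↔ (2 * e ≤ m ∧ (r - 1) / (2 * e) + 2 * (m / (2 * e)) ≤ d / e ∧
      (((Even (d / e) ↔ τ) ∧ 2 * (m % (2 * e)) ≤ 2 * (d % e)) ∨
        (¬ (Even (d / e) ↔ τ) ∧ 0 < d % e ∧ 2 * (m % (2 * e)) < 2 * (d % e)) ∨
        (¬ (Even (d / e) ↔ τ) ∧ d % e = 0 ∧ 2 * (m % (2 * e)) ≤ 2 * e ∧
          (r - 1) / (2 * e) + 2 * (m / (2 * e)) < d / e))) := by
  have hV : finrank F (ι → F) = 2 * d := by rw [finrank_ι, hcard]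
  have hpos : 0 < Fintype.card ι := by omega
  rw [elus_iff_mz hN hpos hc hr (hr.odd_of_ne_two hr2)]
  constructor
  · intro H
    exact forward_even (mp_of_target hN hV hτ H) hq hr hr2 hrF hrq hi he hm hmd hdwb hw hbm hcnt
  · rintro ⟨-, hD, hc'⟩ T hT -
    exact backward_even hT hq hr hr2 hrF hrq hi he hV hτ hD hc'

/-- The main equivalence, odd order. -/
theorem main_odd (hN : (polarBilin Q).Nondegenerate) (hq : Fintype.card F = q) {d m : ℕ}
    (hcard : Fintype.card ι = 2 * d) (hc : Fintype.card F ≠ 2 ∨ Fintype.card ι ≠ 4) (hr : r.Prime) (hr2 : r ≠ 2)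
    (hrF : (r : F) ≠ 0) (hrq : ¬ r ∣ q) (hi : Odd (orderOf (q : ZMod r))) (hm : 1 ≤ m)
    (hmd : m < d) {τ : Prop} (hτ : HyQ Q ↔ τ) {x b : ℕ} (hdxb : d = orderOf (q : ZMod r) * x + b) (hx : 0 < x)
    (hbm : b ≤ m) (hcnt : (b < m ∧ τ) ∨ (1 ≤ b ∧ ¬ τ)) :
    Elus Q r m ↔ (orderOf (q : ZMod r) ≤ m ∧ (τ → 2 * (m % orderOf (q : ZMod r)) ≤ 2 * (d % orderOf (q : ZMod r))) ∧
      (¬ τ → d % orderOf (q : ZMod r) = 0 ∨
        2 * (m % orderOf (q : ZMod r)) < 2 * (d % orderOf (q : ZMod r)))) := by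
  have hV : finrank F (ι → F) = 2 * d := by rw [finrank_ι, hcard]
  have hpos : 0 < Fintype.card ι := by omega
  rw [elus_iff_mz hN hpos hc hr (hr.odd_of_ne_two hr2)]
  constructor
  · intro H
    exact forward_odd (mp_of_target hN hV hτ H) hq hr hr2 hrF hrq hi hm hdxb hx hbm hcnt
  · rintro ⟨-, h1, h3⟩ T hT -
    exact backward_odd hT hq hr hr2 hrF hrq hi hV hτ hmd h1 h3

/-- The number of totally singular subspaces, plus case, even order. -/
theorem cnt_even_plus (hq1 : 1 ≤ q) (hr : r.Prime) (hr2 : r ≠ 2) {e d m j : ℕ} (hi : orderOf (q : ZMod r) = 2 * e)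
    (he : 0 < e) (hj : j < m) (hmd : m < d) (h : r ∣ q ^ (d - j) - 1 ∨ r ∣ q ^ (d - j - 1) + 1) :
    ∃ w b, d = e * w + b ∧ 0 < w ∧ b ≤ m ∧ ((b < m ∧ (Even w ↔ True)) ∨ (1 ≤ b ∧ ¬ (Even w ↔ True))) := by
  rcases h with h | h
  · obtain ⟨y, hy⟩ := cnt_minus_even hq1 hi h
    have hy0 : 0 < y := by
      rcases Nat.eq_zero_or_pos y with h0 | h0
      · subst h0
        omega
      · exact h0
    refine ⟨2 * y, j, ?_, by omega, by omega, Or.inl ⟨hj, by simp⟩⟩
    have : e * (2 * y) = 2 * e * y := by ring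
    omega
  · obtain ⟨y, hy⟩ := cnt_plus_even hr hr2 hi he h
    refine ⟨2 * y + 1, j + 1, by omega, by omega, by omega, Or.inr ⟨by omega, ?_⟩⟩
    simp [Nat.even_add_one]

/-- The number of totally singular subspaces, minus case, even order. -/
theorem cnt_even_minus (hq1 : 1 ≤ q) (hr : r.Prime) (hr2 : r ≠ 2) {e d m j : ℕ} (hi : orderOf (q : ZMod r) = 2 * e)
    (he : 0 < e) (hj : j < m) (hmd : m < d) (h : r ∣ q ^ (d - j) + 1 ∨ r ∣ q ^ (d - j - 1) - 1) :
    ∃ w b, d = e * w + b ∧ 0 < w ∧ b ≤ m ∧ ((b < m ∧ (Even w ↔ False)) ∨ (1 ≤ b ∧ ¬ (Even w ↔ False))) := by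
  rcases h with h | h
  · obtain ⟨y, hy⟩ := cnt_plus_even hr hr2 hi he h
    refine ⟨2 * y + 1, j, by omega, by omega, by omega, Or.inl ⟨hj, ?_⟩⟩
    simp [Nat.even_add_one]
  · obtain ⟨y, hy⟩ := cnt_minus_even hq1 hi h
    have hy0 : 0 < y := by
      rcases Nat.eq_zero_or_pos y with h0 | h0
      · subst h0
        omega
      · exact h0
    refine ⟨2 * y, j + 1, ?_, by omega, by omega, Or.inr ⟨by omega, by simp⟩⟩
    have : e * (2 * y) = 2 * e * y := by ring
    omega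

/-- The number of totally singular subspaces, plus case, odd order. -/
theorem cnt_odd_plus (hq1 : 1 ≤ q) (hr : r.Prime) (hr2 : r ≠ 2) {d m j : ℕ} (hi : Odd (orderOf (q : ZMod r)))
    (hj : j < m) (hmd : m < d) (h : r ∣ q ^ (d - j) - 1 ∨ r ∣ q ^ (d - j - 1) + 1) :
    ∃ x b, d = orderOf (q : ZMod r) * x + b ∧ 0 < x ∧ b ≤ m ∧ ((b < m ∧ True) ∨ (1 ≤ b ∧ ¬ True)) := by
  rcases h with h | h
  · obtain ⟨y, hy⟩ := (ord_dvd_iff (r := r) hq1 _).mpr h
    have hy0 : 0 < y := by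
      rcases Nat.eq_zero_or_pos y with h0 | h0
      · subst h0
        omega
      · exact h0
    exact ⟨y, j, by omega, hy0, by omega, Or.inl ⟨hj, trivial⟩⟩
  · exact (cnt_plus_odd hr hr2 hi h).elim

/-- The number of totally singular subspaces, minus case, odd order. -/
theorem cnt_odd_minus (hq1 : 1 ≤ q) (hr : r.Prime) (hr2 : r ≠ 2) {d m j : ℕ} (hi : Odd (orderOf (q : ZMod r)))
    (hj : j < m) (hmd : m < d) (h : r ∣ q ^ (d - j) + 1 ∨ r ∣ q ^ (d - j - 1) - 1) :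
    ∃ x b, d = orderOf (q : ZMod r) * x + b ∧ 0 < x ∧ b ≤ m ∧ ((b < m ∧ False) ∨ (1 ≤ b ∧ ¬ False)) := by
  rcases h with h | h
  · exact (cnt_plus_odd hr hr2 hi h).elim
  · obtain ⟨y, hy⟩ := (ord_dvd_iff (r := r) hq1 _).mpr h
    have hy0 : 0 < y := by
      rcases Nat.eq_zero_or_pos y with h0 | h0
      · subst h0
        omega
      · exact h0
    exact ⟨y, j + 1, by omega, hy0, by omega, Or.inr ⟨by omega, fun h => h⟩⟩

theorem not_char_dvd_plus {p : ℕ} [Fact p.Prime] [CharP F p] (hq : Fintype.card F = q) (l : ℕ) (hl : l ≠ 0) :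
    ¬ p ∣ q ^ l + 1 := by
  obtain ⟨f, hp', hqf⟩ := FiniteField.card F p
  intro h
  have hq1 : p ∣ q := by
    rw [← hq, hqf]
    exact dvd_pow_self _ f.ne_zero
  have h2 : p ∣ q ^ l := hq1.trans (dvd_pow_self _ hl)
  have h3 := (Nat.dvd_add_right h2).mp h
  exact (Fact.out : p.Prime).one_lt.ne' (Nat.dvd_one.mp h3)

end Cfsg.Agent.Lib.ElusT.QMain
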