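import Cfsg.Agent.Lib.ElusT.QModel

/-!
# Invariant totally singular subspaces of even-dimensional quadratic spaces, in all characteristics
-/

set_option autoImplicit false
set_option linter.unusedSectionVars false
set_option linter.style.haveILetI false
set_option linter.unusedVariables false
set_option linter.unusedSimpArgs false

open Polynomial Module QuadraticMap

universe u v w

namespace Cfsg.Agent.Lib.ElusT.QTS

open Cfsg Cfsg.Agent.Lib.ElusL.Basic Cfsg.Agent.Lib.ElusL.Cyc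
  Cfsg.Agent.Lib.ElusF.Form Cfsg.Agent.Lib.ElusF.Step Cfsg.Agent.Lib.ElusF.Split Cfsg.Agent.Lib.ElusF.SpNeg
  Cfsg.Agent.Lib.ElusF.SpModel
  Cfsg.Agent.Lib.ElusQ.Oz Cfsg.Agent.Lib.ElusQ.Pos Cfsg.Agent.Lib.ElusQ.Syl Cfsg.Agent.Lib.ElusQ.Disc
  Cfsg.Agent.Lib.ElusT.QType Cfsg.Agent.Lib.ElusT.QK1 Cfsg.Agent.Lib.ElusT.QModel Cfsg.Agent.Lib.ElusT.Count

variable {F : Type u} [Field F] [Fintype F] {q r : ℕ} {V : Type v} [AddCommGroup V] [Module F V]
  [FiniteDimensional F V] {Q : QuadraticForm F V} {T : End F V}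

/-- The complement of a totally singular subspace has the type of the whole space. -/
theorem hyS_compl (hN : (polarBilin Q).Nondegenerate) (hq : Fintype.card F = q) {d j : ℕ} (hV : finrank F V = 2 * d)
    {S C : Submodule F V} (hSd : finrank F S = j) (hS0 : ∀ x ∈ S, Q x = 0)
    (hS : ∀ x ∈ S, ∀ y ∈ S, polarBilin Q x y = 0)
    (hsup : S ⊔ C = (fm_of_symm (polar_symm Q) hN).orth S) (hdisj : Disjoint S C) :
    finrank F C = 2 * (d - j) ∧ (HyS Q C ↔ HyQ Q) := by
  have hS' := polar_symm Q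
  have hB := fm_of_symm hS' hN
  have hC := nd_compl hS' hN hS hsup hdisj
  have hCd := finrank_compl hS' hN hsup hdisj
  have hCd' : finrank F C = 2 * (d - j) := by omega
  refine ⟨hCd', ?_⟩
  have hH := hB.nd_inf_orth hB.nd_top hC le_top
  have hHd := hB.finrank_inf_orth hB.nd_top (W := C) le_top
  obtain ⟨h1, -⟩ := hB.isCompl_inf_orth hC (U := ⊤) le_top
  rw [finrank_top] at hHd
  rw [top_inf_eq] at hH hHd h1
  have hSH : S ≤ hB.orth C := by
    intro x hx c hc
    have h3 : c ∈ hB.orth S := by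
      rw [← hsup]
      exact Submodule.mem_sup_right hc
    have h4 : polarBilin Q x c = 0 := hB.mem_orth.mp h3 x hx
    change polar (⇑Q) c x = 0
    rw [polar_comm]
    exact h4
  have hHy : HyS Q (hB.orth C) := ⟨S, hSH, hS0, by omega⟩
  have h5 := hyS_sup hq hC hH (a := d - j) (b := j) (fun c hc x hx => hx c hc) hCd' (by omega)
  rw [h1, hyS_top] at h5
  tauto

/-- The number of singular vectors in the plus case. -/
theorem card_plus (hq : Fintype.card F = q) {C : Submodule F V} (hC : Nd (fun u v => polarBilin Q u v) C) {k : ℕ}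
    (hd : finrank F C = 2 * (k + 1)) (hy : HyS Q C) :
    Nat.card {c : C // Q (c : V) = 0} = (q ^ (k + 1) - 1) * (q ^ k + 1) + 1 := by
  have h2q := two_le_q hq
  have h1 := card_sing_eps hq (nd_comp hC) hd
  rw [eps_of_hy ((hyS_iff Q C).mp hy)] at h1
  have h3 : (Nat.card {c : C // Q (c : V) = 0} : ℤ) = (((q ^ (k + 1) - 1) * (q ^ k + 1) + 1 : ℕ) : ℤ) := by
    have hQ2 : (q : ℤ) ≠ 0 := by
      have : (2 : ℤ) ≤ q := by exact_mod_cast h2q
      omega
    apply mul_left_cancel₀ hQ2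
    rw [show (Nat.card {c : C // Q (c : V) = 0} : ℤ) = (Nat.card {v // (Q.comp C.subtype) v = 0} : ℤ) from rfl, h1]
    push_cast [Nat.cast_sub (Nat.one_le_pow _ _ (show 0 < q by omega))]
    ring
  exact_mod_cast h3

/-- The number of singular vectors in the minus case. -/
theorem card_minus (hq : Fintype.card F = q) {C : Submodule F V} (hC : Nd (fun u v => polarBilin Q u v) C) {k : ℕ}
    (hd : finrank F C = 2 * (k + 1)) (hy : ¬ HyS Q C) :
    Nat.card {c : C // Q (c : V) = 0} = (q ^ (k + 1) + 1) * (q ^ k - 1) + 1 := by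
  have h2q := two_le_q hq
  have h1 := card_sing_eps hq (nd_comp hC) hd
  rw [eps_of_not (fun hc => hy ((hyS_iff Q C).mpr hc))] at h1
  have h3 : (Nat.card {c : C // Q (c : V) = 0} : ℤ) = (((q ^ (k + 1) + 1) * (q ^ k - 1) + 1 : ℕ) : ℤ) := by
    have hQ2 : (q : ℤ) ≠ 0 := by
      have : (2 : ℤ) ≤ q := by exact_mod_cast h2q
      omega
    apply mul_left_cancel₀ hQ2
    rw [show (Nat.card {c : C // Q (c : V) = 0} : ℤ) = (Nat.card {v // (Q.comp C.subtype) v = 0} : ℤ) from rfl, h1]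
    push_cast [Nat.cast_sub (Nat.one_le_pow _ _ (show 0 < q by omega))]
    ring
  exact_mod_cast h3

/-- A prime divisor of the number of totally singular subspaces, plus case. -/
theorem ts_dvd_plus (hN : (polarBilin Q).Nondegenerate) (hq : Fintype.card F = q) {d m : ℕ}
    (hV : finrank F V = 2 * d) (hmd : m < d) (hy : HyQ Q) (hr : r.Prime)
    (h : r ∣ Nat.card {W : Submodule F V // finrank F W = m ∧ ∀ w ∈ W, Q w = 0}) :
    ∃ j, j < m ∧ (r ∣ q ^ (d - j) - 1 ∨ r ∣ q ^ (d - j - 1) + 1) := by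
  obtain ⟨j, hj, hj'⟩ := ts_dvd (polar_symm Q) hN hq hr
    (A := fun j => (q ^ (d - j) - 1) * (q ^ (d - j - 1) + 1) + 1) (m := m) (by
      intro j hj S C hSd hS0 hS hsup hdisj
      obtain ⟨h1, h2⟩ := hyS_compl hN hq hV hSd hS0 hS hsup hdisj
      have hC := nd_compl (polar_symm Q) hN hS hsup hdisj
      obtain ⟨k, hk⟩ : ∃ k, d - j = k + 1 := ⟨d - j - 1, by omega⟩
      have h3 := card_plus hq hC (k := k) (by rw [h1, hk]) (h2.mpr hy)
      simp only [hk, Nat.add_sub_cancel]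
      exact h3) h
  refine ⟨j, hj, ?_⟩
  simp only [Nat.add_sub_cancel] at hj'
  exact (Nat.Prime.dvd_mul hr).mp hj'

/-- A prime divisor of the number of totally singular subspaces, minus case. -/
theorem ts_dvd_minus (hN : (polarBilin Q).Nondegenerate) (hq : Fintype.card F = q) {d m : ℕ}
    (hV : finrank F V = 2 * d) (hmd : m < d) (hy : ¬ HyQ Q) (hr : r.Prime)
    (h : r ∣ Nat.card {W : Submodule F V // finrank F W = m ∧ ∀ w ∈ W, Q w = 0}) :
    ∃ j, j < m ∧ (r ∣ q ^ (d - j) + 1 ∨ r ∣ q ^ (d - j - 1) - 1) := by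
  obtain ⟨j, hj, hj'⟩ := ts_dvd (polar_symm Q) hN hq hr
    (A := fun j => (q ^ (d - j) + 1) * (q ^ (d - j - 1) - 1) + 1) (m := m) (by
      intro j hj S C hSd hS0 hS hsup hdisj
      obtain ⟨h1, h2⟩ := hyS_compl hN hq hV hSd hS0 hS hsup hdisj
      have hC := nd_compl (polar_symm Q) hN hS hsup hdisj
      obtain ⟨k, hk⟩ : ∃ k, d - j = k + 1 := ⟨d - j - 1, by omega⟩
      have h3 := card_minus hq hC (k := k) (by rw [h1, hk]) (fun hc => hy (h2.mp hc))
      simp only [hk, Nat.add_sub_cancel]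
      exact h3) h
  refine ⟨j, hj, ?_⟩
  simp only [Nat.add_sub_cancel] at hj'
  exact (Nat.Prime.dvd_mul hr).mp hj'

end Cfsg.Agent.Lib.ElusT.QTS
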