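import Cfsg.Agent.Lib.ElusT.QBk
import Cfsg.Agent.Lib.ElusT.Two

/-!
# Projective involutions and totally singular subspaces of even-dimensional spaces
-/

set_option autoImplicit false
set_option linter.unusedSectionVars false
set_option linter.style.haveILetI false
set_option linter.unusedVariables false
set_option linter.unusedSimpArgs false

open Polynomial Module QuadraticMap Matrix

universe u v w

namespace Cfsg.Agent.Lib.ElusT.QTwo

open Cfsg Cfsg.Agent.Lib.ElusL.Basic Cfsg.Agent.Lib.ElusL.Cyc Cfsg.Agent.Lib.ElusL.Flag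
  Cfsg.Agent.Lib.ElusF.Form Cfsg.Agent.Lib.ElusF.Step Cfsg.Agent.Lib.ElusF.Split Cfsg.Agent.Lib.ElusF.SpNeg
  Cfsg.Agent.Lib.ElusF.SpModel
  Cfsg.Agent.Lib.ElusQ.Oz Cfsg.Agent.Lib.ElusQ.Pos Cfsg.Agent.Lib.ElusQ.Syl Cfsg.Agent.Lib.ElusQ.Disc
  Cfsg.Agent.Lib.ElusQ.SqNeg Cfsg.Agent.Lib.ElusQ.SqNegMain Cfsg.Agent.Lib.ElusQ.Bridge
  Cfsg.Agent.Lib.ElusT.QType Cfsg.Agent.Lib.ElusT.QK1 Cfsg.Agent.Lib.ElusT.QModel Cfsg.Agent.Lib.ElusT.Count
  Cfsg.Agent.Lib.ElusT.QTS Cfsg.Agent.Lib.ElusT.QFw Cfsg.Agent.Lib.ElusT.QBk Cfsg.Agent.Lib.ElusT.Two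
  Cfsg.Agent.Lib.Orth.Refl Cfsg.Agent.Lib.Orth.Bridge Cfsg.Agent.Lib.Orth.Words Cfsg.Agent.Lib.Elusive.OmegaMem
  Cfsg.Agent.Lib.QuadDisc.Basic Cfsg.Agent.Lib.QuadDisc.Classify

variable {F : Type u} [Field F] [Fintype F] {q : ℕ} {V : Type v} [AddCommGroup V] [Module F V]
  [FiniteDimensional F V] {Q : QuadraticForm F V} {T : End F V}

/-- Totally isotropic is totally singular in odd characteristic. -/
theorem ts_of_ti_odd (h2 : (2 : F) ≠ 0) {W : Submodule F V} (h : TI (fun u v => polarBilin Q u v) W) :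
    ∀ w ∈ W, Q w = 0 := by
  intro w hw
  have h3 := h w hw w hw
  simp only at h3
  rw [polar_self'] at h3
  exact (mul_eq_zero.mp h3).resolve_left h2

theorem hyS_iff_hy (h2 : (2 : F) ≠ 0) (U : Submodule F V) : HyS Q U ↔ Hy (polarBilin Q) U := by
  constructor
  · rintro ⟨X, hXU, hX, hd⟩
    exact ⟨X, hXU, ti_of_ts hX, hd⟩
  · rintro ⟨X, hXU, hX, hd⟩
    exact ⟨X, hXU, ts_of_ti_odd h2 hX, hd⟩

theorem K1_two (h : ∀ v ∈ K1 T 2, True) {v : V} (hv : v ∈ K1 T 2) : T v = - v := by
  have h3 : Polynomial.aeval T (Phi F 2) v = 0 := hv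
  have h4 : Phi F 2 = X + 1 := by
    simp [Phi, Finset.sum_range_succ, add_comm]
  rw [h4] at h3
  simp only [map_add, aeval_X, map_one, LinearMap.add_apply, Module.End.one_apply] at h3
  exact eq_neg_of_add_eq_zero_left h3

/-- Invariant totally singular subspaces of involutions. -/
theorem exists_W_cap (h : Mz Q T 2) (h2 : (2 : F) ≠ 0) (hq : Fintype.card F = q) {d m : ℕ} (hV : finrank F V = 2 * d)
    (hev : Even (finrank F (K1 T 2)))
    (hcap : (HyS Q (K0 T) ∧ HyS Q (K1 T 2) ∧ m ≤ d) ∨ ((HyS Q (K0 T) ∨ HyS Q (K1 T 2)) ∧ m + 1 ≤ d) ∨ m + 2 ≤ d) :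
    ∃ W : Submodule F V, (∀ w ∈ W, Q w = 0) ∧ Inv T W ∧ finrank F W = m := by
  have hrF : ((2 : ℕ) : F) ≠ 0 := by exact_mod_cast h2
  have hsum := finrank_K h.oz hrF
  obtain ⟨b, hb⟩ := hev
  obtain ⟨a, ha⟩ : ∃ a, finrank F (K0 T) = 2 * a := ⟨d - b, by omega⟩
  have hb' : finrank F (K1 T 2) = 2 * b := by omega
  have hzero : ∀ U : Submodule F V, finrank F U = 0 → HyS Q U := fun U hU =>
    ⟨⊥, bot_le, fun w hw => by rw [(Submodule.mem_bot F).mp hw, map_zero], by rw [finrank_bot, hU]⟩
  have ha0 : ¬ HyS Q (K0 T) → 1 ≤ a := by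
    intro hc
    by_contra h0
    exact hc (hzero _ (by omega))
  have hb0 : ¬ HyS Q (K1 T 2) → 1 ≤ b := by
    intro hc
    by_contra h0
    exact hc (hzero _ (by omega))
  have hmain : ∃ t₀ t₁, t₀ + t₁ = m ∧ ((HyS Q (K0 T) ∧ t₀ ≤ a) ∨ t₀ + 1 ≤ a) ∧ ((HyS Q (K1 T 2) ∧ t₁ ≤ b) ∨ t₁ + 1 ≤ b) := by
    by_cases hH0 : HyS Q (K0 T) <;> by_cases hH1 : HyS Q (K1 T 2)
    · refine ⟨m - min m b, min m b, by omega, Or.inl ⟨hH0, ?_⟩, Or.inl ⟨hH1, by omega⟩⟩
      rcases hcap with ⟨-, -, h3⟩ | ⟨-, h3⟩ | h3 <;> omega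
    · have := hb0 hH1
      refine ⟨m - min m (b - 1), min m (b - 1), by omega, Or.inl ⟨hH0, ?_⟩, Or.inr (by omega)⟩
      rcases hcap with ⟨-, h4, -⟩ | ⟨-, h3⟩ | h3
      · exact absurd h4 hH1
      · omega
      · omega
    · have := ha0 hH0
      refine ⟨m - min m b, min m b, by omega, Or.inr ?_, Or.inl ⟨hH1, by omega⟩⟩
      rcases hcap with ⟨h4, -, -⟩ | ⟨-, h3⟩ | h3
      · exact absurd h4 hH0
      · omega
      · omega
    · have := ha0 hH0
      have := hb0 hH1
      refine ⟨m - min m (b - 1), min m (b - 1), by omega, Or.inr ?_, Or.inr (by omega)⟩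
      rcases hcap with ⟨h4, -, -⟩ | ⟨h4 | h4, -⟩ | h3
      · exact absurd h4 hH0
      · exact absurd h4 hH0
      · exact absurd h4 hH1
      · omega
  obtain ⟨t₀, t₁, htt, hc0, hc1⟩ := hmain
  obtain ⟨W₀, h1, h3, h4⟩ := exists_ts_sub (nd_K0 h.oz hrF) ha hc0
  obtain ⟨W₁, h5, h6, h7⟩ := exists_ts_sub (nd_K1 h.oz hrF) hb' hc1
  have hi1 : Inv T W₁ := by
    intro v hv
    rw [K1_two (fun _ _ => trivial) (h5 hv)]
    exact W₁.neg_mem hv
  obtain ⟨h8, h9, h10⟩ := combine_q h.oz hrF h1 h5 h3 h6 hi1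
  exact ⟨W₀ ⊔ W₁, h8, h9, by rw [h10, h4, h7, htt]⟩

/-- Isometries with square `-1`, the case where `-1` is a square. -/
theorem sqneg_sq (h2 : (2 : F) ≠ 0) (hN : (polarBilin Q).Nondegenerate) {d : ℕ} (hV : finrank F V = 2 * d)
    (hT : ∀ u v, polarBilin Q (T u) (T v) = polarBilin Q u v) (hT2 : ∀ v, T (T v) = - v) {c : F} (hc : c * c = -1) :
    HyQ Q ∧ ∀ m ≤ d, ∃ W : Submodule F V, (∀ w ∈ W, Q w = 0) ∧ Inv T W ∧ finrank F W = m := by
  have hB := fm_of_symm (polar_symm Q) hN
  have hc0 : c ≠ 0 := by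
    rintro rfl
    have : (0 : F) = -1 := by simpa using hc
    have h1 : (1 : F) = 0 := by linear_combination this
    exact one_ne_zero h1
  have hcop : IsCoprime (X - C c : F[X]) (X + C c) := by
    refine ⟨- C ((2 * c)⁻¹), C ((2 * c)⁻¹), ?_⟩
    have h3 : (2 * c) ≠ 0 := mul_ne_zero h2 hc0
    have h5 : C ((2 * c)⁻¹) * (C c + C c) = 1 := by
      rw [← C_add, ← two_mul, ← C_mul, inv_mul_cancel₀ h3, C_1]
    linear_combination h5
  have hsplit := sup_ker hcop (T := T) (W := ⊤) (fun v _ => trivial) (fun w _ => by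
    have h3 : (X - C c) * (X + C c) = (X ^ 2 + 1 : F[X]) := by
      have h4 : C c * C c = (-1 : F[X]) := by
        rw [← C_mul, hc]
        simp
      linear_combination -h4
    rw [h3]
    simp [pow_two, hT2])
  rw [top_inf_eq, top_inf_eq, finrank_top] at hsplit
  have hE : ∀ s : F, s * s = -1 → ∀ v ∈ LinearMap.ker (Polynomial.aeval T (X - C s)), T v = s • v := by
    intro s _ v hv
    have h3 := LinearMap.mem_ker.mp hv
    simp only [map_sub, aeval_X, aeval_C, LinearMap.sub_apply] at h3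
    rw [sub_eq_zero] at h3
    rw [h3]
    rfl
  have hti : ∀ s : F, s * s = -1 → TI (fun u v => polarBilin Q u v) (LinearMap.ker (Polynomial.aeval T (X - C s))) := by
    intro s hs u hu v hv
    have h3 := hT u v
    rw [hE s hs u hu, hE s hs v hv] at h3
    simp only [map_smul, LinearMap.smul_apply, smul_eq_mul] at h3
    have h4 : (2 : F) * polarBilin Q u v = 0 := by
      linear_combination (polarBilin Q u v) * hs - h3
    exact (mul_eq_zero.mp h4).resolve_left h2
  have hXc : (X + C c : F[X]) = X - C (-c) := by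
    simp
  have hcc : (-c) * (-c) = -1 := by
    rw [neg_mul_neg, hc]
  have h1 := hB.two_mul_finrank_le hB.nd_top le_top (hti c hc)
  have h3 := hB.two_mul_finrank_le hB.nd_top le_top (hti (-c) hcc)
  rw [finrank_top] at h1 h3
  have h3' : 2 * finrank F (LinearMap.ker (Polynomial.aeval T (X + C c))) ≤ finrank F V := by
    rw [hXc]
    exact h3
  have hd1 : finrank F (LinearMap.ker (Polynomial.aeval T (X - C c))) = d := by
    have := hsplit.2
    omega
  have hts := ts_of_ti_odd h2 (hti c hc)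
  refine ⟨⟨_, hts, by rw [hd1, hV]⟩, fun m hm => ?_⟩
  obtain ⟨W, hW, hWd⟩ := Cfsg.Agent.Lib.ElusF.HzTwo.exists_le_dim (LinearMap.ker (Polynomial.aeval T (X - C c))) (t := m) (by omega)
  refine ⟨W, fun w hw => hts w (hW hw), ?_, hWd⟩
  intro v hv
  rw [hE c hc v (hW hv)]
  exact W.smul_mem _ hv

/-- Isometries with square `-1`, the case where `-1` is not a square. -/
theorem sqneg_ns (h2 : (2 : F) ≠ 0) (hN : (polarBilin Q).Nondegenerate)
    (hT : ∀ u v, polarBilin Q (T u) (T v) = polarBilin Q u v) (hT2 : ∀ v, T (T v) = - v) (hn : ¬ IsSquare (-1 : F))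
    {s : ℕ} (hs : s = 0 ∨ 2 * 2 * (s - 1) + 2 < finrank F V) :
    ∃ W : Submodule F V, (∀ w ∈ W, Q w = 0) ∧ Inv T W ∧ finrank F W = 2 * s := by
  classical
  have hS := polar_symm Q
  have hB := fm_of_symm hS hN
  have hinj : Function.Injective T := by
    intro a b hab
    have h1 : T (T a) = T (T b) := by rw [hab]
    rw [hT2, hT2] at h1
    exact neg_injective h1
  have hT4 : T ^ 4 = 1 := by
    apply LinearMap.ext
    intro v
    simp only [pow_succ, pow_zero, one_mul, Module.End.mul_apply, hT2, map_neg, neg_neg]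
    rfl
  have hss : SS T := ss_of_pow (r := 4) (c := 1) (by
    have h4 : (4 : F) = 2 * 2 := by norm_num
    intro h
    push_cast at h
    rw [h4] at h
    exact (mul_ne_zero h2 h2) h) one_ne_zero (by rw [hT4, one_smul])
  obtain ⟨W, -, h3, h4, h5⟩ := cap hB hT hinj hss (e := 2) (d := 2) (U₀ := ⊤)
    (fun U _ _ hUi hpos => by
      obtain ⟨u, huU, hu0, hu⟩ := Cfsg.Agent.Lib.ElusT.TI.exists_sing (polarBilin Q) hpos
      have huTu : polarBilin Q u (T u) = 0 := by
        have h5 := hT u (T u)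
        rw [hT2, map_neg, hS.eq (T u) u] at h5
        have h6 : (2 : F) * polarBilin Q u (T u) = 0 := by
          rw [two_mul]
          nth_rewrite 1 [← h5]
          ring
        exact (mul_eq_zero.mp h6).resolve_left h2
      have hTuTu : polarBilin Q (T u) (T u) = 0 := by
        rw [hT, hu]
      have hTuu : polarBilin Q (T u) u = 0 := by
        rw [hS.eq]
        exact huTu
      have hind : LinearIndependent F ![u, T u] := by
        rw [LinearIndependent.pair_iff]
        intro a b hab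
        have hb : b = 0 := by
          by_contra hb
          have h5 : T u = (-(a / b)) • u := by
            have h6 : b • T u = (-a) • u := by
              rw [neg_smul]
              exact eq_neg_of_add_eq_zero_right hab
            calc T u = b⁻¹ • (b • T u) := by rw [smul_smul, inv_mul_cancel₀ hb, one_smul]
              _ = _ := by
                rw [h6, smul_smul]
                congr 1
                field_simp
          have h7 := hT2 u
          rw [h5, map_smul, h5, smul_smul] at h7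
          apply hn
          refine ⟨-(a / b), ?_⟩
          have h8 : ((-(a / b)) * (-(a / b)) + 1) • u = 0 := by
            rw [add_smul, h7, one_smul]
            simp
          have h9 := (smul_eq_zero.mp h8).resolve_right hu0
          linear_combination -h9
        subst hb
        rw [zero_smul, add_zero] at hab
        exact ⟨(smul_eq_zero.mp hab).resolve_right hu0, rfl⟩
      refine ⟨Submodule.span F {u, T u}, ?_, ?_, ?_, ?_⟩
      · rw [Submodule.span_le]
        rintro x (rfl | rfl)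
        · exact huU
        · exact hUi _ huU
      · intro x hx y hy
        obtain ⟨a, b, rfl⟩ := Submodule.mem_span_pair.mp hx
        obtain ⟨c, e, rfl⟩ := Submodule.mem_span_pair.mp hy
        change polarBilin Q (a • u + b • T u) (c • u + e • T u) = 0
        simp only [map_add, map_smul, LinearMap.add_apply, LinearMap.smul_apply, smul_eq_mul, hu, huTu, hTuTu, hTuu]
        ring
      · intro x hx
        obtain ⟨a, b, rfl⟩ := Submodule.mem_span_pair.mp hx
        rw [map_add, map_smul, map_smul, hT2]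
        exact Submodule.add_mem _ (Submodule.smul_mem _ _ (Submodule.subset_span (by simp)))
          (Submodule.smul_mem _ _ (Submodule.neg_mem _ (Submodule.subset_span (by simp))))
      · have := finrank_span_eq_card hind
        simp only [Fintype.card_fin] at this
        have h3 : Set.range ![u, T u] = {u, T u} := by
          ext x
          simp only [Matrix.range_cons, Matrix.range_empty, Set.union_empty, Set.mem_union,
            Set.mem_singleton_iff, Set.mem_insert_iff]
        rwa [h3] at this)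
    s ⊤ le_rfl hB.nd_top (fun v _ => trivial) (by
      rcases hs with h0 | h0
      · exact Or.inl h0
      · right
        rw [finrank_top]
        exact h0)
  exact ⟨W, ts_of_ti_odd h2 h3, h4, h5⟩

/-- The type of a space with an isometry with square `-1`, when `-1` is not a square. -/
theorem hyQ_of_sqneg (h2 : (2 : F) ≠ 0) (hN : (polarBilin Q).Nondegenerate) {d : ℕ} (hV : finrank F V = 2 * d)
    (hT : ∀ u v, polarBilin Q (T u) (T v) = polarBilin Q u v) (hT2 : ∀ v, T (T v) = - v) (hn : ¬ IsSquare (-1 : F)) :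
    HyQ Q ↔ Even d := by
  have hS := polar_symm Q
  have hB := fm_of_symm hS hN
  rw [← hyS_top, hyS_iff_hy h2, hy_iff h2 hS hB.nd_top (l := d) (by rw [finrank_top, hV])]
  obtain ⟨c, hc⟩ := dd_top_of_sqneg hN h2 hT hT2
  have hc0 : c ≠ 0 := by
    rintro rfl
    have := dd_ne_zero hS hB.nd_top
    rw [hc, zero_mul] at this
    exact this rfl
  rw [hc]
  rcases Nat.even_or_odd d with he | ho
  · rw [he.neg_one_pow, one_mul]
    simp [he]
  · rw [ho.neg_one_pow]
    have hne : ¬ Even d := Nat.not_even_iff_odd.mpr ho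
    simp only [hne, iff_false]
    intro hs
    apply hn
    rw [neg_mul, one_mul] at hs
    have h3 : (-1 : F) * (c * c) = -(c * c) := by ring
    rw [← h3, mul_comm] at hs
    exact (isSquare_mul_self_mul hc0 _).mp hs

end Cfsg.Agent.Lib.ElusT.QTwo
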