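import Cfsg.Agent.Lib.ElusT.QTwo

/-!
# Projective involutions and totally singular subspaces: matrix forms
-/

set_option autoImplicit false
set_option linter.unusedSectionVars false
set_option linter.style.haveILetI false
set_option linter.unusedVariables false
set_option linter.unusedSimpArgs false

open Polynomial Module QuadraticMap Matrix

universe u v w

namespace Cfsg.Agent.Lib.ElusT.QTwoM

open Cfsg Cfsg.Agent.Lib.ElusL.Basic Cfsg.Agent.Lib.ElusL.Cyc Cfsg.Agent.Lib.ElusL.Flag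
  Cfsg.Agent.Lib.ElusF.Form Cfsg.Agent.Lib.ElusF.Step Cfsg.Agent.Lib.ElusF.Split Cfsg.Agent.Lib.ElusF.SpNeg
  Cfsg.Agent.Lib.ElusF.SpModel Cfsg.Agent.Lib.ElusF.SpTwo
  Cfsg.Agent.Lib.ElusQ.Oz Cfsg.Agent.Lib.ElusQ.Pos Cfsg.Agent.Lib.ElusQ.Syl Cfsg.Agent.Lib.ElusQ.Disc
  Cfsg.Agent.Lib.ElusQ.SqNeg Cfsg.Agent.Lib.ElusQ.SqNegMain Cfsg.Agent.Lib.ElusQ.Bridge
  Cfsg.Agent.Lib.ElusT.QType Cfsg.Agent.Lib.ElusT.QK1 Cfsg.Agent.Lib.ElusT.QModel Cfsg.Agent.Lib.ElusT.Count
  Cfsg.Agent.Lib.ElusT.QTS Cfsg.Agent.Lib.ElusT.QFw Cfsg.Agent.Lib.ElusT.QBk Cfsg.Agent.Lib.ElusT.Two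
  Cfsg.Agent.Lib.ElusT.QTwo
  Cfsg.Agent.Lib.Orth.Refl Cfsg.Agent.Lib.Orth.Bridge Cfsg.Agent.Lib.Orth.Words Cfsg.Agent.Lib.Elusive.OmegaMem
  Cfsg.Agent.Lib.QuadDisc.Basic Cfsg.Agent.Lib.QuadDisc.Classify

variable {F : Type u} [Field F] [Fintype F] {q : ℕ}

/-- Invariant subspaces for an isometry with square `-1` have even dimension if `-1` is not a square. -/
theorem even_inv {V : Type v} [AddCommGroup V] [Module F V] [FiniteDimensional F V] {T : End F V}
    (hT2 : ∀ v, T (T v) = - v) (hn : ¬ IsSquare (-1 : F)) {W : Submodule F V} (hW : Inv T W) :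
    Even (finrank F W) := by
  have hg : Irreducible (X ^ 2 + 1 : F[X]) := irr_sq (fun c hc => hn ⟨c, hc.symm⟩)
  have hd := natDegree_dvd_inf hg hW
  have hker : LinearMap.ker (Polynomial.aeval T (X ^ 2 + 1 : F[X])) = ⊤ := by
    rw [LinearMap.ker_eq_top]
    apply LinearMap.ext
    intro v
    simp [pow_two, hT2]
  rw [hker, inf_top_eq] at hd
  have h3 : (X ^ 2 + 1 : F[X]).natDegree = 2 := by
    compute_degree!
  rw [h3] at hd
  exact even_iff_two_dvd.mpr hd

variable {ι : Type} [Fintype ι] [DecidableEq ι] (Q : QuadraticForm F (ι → F))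

/-- The elusive property for the prime `r`. -/
def Elus (Q : QuadraticForm F (ι → F)) (r m : ℕ) : Prop :=
  ∀ x : GL ι F, x ∈ Cfsg.Geo.omegaGL ⇑Q →
    (∃ z : F, ((x ^ r : GL ι F) : Matrix ι ι F) = z • (1 : Matrix ι ι F)) →
    (∀ z : F, (x : Matrix ι ι F) ≠ z • (1 : Matrix ι ι F)) →
    ∃ W : Submodule F (ι → F), (∀ w ∈ W, Q w = 0) ∧ Inv (Matrix.toLin' (x : Matrix ι ι F)) W ∧ finrank F W = m

variable {Q}

/-- An involution of `Ω`. -/
theorem invol_facts (hN : (polarBilin Q).Nondegenerate) (h2 : (2 : F) ≠ 0) {x : GL ι F}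
    (hx : x ∈ Cfsg.Geo.omegaGL ⇑Q) (hx2 : x ^ 2 = 1) :
    Mz Q (Matrix.toLin' (x : Matrix ι ι F)) 2 ∧ Even (finrank F (K1 (Matrix.toLin' (x : Matrix ι ι F)) 2)) ∧
      (IsSquare (-1 : F) → HyS Q (K1 (Matrix.toLin' (x : Matrix ι ι F)) 2)) := by
  obtain ⟨hxi, -⟩ := (mem_omegaGL_iff _ x).mp hx
  have hT := oz_of_mem Q hN hxi hx2
  have hM : Mz Q (Matrix.toLin' (x : Matrix ι ι F)) 2 := ⟨hT, fun v => by
    rw [Matrix.toLin'_apply]
    exact (mem_isometryGroup_iff _ _).mp hxi v⟩
  obtain ⟨hev, hsq⟩ := omega_invol Q hN h2 hx hx2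
  refine ⟨hM, hev, fun hc => ?_⟩
  have hrF : ((2 : ℕ) : F) ≠ 0 := by exact_mod_cast h2
  obtain ⟨b, hb⟩ := hev
  rw [hyS_iff_hy h2, hy_iff h2 (polar_symm Q) (nd_K1 hT hrF) (l := b) (by omega)]
  obtain ⟨c, hc⟩ := hc
  obtain ⟨s, hs⟩ := hsq
  refine ⟨c ^ b * s, ?_⟩
  rw [hs, hc]
  ring

/-- From `T` with square `-1` to `Ω`. -/
theorem exists_gl_sqneg (hN : (polarBilin Q).Nondegenerate) (h2 : (2 : F) ≠ 0) {d : ℕ}
    (hcard : Fintype.card ι = 2 * d) (h1 : IsSquare (dd (polarBilin Q) ⊤)) (h3 : IsSquare ((2 : F) ^ d)) (hd : 0 < d) :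
    ∃ x : GL ι F, x ∈ Cfsg.Geo.omegaGL ⇑Q ∧
      (∃ z : F, ((x ^ 2 : GL ι F) : Matrix ι ι F) = z • (1 : Matrix ι ι F)) ∧
      (∀ z : F, (x : Matrix ι ι F) ≠ z • (1 : Matrix ι ι F)) ∧
      ∀ v, Matrix.toLin' (x : Matrix ι ι F) (Matrix.toLin' (x : Matrix ι ι F) v) = - v := by
  have hS := polar_symm Q
  have hdim : finrank F (ι → F) = 2 * d := by rw [finrank_ι, hcard]
  obtain ⟨T, hT, hT2⟩ := exists_sqneg h2 hN hdim h1
  have hXT : Matrix.toLin' (LinearMap.toMatrix' T) = T := Matrix.toLin'_toMatrix' T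
  have hT4 : T ^ 4 = 1 := by
    apply LinearMap.ext
    intro v
    simp only [pow_succ, pow_zero, one_mul, Module.End.mul_apply, hT2, map_neg, neg_neg]
    rfl
  have hX4 : (LinearMap.toMatrix' T) ^ 4 = 1 := by
    rw [toMatrix_pow, hT4]
    exact LinearMap.toMatrix'_one
  let x : GL ι F := glOfPow (LinearMap.toMatrix' T) 4 (by norm_num) hX4
  have hxT : Matrix.toLin' (x : Matrix ι ι F) = T := hXT
  have hxi : x ∈ isometryGroup F ⇑Q := by
    rw [mem_isometryGroup_iff]
    intro v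
    have h5 := hT v v
    rw [Cfsg.Agent.Lib.ElusQ.Syl.polar_self', Cfsg.Agent.Lib.ElusQ.Syl.polar_self'] at h5
    have h6 := mul_left_cancel₀ h2 h5
    rw [← Matrix.toLin'_apply, hxT]
    exact h6
  have hΩ : x ∈ Cfsg.Geo.omegaGL ⇑Q := (omega_iff_sqneg Q hN h2 hcard hxi (by
    rw [hxT]
    exact hT2)).mpr h3
  have hsc : ((x ^ 2 : GL ι F) : Matrix ι ι F) = (-1 : F) • (1 : Matrix ι ι F) := by
    rw [Units.val_pow_eq_pow_val]
    apply Matrix.toLin'.injective
    apply LinearMap.ext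
    intro v
    rw [← Cfsg.Agent.Lib.ElusQ.Bridge.toLin_pow, hxT]
    simp only [pow_succ, pow_zero, one_mul, Module.End.mul_apply, hT2]
    rw [Matrix.toLin'_apply, Matrix.smul_mulVec, Matrix.one_mulVec, neg_one_smul]
  have hns : ∀ z : F, (x : Matrix ι ι F) ≠ z • (1 : Matrix ι ι F) := by
    intro z hz
    obtain ⟨e, he⟩ := exists_self_ne_zero h2 (polarBilin Q) hN hS (by rw [hdim]; omega)
    have hTe : T e = z • e := by
      rw [← hxT, hz, Matrix.toLin'_apply, Matrix.smul_mulVec, Matrix.one_mulVec]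
    have h5 := hT e (T e)
    rw [hT2, map_neg, hS.eq (T e) e] at h5
    have h6 : (2 : F) * polarBilin Q e (T e) = 0 := by
      rw [two_mul]
      nth_rewrite 1 [← h5]
      ring
    have h7 := (mul_eq_zero.mp h6).resolve_left h2
    rw [hTe] at h7
    simp only [map_smul, smul_eq_mul] at h7
    have hz0 : z = 0 := (mul_eq_zero.mp h7).resolve_right he
    have h8 := hT2 e
    rw [hTe, hz0, zero_smul, map_zero] at h8
    have h9 : e = 0 := neg_eq_zero.mp h8.symm
    rw [h9] at he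
    simp at he
  refine ⟨x, hΩ, ⟨_, hsc⟩, hns, ?_⟩
  rw [hxT]
  exact hT2

/-- The involution with a two-dimensional elliptic `-1` part. -/
theorem two_neg_ts (hN : (polarBilin Q).Nondegenerate) (h2 : (2 : F) ≠ 0) (hq : Fintype.card F = q) {d : ℕ}
    (hcard : Fintype.card ι = 2 * d) (hd : 2 ≤ d) {v₁ v₂ : ι → F} (h1 : Q v₁ = 1) (h3 : Q v₂ = 1)
    (h12 : polar Q v₁ v₂ = 0) (hn : ¬ IsSquare (-1 : F)) (hty : HyQ Q) :
    ∃ x : GL ι F, x ∈ Cfsg.Geo.omegaGL ⇑Q ∧ x ^ 2 = 1 ∧ (∀ z : F, (x : Matrix ι ι F) ≠ z • (1 : Matrix ι ι F)) ∧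
      ∀ W : Submodule F (ι → F), (∀ w ∈ W, Q w = 0) → Inv (Matrix.toLin' (x : Matrix ι ι F)) W →
      finrank F W + 2 ≤ d := by
  have hS := polar_symm Q
  have hB := fm_of_symm hS hN
  have hdim : finrank F (ι → F) = 2 * d := by rw [finrank_ι, hcard]
  have hv10 : v₁ ≠ 0 := by
    rintro rfl
    simp at h1
  have hv20 : v₂ ≠ 0 := by
    rintro rfl
    simp at h3
  have h21 : polar Q v₂ v₁ = 0 := by
    rw [polar_comm]
    exact h12
  have hQ1 : Q v₁ ≠ 0 := by
    rw [h1]
    exact one_ne_zero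
  have hQ2 : Q v₂ ≠ 0 := by
    rw [h3]
    exact one_ne_zero
  let e : (ι → F) ≃ₗ[F] (ι → F) := refl Q v₁ * refl Q v₂
  let T : End F (ι → F) := (e : (ι → F) →ₗ[F] (ι → F))
  have hTa : ∀ w, T w = w - polar Q w v₁ • v₁ - polar Q w v₂ • v₂ := by
    intro w
    change refl Q v₁ (refl Q v₂ w) = _
    simp only [refl_apply, h1, h3, inv_one, one_mul]
    simp only [polar_sub_left, polar_smul_left, h21, smul_eq_mul, mul_zero, sub_zero]
    abel
  have hTT : ∀ w, T (T w) = w := by
    intro w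
    change (e * e) w = w
    have h4 : e * e = 1 := by
      change refl Q v₁ * refl Q v₂ * (refl Q v₁ * refl Q v₂) = 1
      have hcomm := refl_comm_of_ortho Q h12
      calc refl Q v₁ * refl Q v₂ * (refl Q v₁ * refl Q v₂) = refl Q v₁ * (refl Q v₂ * refl Q v₁) * refl Q v₂ := by
            simp only [mul_assoc]
        _ = refl Q v₁ * (refl Q v₁ * refl Q v₂) * refl Q v₂ := by rw [← hcomm]
        _ = (refl Q v₁ * refl Q v₁) * (refl Q v₂ * refl Q v₂) := by simp only [mul_assoc]
        _ = 1 := by rw [refl_mul_self, refl_mul_self, one_mul]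
    rw [h4]
    rfl
  have hT2 : T ^ 2 = 1 := by
    apply LinearMap.ext
    intro v
    rw [pow_two, Module.End.mul_apply, hTT]
    rfl
  have hX2 : (LinearMap.toMatrix' T) ^ 2 = 1 := by
    rw [toMatrix_pow, hT2]
    exact LinearMap.toMatrix'_one
  let x : GL ι F := glOfPow (LinearMap.toMatrix' T) 2 (by norm_num) hX2
  have hxT : Matrix.toLin' (x : Matrix ι ι F) = T := Matrix.toLin'_toMatrix' T
  have hx2 : x ^ 2 = 1 := glOfPow_pow _ _ _ _
  have hxi : x ∈ isometryGroup F ⇑Q := by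
    rw [mem_isometryGroup_iff]
    intro v
    rw [← Matrix.toLin'_apply, hxT]
    change Q (refl Q v₁ (refl Q v₂ v)) = Q v
    rw [refl_mem Q v₁ _, refl_mem Q v₂ _]
  have hgw : (x : Matrix ι ι F) = ([v₁, v₂].map (fun v => reflectionMatrix ⇑Q v)).prod := by
    apply mat_eq_of_mulVec
    intro v
    rw [word_mulVec, ← Matrix.toLin'_apply, hxT]
    simp [T, e]
  have hcard' : Fintype.card F ≠ 2 := card_ne_two h2
  have hΩ : x ∈ Cfsg.Geo.omegaGL ⇑Q := by
    rw [mem_omegaGL_iff]
    refine ⟨hxi, (word_mem_Omega_iff Q hN (Or.inl hcard') ⟨x, hxi⟩ [v₁, v₂] ?_ hgw).mpr ⟨by simp, ?_⟩⟩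
    · intro v hv
      simp only [List.mem_cons, List.not_mem_nil, or_false] at hv
      rcases hv with rfl | rfl
      · exact hQ1
      · exact hQ2
    · simp [h1, h3]
  have hS1 : polarBilin Q v₁ v₁ = 2 := by
    have := Cfsg.Agent.Lib.ElusQ.Syl.polar_self' Q v₁
    rw [h1, mul_one] at this
    exact this
  have hS2 : polarBilin Q v₂ v₂ = 2 := by
    have := Cfsg.Agent.Lib.ElusQ.Syl.polar_self' Q v₂
    rw [h3, mul_one] at this
    exact this
  -- the plane
  have hline : ∀ {y : ι → F}, polarBilin Q y y = 2 → Nd (fun u v => polarBilin Q u v) (Submodule.span F {y}) := by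
    intro y hy x hx hh
    obtain ⟨c, rfl⟩ := Submodule.mem_span_singleton.mp hx
    have h4 := hh y (Submodule.mem_span_singleton_self y)
    simp only [map_smul, LinearMap.smul_apply, smul_eq_mul, hy] at h4
    have hc : c = 0 := (mul_eq_zero.mp h4).resolve_right h2
    rw [hc, zero_smul]
  have hL₁ := hline hS1
  have hL₂ := hline hS2
  have horthL : ∀ x ∈ Submodule.span F {v₁}, ∀ y ∈ Submodule.span F {v₂}, polarBilin Q x y = 0 := by
    intro x hx y hy
    obtain ⟨c, rfl⟩ := Submodule.mem_span_singleton.mp hx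
    obtain ⟨d, rfl⟩ := Submodule.mem_span_singleton.mp hy
    have : polarBilin Q v₁ v₂ = 0 := h12
    simp [this]
  have hdis : Disjoint (Submodule.span F {v₁}) (Submodule.span F {v₂}) := by
    rw [Submodule.disjoint_def]
    intro x hx hx'
    apply hL₁ x hx
    intro y hy
    change polarBilin Q x y = 0
    rw [hS.eq]
    exact horthL y hy x hx'
  set P := Submodule.span F {v₁} ⊔ Submodule.span F {v₂} with hP
  have hPn : Nd (fun u v => polarBilin Q u v) P := nd_sup hB hL₁ hL₂ (fun y hy x hx => horthL x hx y hy)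
  have hPd : finrank F P = 2 := by
    rw [hP, finrank_sup_of_disjoint' hdis, finrank_span_singleton hv10, finrank_span_singleton hv20]
  have hU := hB.nd_orth hPn
  have hUd := hB.finrank_orth P
  have hns : ∀ z : F, (x : Matrix ι ι F) ≠ z • (1 : Matrix ι ι F) := by
    intro z hz
    have hTz : ∀ w, T w = z • w := by
      intro w
      rw [← hxT, hz, Matrix.toLin'_apply, Matrix.smul_mulVec, Matrix.one_mulVec]
    have h4 := hTz v₁
    rw [hTa, show polar Q v₁ v₁ = 2 from hS1, h12, zero_smul, sub_zero] at h4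
    have h5 : (-1 : F) = z := by
      have h6 : (-1 - z) • v₁ = 0 := by
        rw [sub_smul, ← h4, two_smul]
        simp
      have h7 := (smul_eq_zero.mp h6).resolve_right hv10
      linear_combination h7
    have hpos : 0 < finrank F (hB.orth P) := by omega
    haveI := Module.nontrivial_of_finrank_pos (R := F) hpos
    obtain ⟨⟨y, hy⟩, hy0⟩ := exists_ne (0 : hB.orth P)
    have hy0' : y ≠ 0 := fun h => hy0 (Subtype.ext h)
    have hy1 : polar Q y v₁ = 0 := by
      have h6 : polarBilin Q v₁ y = 0 := hy v₁ (Submodule.mem_sup_left (Submodule.mem_span_singleton_self v₁))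
      rw [hS.eq] at h6
      exact h6
    have hy2 : polar Q y v₂ = 0 := by
      have h6 : polarBilin Q v₂ y = 0 := hy v₂ (Submodule.mem_sup_right (Submodule.mem_span_singleton_self v₂))
      rw [hS.eq] at h6
      exact h6
    have h6 := hTz y
    rw [hTa, hy1, hy2, zero_smul, zero_smul, sub_zero, sub_zero, ← h5, neg_one_smul] at h6
    have h7 : (2 : F) • y = 0 := by
      rw [two_smul]
      nth_rewrite 1 [h6]
      simp
    exact (smul_ne_zero h2 hy0') h7
  refine ⟨x, hΩ, hx2, hns, fun W hW hWi => ?_⟩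
  rw [hxT] at hWi
  have hWT := ti_of_ts hW
  have hQP : ∀ a b : F, Q (a • v₁ + b • v₂) = a * a + b * b := by
    intro a b
    have h9 : polar Q (a • v₁) (b • v₂) = 0 := by
      simp [h12]
    have h10 : Q (a • v₁ + b • v₂) = Q (a • v₁) + Q (b • v₂) + polar Q (a • v₁) (b • v₂) :=
      QuadraticMap.map_add Q _ _
    rw [h10, h9, QuadraticMap.map_smul, QuadraticMap.map_smul, h1, h3]
    simp
  have hani : ∀ a b : F, a * a + b * b = 0 → a = 0 ∧ b = 0 := by
    intro a b hab
    by_contra hc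
    apply hn
    by_cases h0 : a = 0
    · have h0' : b ≠ 0 := fun h' => hc ⟨h0, h'⟩
      rw [h0, mul_zero, zero_add] at hab
      exact absurd (mul_self_eq_zero.mp hab) h0'
    · refine ⟨b * a⁻¹, ?_⟩
      field_simp
      linear_combination (-1 : F) * hab
  have hWU : W ≤ hB.orth P := by
    intro w hw y hy
    have h4 : w - T w ∈ W := W.sub_mem hw (hWi w hw)
    rw [hTa] at h4
    have h5 : w - (w - polar Q w v₁ • v₁ - polar Q w v₂ • v₂) = polar Q w v₁ • v₁ + polar Q w v₂ • v₂ := by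
      abel
    rw [h5] at h4
    have h6 := hW _ h4
    rw [hQP] at h6
    have hc1 := hani _ _ h6
    obtain ⟨y₁, hy₁, y₂, hy₂, rfl⟩ := Submodule.mem_sup.mp hy
    obtain ⟨c, rfl⟩ := Submodule.mem_span_singleton.mp hy₁
    obtain ⟨d, rfl⟩ := Submodule.mem_span_singleton.mp hy₂
    have h11 : polarBilin Q v₁ w = 0 := by
      rw [hS.eq]
      exact hc1.1
    have h13 : polarBilin Q v₂ w = 0 := by
      rw [hS.eq]
      exact hc1.2
    change polarBilin Q (c • v₁ + d • v₂) w = 0
    simp [h11, h13]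
  have h4 := hB.two_mul_finrank_le hU hWU hWT
  -- the types
  have hnP : ¬ HyS Q P := by
    rintro ⟨X, hXP, hX, hXd⟩
    have hXpos : 0 < finrank F X := by omega
    haveI := Module.nontrivial_of_finrank_pos (R := F) hXpos
    obtain ⟨⟨y, hy⟩, hy0⟩ := exists_ne (0 : X)
    apply hy0
    apply Subtype.ext
    change y = 0
    obtain ⟨y₁, hy₁, y₂, hy₂, rfl⟩ := Submodule.mem_sup.mp (hXP hy)
    obtain ⟨c, rfl⟩ := Submodule.mem_span_singleton.mp hy₁
    obtain ⟨d, rfl⟩ := Submodule.mem_span_singleton.mp hy₂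
    have h6 := hX _ hy
    rw [hQP] at h6
    obtain ⟨rfl, rfl⟩ := hani _ _ h6
    simp
  obtain ⟨hsup, -⟩ := hB.isCompl_inf_orth hPn (U := ⊤) le_top
  rw [top_inf_eq] at hsup
  have h5 := hyS_sup hq hPn hU (a := 1) (b := d - 1) (fun p hp u hu => hu p hp) (by rw [hPd]) (by omega)
  rw [hsup, hyS_top] at h5
  have hnU : ¬ HyS Q (hB.orth P) := fun hc => hnP ((h5.mp hty).mpr hc)
  have h6 : 2 * finrank F W ≠ finrank F (hB.orth P) := fun h7 => hnU ⟨W, hWU, hW, h7⟩
  omega

theorem q_mod (h2 : (2 : F) ≠ 0) (hq : Fintype.card F = q) : q % 4 = 1 ∨ q % 4 = 3 := by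
  have h1 : ringChar F ≠ 2 := by
    intro h
    apply h2
    have := ringChar.Nat.cast_ringChar (R := F)
    rw [h] at this
    exact_mod_cast this
  have h3 := FiniteField.odd_card_of_char_ne_two h1
  rw [hq] at h3
  omega

theorem sq_of_scalar {x : GL ι F} (hz : ((x ^ 2 : GL ι F) : Matrix ι ι F) = (-1 : F) • (1 : Matrix ι ι F)) :
    ∀ v, Matrix.toLin' (x : Matrix ι ι F) (Matrix.toLin' (x : Matrix ι ι F) v) = - v := by
  intro v
  have h3 : Matrix.toLin' ((x : Matrix ι ι F) ^ 2) v = - v := by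
    rw [← Units.val_pow_eq_pow_val, hz, Matrix.toLin'_apply, Matrix.smul_mulVec, Matrix.one_mulVec,
      neg_one_smul]
  rw [← h3, ← Cfsg.Agent.Lib.ElusQ.Bridge.toLin_pow]
  simp only [pow_succ, pow_zero, one_mul, Module.End.mul_apply]

theorem exp_eq {d b : ℕ} {a : ℕ} (hsum : 2 * d = a + b + b) : a = 2 * (d - b) := by omega

/-- Involutions in the plus case. -/
theorem two_plus_iff (hN : (polarBilin Q).Nondegenerate) (h2 : (2 : F) ≠ 0) (hq : Fintype.card F = q) {d m : ℕ}
    (hcard : Fintype.card ι = 2 * d) (hty : HyQ Q) (hd : 2 ≤ d) (hmd : m < d) {v₁ v₂ : ι → F} (h1 : Q v₁ = 1)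
    (h3 : Q v₂ = 1) (h12 : polar Q v₁ v₂ = 0) :
    Elus Q 2 m ↔ (q % 4 = 1 ∨ (q % 4 = 3 ∧ m + 2 ≤ d ∧ (Even m ∨ (2 * d) % 4 = 2))) := by
  have hS := polar_symm Q
  have hB := fm_of_symm hS hN
  have hdim : finrank F (ι → F) = 2 * d := by rw [finrank_ι, hcard]
  have hrF : ((2 : ℕ) : F) ≠ 0 := by exact_mod_cast h2
  constructor
  · intro H
    rcases q_mod h2 hq with h4 | h4
    · exact Or.inl h4
    · right
      have hn : ¬ IsSquare (-1 : F) := by
        rw [FiniteField.isSquare_neg_one_iff, hq]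
        omega
      refine ⟨h4, ?_, ?_⟩
      · obtain ⟨x, hx, hx2, hns, hW⟩ := two_neg_ts hN h2 hq hcard hd h1 h3 h12 hn hty
        obtain ⟨W, h5, h6, h7⟩ := H x hx ⟨1, by
          rw [hx2]
          simp⟩ hns
        have := hW W h5 h6
        omega
      · by_contra hcon
        rw [not_or] at hcon
        obtain ⟨hm, hd4⟩ := hcon
        have hev : Even d := by
          rw [Nat.even_iff]
          omega
        have h5 : IsSquare (dd (polarBilin Q) ⊤) := by
          have h6 := (hy_iff h2 hS hB.nd_top (l := d) (by rw [finrank_top, hdim])).mp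
            ((hyS_iff_hy h2 ⊤).mp ((hyS_top Q).mpr hty))
          rw [hev.neg_one_pow, one_mul] at h6
          exact h6
        obtain ⟨x, hx, hsc, hns, hsq⟩ := exists_gl_sqneg hN h2 hcard h5 (hev.isSquare_pow _) (by omega)
        obtain ⟨W, h6, h7, h8⟩ := H x hx hsc hns
        have := even_inv hsq hn h7
        rw [h8] at this
        exact hm this
  · intro hc x hx ⟨z, hz⟩ hns
    obtain ⟨hxi, -⟩ := (mem_omegaGL_iff _ x).mp hx
    rcases scalar_of_sq Q hN h2 (by omega) hxi hz with rfl | rfl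
    · have hx2 : x ^ 2 = 1 := by
        apply Units.ext
        rw [hz]
        simp
      obtain ⟨hM, hev, hsqK⟩ := invol_facts hN h2 hx hx2
      refine exists_W_cap hM h2 hq hdim hev ?_
      rcases hc with h4 | ⟨h4, h5, -⟩
      · left
        have hK1 := hsqK ((FiniteField.isSquare_neg_one_iff).mpr (by rw [hq]; omega))
        obtain ⟨b, hb⟩ := hev
        have hsum := finrank_K hM.oz hrF
        have hK0 := (hyQ_K hM.oz hq hrF (a := d - b) (b := b) (by omega) (by omega)).mp hty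
        exact ⟨hK0.mpr hK1, hK1, by omega⟩
      · right
        right
        exact h5
    · have hsq := sq_of_scalar hz
      have hT := iso_of_mem Q hN hxi
      by_cases hs : IsSquare (-1 : F)
      · obtain ⟨c, hc'⟩ := hs
        exact (sqneg_sq h2 hN hdim hT hsq hc'.symm).2 m hmd.le
      · have hev := (hyQ_of_sqneg h2 hN hdim hT hsq hs).mp hty
        have hm : Even m := by
          rcases hc with h4 | ⟨h4, h5, h6⟩
          · exfalso
            apply hs
            rw [FiniteField.isSquare_neg_one_iff, hq]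
            omega
          · rcases h6 with h6 | h6
            · exact h6
            · rw [Nat.even_iff] at hev
              omega
        obtain ⟨s, hs'⟩ := hm
        obtain ⟨W, h4, h5, h6⟩ := sqneg_ns (s := s) h2 hN hT hsq hs (by
          rw [hdim]
          omega)
        exact ⟨W, h4, h5, by omega⟩

/-- Involutions in the minus case. -/
theorem two_minus_iff (hN : (polarBilin Q).Nondegenerate) (h2 : (2 : F) ≠ 0) (hq : Fintype.card F = q) {d m : ℕ}
    (hcard : Fintype.card ι = 2 * d) (hty : ¬ HyQ Q) (hd : 0 < d) (hmd : m + 1 ≤ d) :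
    Elus Q 2 m ↔ (Even d ∨ Even m ∨ q % 8 ≠ 7) := by
  have hS := polar_symm Q
  have hB := fm_of_symm hS hN
  have hdim : finrank F (ι → F) = 2 * d := by rw [finrank_ι, hcard]
  have hrF : ((2 : ℕ) : F) ≠ 0 := by exact_mod_cast h2
  constructor
  · intro H
    by_contra hcon
    rw [not_or, not_or] at hcon
    obtain ⟨hde, hm, h8⟩ := hcon
    have h8' : q % 8 = 7 := by omega
    have hn : ¬ IsSquare (-1 : F) := by
      rw [FiniteField.isSquare_neg_one_iff, hq]
      omega
    have hod : Odd d := Nat.not_even_iff_odd.mp hde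
    have h5 : IsSquare (dd (polarBilin Q) ⊤) := by
      by_contra h5
      apply hty
      rw [← hyS_top, hyS_iff_hy h2, hy_iff h2 hS hB.nd_top (l := d) (by rw [finrank_top, hdim]), hod.neg_one_pow]
      rw [mul_comm]
      exact (Cfsg.Agent.Lib.Orth.Gram.isSquare_mul_nonsquare_iff (dd_ne_zero hS hB.nd_top) hn).mpr h5
    have h2s : IsSquare (2 : F) := by
      rw [FiniteField.isSquare_two_iff, hq]
      omega
    obtain ⟨x, hx, hsc, hns, hsq⟩ := exists_gl_sqneg hN h2 hcard h5 (h2s.pow _) (by omega)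
    obtain ⟨W, h6, h7, h9⟩ := H x hx hsc hns
    have := even_inv hsq hn h7
    rw [h9] at this
    exact hm this
  · intro hc x hx ⟨z, hz⟩ hns
    obtain ⟨hxi, -⟩ := (mem_omegaGL_iff _ x).mp hx
    rcases scalar_of_sq Q hN h2 (by omega) hxi hz with rfl | rfl
    · have hx2 : x ^ 2 = 1 := by
        apply Units.ext
        rw [hz]
        simp
      obtain ⟨hM, hev, hsqK⟩ := invol_facts hN h2 hx hx2
      refine exists_W_cap hM h2 hq hdim hev (Or.inr (Or.inl ⟨?_, hmd⟩))
      obtain ⟨b, hb⟩ := hev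
      have hsum := finrank_K hM.oz hrF
      have hK0 := hyQ_K hM.oz hq hrF (a := d - b) (b := b) (by omega) (by omega)
      by_contra hcon
      rw [not_or] at hcon
      apply hty
      rw [hK0]
      exact iff_of_false hcon.1 hcon.2
    · have hsq := sq_of_scalar hz
      have hT := iso_of_mem Q hN hxi
      by_cases hs : IsSquare (-1 : F)
      · obtain ⟨c, hc'⟩ := hs
        exact absurd (sqneg_sq h2 hN hdim hT hsq hc'.symm).1 hty
      · have hnd : ¬ Even d := fun he => hty ((hyQ_of_sqneg h2 hN hdim hT hsq hs).mpr he)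
        have hm : Even m := by
          rcases hc with h4 | h4 | h4
          · exact absurd h4 hnd
          · exact h4
          · exfalso
            have h6 := (omega_iff_sqneg Q hN h2 hcard hxi hsq).mp hx
            have hod : Odd d := Nat.not_even_iff_odd.mp hnd
            obtain ⟨k, hk⟩ := hod
            rw [hk, pow_succ, pow_mul] at h6
            have h7 : ((2 : F) ^ 2) ^ k = (2 ^ k) * (2 ^ k) := by
              rw [← pow_mul, mul_comm 2 k, pow_mul, pow_two]
            rw [h7] at h6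
            have h8 := (isSquare_mul_self_mul (pow_ne_zero k h2) _).mp h6
            rw [FiniteField.isSquare_two_iff, hq] at h8
            rw [FiniteField.isSquare_neg_one_iff, hq] at hs
            omega
        obtain ⟨s, hs'⟩ := hm
        obtain ⟨W, h4, h5, h6⟩ := sqneg_ns (s := s) h2 hN hT hsq hs (by
          rw [hdim]
          omega)
        exact ⟨W, h4, h5, by omega⟩

end Cfsg.Agent.Lib.ElusT.QTwoM
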